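import Mathlib
import Cfsg.Agent.Lib.Helper54.DkMax

/-! Project SL6-S6 (S5798), piece S6-SL2 (helper95): a subgroup of `SL₂(F)` (odd `q`) containing
`uu (a c)`, `ll (b d)` for all `c, d` in a subfield closed under square roots contains `-1`. -/

set_option autoImplicit false

namespace Cfsg.Agent.Lib.Helper95.S6

open Matrix Cfsg.Agent.S0809 Cfsg.Agent.Lib.Helper19.Dk Cfsg.Agent.Lib.Helper54

section

variable {K : Type*} [Field K]

theorem sl2_prj_eq_01 (A B : S2 K) (h : prj K A = prj K B) : A 0 1 * B 0 0 = A 0 0 * B 0 1 := by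
  have h1 : prj K (A * B⁻¹) = 1 := by rw [map_mul, map_inv, h, mul_inv_cancel]
  have h2 := ((prj_eq_one_iff _).1 h1).1
  simp only [mul01, inv01, inv11] at h2
  linear_combination h2

theorem sl2_tr_sq (c : S2 K) : tr (c * c) = tr c ^ 2 - 2 := by
  have hd := det2 c
  unfold tr
  simp only [mul00, mul11]
  linear_combination (-2 : K) * hd

theorem sl2_pow_ne (p : ℕ) [Fact p.Prime] [CharP K p] (c : S2 K) (hc : tr c ^ 2 ≠ 4) :
    (prj K c) ^ p ≠ 1 := by
  intro h
  have h1 : prj K (c ^ p) = 1 := by rw [map_pow]; exact h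
  have h2 : IsSc (c ^ p) := (prj_eq_one_iff _).1 h1
  have h3 : c ^ p * c ^ p = 1 := isSc_mul_self _ h2
  have h4 : (c * c) ^ p = 1 := by rw [(Commute.refl c).mul_pow]; exact h3
  have h5 : tr (c * c) = 2 := tr_of_pow_char p (c * c) h4
  rw [sl2_tr_sq] at h5
  exact hc (by linear_combination h5)

theorem sl2_tr_comm (a b : K) : tr (uu a * ll b * (uu a)⁻¹ * (ll b)⁻¹) = 2 + (a * b) ^ 2 := by
  rw [uu_inv, ll_inv]
  unfold tr
  simp only [mul00, mul01, mul10, mul11, uu_00, uu_01, uu_10, uu_11, ll_00, ll_01, ll_10, ll_11]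
  ring

theorem sl2_coe_eq_neg_one (g : S2 K) (h00 : g 0 0 = -1) (h01 : g 0 1 = 0) (h10 : g 1 0 = 0)
    (h11 : g 1 1 = -1) : (g : Matrix (Fin 2) (Fin 2) K) = -1 := by
  ext i j
  fin_cases i <;> fin_cases j
  · show g 0 0 = (-1 : Matrix (Fin 2) (Fin 2) K) 0 0
    rw [h00]; simp
  · show g 0 1 = (-1 : Matrix (Fin 2) (Fin 2) K) 0 1
    rw [h01]; simp
  · show g 1 0 = (-1 : Matrix (Fin 2) (Fin 2) K) 1 0
    rw [h10]; simp
  · show g 1 1 = (-1 : Matrix (Fin 2) (Fin 2) K) 1 1
    rw [h11]; simp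

/-- an element of `SL₂` whose square is scalar but which is not scalar squares to `-1` -/
theorem sl2_sq_neg_one (y : S2 K) (hsc : IsSc (y * y)) (hy : ¬ IsSc y) :
    ((y * y : S2 K) : Matrix (Fin 2) (Fin 2) K) = -1 := by
  obtain ⟨s1, s2, s3⟩ := hsc
  simp only [mul00, mul01, mul10, mul11] at s1 s2 s3
  have hd := det2 y
  have ht : y 0 0 + y 1 1 = 0 := by
    by_contra ht
    apply hy
    refine ⟨?_, ?_, ?_⟩
    · have : y 0 1 * (y 0 0 + y 1 1) = 0 := by linear_combination s1
      exact (mul_eq_zero.mp this).resolve_right ht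
    · have : y 1 0 * (y 0 0 + y 1 1) = 0 := by linear_combination s2
      exact (mul_eq_zero.mp this).resolve_right ht
    · have : (y 0 0 - y 1 1) * (y 0 0 + y 1 1) = 0 := by linear_combination s3
      exact sub_eq_zero.mp ((mul_eq_zero.mp this).resolve_right ht)
  apply sl2_coe_eq_neg_one
  · rw [mul00]; linear_combination (y 0 0) * ht - hd
  · rw [mul01]; linear_combination (y 0 1) * ht
  · rw [mul10]; linear_combination (y 1 0) * ht
  · rw [mul11]; linear_combination (y 1 1) * ht - hd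

end

theorem sl2_neg_one_mem {F : Type*} [Field F] [Fintype F] (h2 : (2 : F) ≠ 0) (F₀ : Subfield F)
    (hsq : ∀ c : F, c ^ 2 ∈ F₀ → c ∈ F₀) (L : Subgroup (Matrix.SpecialLinearGroup (Fin 2) F))
    (a b : F) (ha : a ≠ 0) (hb : b ≠ 0) (hA : ∀ c ∈ F₀, uu (a * c) ∈ L)
    (hB : ∀ d ∈ F₀, ll (b * d) ∈ L) : ∃ g ∈ L, (g : Matrix (Fin 2) (Fin 2) F) = -1 := by
  classical
  have huu : uu a ∈ L := by have := hA 1 F₀.one_mem; rwa [mul_one] at this
  have hll : ll b ∈ L := by have := hB 1 F₀.one_mem; rwa [mul_one] at this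
  have hab0 : a * b ≠ 0 := mul_ne_zero ha hb
  by_cases hab : (a * b) ^ 2 = -4
  · -- case (i)
    have h4 : (4 : F) ∈ F₀ := by
      have := natCast_mem F₀ 4
      simpa using this
    have habF : a * b ∈ F₀ := hsq (a * b) (by rw [hab]; exact neg_mem h4)
    have hd : -(a * b)⁻¹ ∈ F₀ := neg_mem (inv_mem habF)
    set e : F := b * (-(a * b)⁻¹) with he_def
    have he : a * e = -1 := by
      rw [he_def]
      field_simp
    have hw : uu a * ll e * uu a ∈ L := L.mul_mem (L.mul_mem huu (hB _ hd)) huu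
    refine ⟨(uu a * ll e * uu a) * (uu a * ll e * uu a), L.mul_mem hw hw, ?_⟩
    apply sl2_coe_eq_neg_one
    · simp only [mul00, mul01, mul10, mul11, uu_00, uu_01, uu_10, uu_11, ll_00, ll_01, ll_10,
        ll_11]
      linear_combination (2 * (1 + a * e)) * he
    · simp only [mul00, mul01, mul10, mul11, uu_00, uu_01, uu_10, uu_11, ll_00, ll_01, ll_10,
        ll_11]
      linear_combination (2 * a * (2 + a * e)) * he
    · simp only [mul00, mul01, mul10, mul11, uu_00, uu_01, uu_10, uu_11, ll_00, ll_01, ll_10,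
        ll_11]
      linear_combination (2 * e) * he
    · simp only [mul00, mul01, mul10, mul11, uu_00, uu_01, uu_10, uu_11, ll_00, ll_01, ll_10,
        ll_11]
      linear_combination (2 * (1 + a * e)) * he
  · -- case (ii): Dickson
    obtain ⟨p, hp⟩ := CharP.exists F
    haveI := hp
    haveI : Fact p.Prime := ⟨CharP.char_is_prime F p⟩
    set L' : Subgroup (P2 F) := L.map (prj F) with hL'
    have hx : prj F (uu a) ∈ L' := Subgroup.mem_map_of_mem (prj F) huu
    have hy : prj F (ll b) ∈ L' := Subgroup.mem_map_of_mem (prj F) hll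
    have heven_case : 2 ∣ Nat.card L' → ∃ g ∈ L, (g : Matrix (Fin 2) (Fin 2) F) = -1 := by
      intro heven
      obtain ⟨y', hy'⟩ := exists_prime_orderOf_dvd_card' (G := L') 2 heven
      obtain ⟨y, hyL, hyy⟩ := Subgroup.mem_map.mp y'.2
      have hy1 : y' ≠ 1 := by
        intro h1
        rw [h1, orderOf_one] at hy'
        norm_num at hy'
      have hy2 : y' * y' = 1 := by
        have := pow_orderOf_eq_one y'
        rwa [hy', pow_two] at this
      have hsc : IsSc (y * y) := by
        rw [← prj_eq_one_iff, map_mul, hyy]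
        have := congrArg (Subtype.val) hy2
        simpa using this
      have hnsc : ¬ IsSc y := by
        intro h
        rw [← prj_eq_one_iff, hyy] at h
        exact hy1 (Subtype.ext h)
      exact ⟨y * y, L.mul_mem hyL hyL, sl2_sq_neg_one y hsc hnsc⟩
    rcases dkm_cases p L' with h1 | ⟨hpow, -⟩ | hc | hc | hc | ⟨q', k, -, -, hc, -⟩
    · exfalso
      have h' : prj F ((uu a * uu a) * (ll b * ll b)) = prj F ((ll b * ll b) * (uu a * uu a)) := by
        simpa only [map_mul] using h1 _ hx _ hy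
      have h3 := sl2_prj_eq_01 _ _ h'
      simp only [mul00, mul01, mul10, mul11, uu_00, uu_01, uu_10, uu_11, ll_00, ll_01, ll_10,
        ll_11] at h3
      have h8 : (2 : F) ^ 3 * a ^ 2 * b = 0 := by linear_combination (-1 : F) * h3
      exact (mul_ne_zero (mul_ne_zero (pow_ne_zero 3 h2) (pow_ne_zero 2 ha)) hb) h8
    · exfalso
      have h3 := hpow _ hx _ hy
      rw [← map_inv, ← map_inv, ← map_mul, ← map_mul, ← map_mul] at h3
      refine sl2_pow_ne p _ ?_ h3
      rw [sl2_tr_comm]
      intro h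
      have h5 : (a * b) ^ 2 * ((a * b) ^ 2 + 4) = 0 := by linear_combination h
      rcases mul_eq_zero.mp h5 with h6 | h6
      · exact hab0 (pow_eq_zero_iff (by norm_num) |>.1 h6)
      · exact hab (by linear_combination h6)
    · exact heven_case ⟨6, by rw [hc]⟩
    · exact heven_case ⟨12, by rw [hc]⟩
    · exact heven_case ⟨30, by rw [hc]⟩
    · apply heven_case
      rw [hc]
      have h1 : 2 ∣ q' * (1 + q') := by
        rw [add_comm]
        exact (Nat.even_mul_succ_self q').two_dvd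
      rw [mul_assoc]
      exact Dvd.dvd.mul_left h1 k

end Cfsg.Agent.Lib.Helper95.S6
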