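import Mathlib
import Cfsg.Prelude.Def_Sporadic_a

set_option autoImplicit false

namespace Cfsg.Agent.Lib.Helper95

open Finset

/-- Binary words of length 24. -/
abbrev V24 : Type := Fin 24 → ZMod 2

/-- The dot product as a bilinear form. -/
noncomputable def dotB : LinearMap.BilinForm (ZMod 2) V24 :=
  Matrix.toBilin' (1 : Matrix (Fin 24) (Fin 24) (ZMod 2))

theorem dotB_apply (x y : V24) : dotB x y = ∑ i, x i * y i := by
  unfold dotB
  rw [Matrix.toBilin'_apply']
  simp [dotProduct]

theorem dotB_nondeg : dotB.Nondegenerate := by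
  unfold dotB
  apply LinearMap.BilinForm.nondegenerate_toBilin'_of_det_ne_zero'
  simp

theorem dotB_symm (x y : V24) : dotB x y = dotB y x := by
  rw [dotB_apply, dotB_apply]
  exact Finset.sum_congr rfl (fun i _ => mul_comm _ _)

theorem dotB_isRefl : dotB.IsRefl := by
  intro x y h
  rw [dotB_symm]; exact h

/-- An abstract extended binary Golay code: self-orthogonal, dimension 12, minimum weight ≥ 8. -/
structure IsGolay (C : Submodule (ZMod 2) V24) : Prop where
  hdim : Module.finrank (ZMod 2) C = 12
  horth : ∀ v ∈ C, ∀ w ∈ C, ∑ i, v i * w i = 0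
  hmin : ∀ w ∈ C, w ≠ 0 → 8 ≤ hammingNorm w

theorem finrank_V24 : Module.finrank (ZMod 2) V24 = 24 := by
  simp

theorem IsGolay.orthogonal_eq {C : Submodule (ZMod 2) V24} (h : IsGolay C) :
    dotB.orthogonal C = C := by
  symm
  apply Submodule.eq_of_le_of_finrank_eq
  · intro v hv
    rw [LinearMap.BilinForm.mem_orthogonal_iff]
    intro w hw
    show dotB w v = 0
    rw [dotB_apply]
    exact h.horth w hw v hv
  · rw [LinearMap.BilinForm.finrank_orthogonal dotB_nondeg, finrank_V24, h.hdim]

theorem IsGolay.mem_of_orth {C : Submodule (ZMod 2) V24} (h : IsGolay C) (u : V24)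
    (hu : ∀ w ∈ C, ∑ i, w i * u i = 0) : u ∈ C := by
  rw [← h.orthogonal_eq, LinearMap.BilinForm.mem_orthogonal_iff]
  intro w hw
  show dotB w u = 0
  rw [dotB_apply]
  exact hu w hw


/-- Words vanishing on `S`. -/
def zeroOn (S : Finset (Fin 24)) : Submodule (ZMod 2) V24 where
  carrier := {w | ∀ i ∈ S, w i = 0}
  zero_mem' := fun _ _ => rfl
  add_mem' := by
    intro a b ha hb i hi
    simp only [Pi.add_apply, ha i hi, hb i hi, add_zero]
  smul_mem' := by
    intro c a ha i hi
    simp only [Pi.smul_apply, ha i hi, smul_zero]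

/-- Words supported inside `S`. -/
def suppIn (S : Finset (Fin 24)) : Submodule (ZMod 2) V24 where
  carrier := {w | ∀ i, i ∉ S → w i = 0}
  zero_mem' := fun _ _ => rfl
  add_mem' := by
    intro a b ha hb i hi
    simp only [Pi.add_apply, ha i hi, hb i hi, add_zero]
  smul_mem' := by
    intro c a ha i hi
    simp only [Pi.smul_apply, ha i hi, smul_zero]

theorem mem_zeroOn {S : Finset (Fin 24)} {w : V24} : w ∈ zeroOn S ↔ ∀ i ∈ S, w i = 0 := Iff.rfl

theorem mem_suppIn {S : Finset (Fin 24)} {w : V24} : w ∈ suppIn S ↔ ∀ i, i ∉ S → w i = 0 := Iff.rfl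

theorem orthogonal_suppIn (S : Finset (Fin 24)) : dotB.orthogonal (suppIn S) = zeroOn S := by
  ext w
  rw [LinearMap.BilinForm.mem_orthogonal_iff, mem_zeroOn]
  constructor
  · intro h i hi
    have h1 := h (Pi.single i 1) (by
      rw [mem_suppIn]
      intro j hj
      have : j ≠ i := fun e => hj (e ▸ hi)
      simp [this])
    have h2 : dotB (Pi.single i 1) w = 0 := h1
    rw [dotB_apply] at h2
    simpa [Pi.single_apply] using h2
  · intro h u hu
    show dotB u w = 0
    rw [dotB_apply]
    apply Finset.sum_eq_zero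
    intro i _
    by_cases hi : i ∈ S
    · rw [h i hi, mul_zero]
    · rw [hu i hi, zero_mul]

theorem finrank_suppIn (S : Finset (Fin 24)) : Module.finrank (ZMod 2) (suppIn S) = S.card := by
  classical
  let e : (suppIn S) ≃ₗ[ZMod 2] (S → ZMod 2) :=
    { toFun := fun w i => w.1 i.1
      map_add' := fun _ _ => rfl
      map_smul' := fun _ _ => rfl
      invFun := fun f => ⟨fun i => if h : i ∈ S then f ⟨i, h⟩ else 0, by
        rw [mem_suppIn]
        intro i hi
        simp [hi]⟩
      left_inv := by
        intro w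
        apply Subtype.ext
        funext i
        by_cases hi : i ∈ S
        · simp [hi]
        · simp [hi, w.2 i hi]
      right_inv := by
        intro f
        funext i
        simp }
  rw [LinearEquiv.finrank_eq e, Module.finrank_fintype_fun_eq_card, Fintype.card_coe]

theorem orthogonal_sup' (N L : Submodule (ZMod 2) V24) :
    dotB.orthogonal (N ⊔ L) = dotB.orthogonal N ⊓ dotB.orthogonal L := by
  ext w
  simp only [LinearMap.BilinForm.mem_orthogonal_iff, Submodule.mem_inf]
  constructor
  · intro h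
    exact ⟨fun n hn => h n (Submodule.mem_sup_left hn), fun n hn => h n (Submodule.mem_sup_right hn)⟩
  · rintro ⟨h1, h2⟩ n hn
    obtain ⟨a, ha, b, hb, rfl⟩ := Submodule.mem_sup.mp hn
    have e1 : dotB a w = 0 := h1 a ha
    have e2 : dotB b w = 0 := h2 b hb
    show dotB (a + b) w = 0
    rw [map_add, LinearMap.add_apply, e1, e2, add_zero]

theorem hammingNorm_le_of_mem_suppIn {S : Finset (Fin 24)} {w : V24} (hw : w ∈ suppIn S) :
    hammingNorm w ≤ S.card := by
  unfold hammingNorm
  apply Finset.card_le_card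
  intro i hi
  rw [Finset.mem_filter] at hi
  by_contra h
  exact hi.2 (hw i h)

theorem IsGolay.inf_suppIn {C : Submodule (ZMod 2) V24} (h : IsGolay C) (S : Finset (Fin 24))
    (hS : S.card ≤ 7) : C ⊓ suppIn S = ⊥ := by
  rw [eq_bot_iff]
  rintro w ⟨hw1, hw2⟩
  rw [Submodule.mem_bot]
  by_contra hne
  have := h.hmin w hw1 hne
  have := hammingNorm_le_of_mem_suppIn hw2
  omega

theorem IsGolay.finrank_inf_zeroOn {C : Submodule (ZMod 2) V24} (h : IsGolay C) (S : Finset (Fin 24))
    (hS : S.card ≤ 7) : Module.finrank (ZMod 2) ↥(C ⊓ zeroOn S) = 12 - S.card := by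
  have e1 : C ⊓ zeroOn S = dotB.orthogonal (C ⊔ suppIn S) := by
    rw [orthogonal_sup', h.orthogonal_eq, orthogonal_suppIn]
  have e2 := Submodule.finrank_sup_add_finrank_inf_eq C (suppIn S)
  rw [h.inf_suppIn S hS, finrank_bot, h.hdim, finrank_suppIn] at e2
  rw [e1, LinearMap.BilinForm.finrank_orthogonal dotB_nondeg, finrank_V24]
  omega

theorem IsGolay.natCard_inf_zeroOn {C : Submodule (ZMod 2) V24} (h : IsGolay C) (S : Finset (Fin 24))
    (hS : S.card ≤ 7) : Nat.card ↥(C ⊓ zeroOn S) = 2 ^ (12 - S.card) := by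
  rw [Module.natCard_eq_pow_finrank (K := ZMod 2), h.finrank_inf_zeroOn S hS, Nat.card_zmod]


open Classical in
/-- The words of `C` as a finset. -/
noncomputable def wordsF (C : Submodule (ZMod 2) V24) : Finset V24 := Finset.univ.filter (· ∈ C)

theorem mem_wordsF {C : Submodule (ZMod 2) V24} {w : V24} : w ∈ wordsF C ↔ w ∈ C := by
  classical
  simp [wordsF]

theorem card_wordsF (C : Submodule (ZMod 2) V24) : (wordsF C).card = Nat.card ↥C := by
  classical
  rw [Nat.card_eq_fintype_card, Fintype.card_subtype]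
  rfl

/-- The support of a word. -/
def supp (w : V24) : Finset (Fin 24) := Finset.univ.filter (fun i => w i ≠ 0)

theorem mem_supp {w : V24} {i : Fin 24} : i ∈ supp w ↔ w i ≠ 0 := by
  simp [supp]

theorem card_supp (w : V24) : (supp w).card = hammingNorm w := rfl

theorem zmod2_cases (x : ZMod 2) : x = 0 ∨ x = 1 := by
  revert x; decide

theorem zmod2_ne_zero_iff (x : ZMod 2) : x ≠ 0 ↔ x = 1 := by
  revert x; decide

open Classical in
/-- Words of `C` vanishing on `T0` and equal to one on `T1`. -/
noncomputable def patt (C : Submodule (ZMod 2) V24) (T0 T1 : Finset (Fin 24)) : Finset V24 :=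
  (wordsF C).filter (fun w => (∀ i ∈ T0, w i = 0) ∧ (∀ i ∈ T1, w i = 1))

theorem mem_patt {C : Submodule (ZMod 2) V24} {T0 T1 : Finset (Fin 24)} {w : V24} :
    w ∈ patt C T0 T1 ↔ w ∈ C ∧ (∀ i ∈ T0, w i = 0) ∧ (∀ i ∈ T1, w i = 1) := by
  classical
  simp [patt, mem_wordsF]

theorem IsGolay.card_patt {C : Submodule (ZMod 2) V24} (h : IsGolay C) (T1 : Finset (Fin 24)) :
    ∀ T0 : Finset (Fin 24), Disjoint T0 T1 → T0.card + T1.card ≤ 7 →
      (patt C T0 T1).card = 2 ^ (12 - T0.card - T1.card) := by
  classical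
  induction T1 using Finset.induction_on with
  | empty =>
    intro T0 _ hc
    have e : patt C T0 ∅ = wordsF (C ⊓ zeroOn T0) := by
      ext w
      rw [mem_patt, mem_wordsF, Submodule.mem_inf, mem_zeroOn]
      simp
    rw [e, card_wordsF, h.natCard_inf_zeroOn T0 (by simpa using hc)]
    simp
  | insert a T1 ha ih =>
    intro T0 hd hc
    rw [Finset.card_insert_of_notMem ha] at hc
    have ha0 : a ∉ T0 := fun h0 => (Finset.disjoint_left.mp hd h0) (Finset.mem_insert_self a T1)
    have hd1 : Disjoint T0 T1 :=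
      Finset.disjoint_of_subset_right (Finset.subset_insert a T1) hd
    have hd2 : Disjoint (insert a T0) T1 := by
      rw [Finset.disjoint_insert_left]
      exact ⟨ha, hd1⟩
    have e1 := ih T0 hd1 (by omega)
    have e2 := ih (insert a T0) hd2 (by rw [Finset.card_insert_of_notMem ha0]; omega)
    rw [Finset.card_insert_of_notMem ha0] at e2
    have hunion : patt C T0 T1 = patt C (insert a T0) T1 ∪ patt C T0 (insert a T1) := by
      ext w
      rw [Finset.mem_union, mem_patt, mem_patt, mem_patt]
      simp only [Finset.forall_mem_insert]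
      rcases zmod2_cases (w a) with h0 | h1
      · simp [h0]
      · simp [h1]
    have hdisj : Disjoint (patt C (insert a T0) T1) (patt C T0 (insert a T1)) := by
      rw [Finset.disjoint_left]
      intro w hw1 hw2
      rw [mem_patt] at hw1 hw2
      have h0 := hw1.2.1 a (Finset.mem_insert_self a T0)
      have h1 := hw2.2.2 a (Finset.mem_insert_self a T1)
      rw [h0] at h1
      exact absurd h1 (by decide)
    have hcard := Finset.card_union_of_disjoint hdisj
    rw [← hunion, e1, e2] at hcard
    rw [Finset.card_insert_of_notMem ha]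
    have hp : 2 ^ (12 - T0.card - T1.card) = 2 * 2 ^ (12 - (T0.card + 1) - T1.card) := by
      rw [← pow_succ']
      congr 1
      omega
    have hq : 12 - T0.card - (T1.card + 1) = 12 - (T0.card + 1) - T1.card := by omega
    rw [hq]
    omega

theorem IsGolay.card_supp_superset {C : Submodule (ZMod 2) V24} (h : IsGolay C) (T : Finset (Fin 24))
    (hT : T.card ≤ 7) :
    ((wordsF C).filter (fun w => T ⊆ supp w)).card = 2 ^ (12 - T.card) := by
  classical
  have e : (wordsF C).filter (fun w => T ⊆ supp w) = patt C ∅ T := by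
    ext w
    rw [Finset.mem_filter, mem_patt, mem_wordsF]
    simp only [Finset.notMem_empty, false_imp_iff, implies_true, true_and]
    constructor
    · rintro ⟨h1, h2⟩
      exact ⟨h1, fun i hi => (zmod2_ne_zero_iff _).mp (mem_supp.mp (h2 hi))⟩
    · rintro ⟨h1, h2⟩
      exact ⟨h1, fun i hi => mem_supp.mpr ((zmod2_ne_zero_iff _).mpr (h2 i hi))⟩
  rw [e, h.card_patt T ∅ (Finset.disjoint_empty_left T) (by simpa using hT)]
  simp

/-- Binomial moments of the weight distribution. -/
theorem IsGolay.sum_choose {C : Submodule (ZMod 2) V24} (h : IsGolay C) (t : ℕ) (ht : t ≤ 7) :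
    ∑ w ∈ wordsF C, (hammingNorm w).choose t = (24).choose t * 2 ^ (12 - t) := by
  classical
  have e1 : ∀ w ∈ wordsF C, (hammingNorm w).choose t
      = ∑ T ∈ (Finset.univ : Finset (Fin 24)).powersetCard t, (if T ⊆ supp w then 1 else 0) := by
    intro w _
    rw [← card_supp, ← Finset.card_powersetCard, Finset.card_eq_sum_ones, ← Finset.sum_filter]
    apply Finset.sum_congr _ (fun _ _ => rfl)
    ext T
    simp only [Finset.mem_filter, Finset.mem_powersetCard, Finset.subset_univ, true_and]
    tauto
  rw [Finset.sum_congr rfl e1, Finset.sum_comm]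
  have e2 : ∀ T ∈ (Finset.univ : Finset (Fin 24)).powersetCard t,
      (∑ w ∈ wordsF C, (if T ⊆ supp w then 1 else 0)) = 2 ^ (12 - t) := by
    intro T hT
    rw [Finset.mem_powersetCard] at hT
    rw [← Finset.sum_filter, ← Finset.card_eq_sum_ones, h.card_supp_superset T (by omega), hT.2]
  rw [Finset.sum_congr rfl e2, Finset.sum_const, Finset.card_powersetCard, smul_eq_mul]
  simp


theorem sum_mul_eq_card_inter (u w : V24) :
    ∑ i, u i * w i = (((supp u ∩ supp w).card : ℕ) : ZMod 2) := by
  classical
  have e : ∀ i ∈ (Finset.univ : Finset (Fin 24)), u i * w i = if i ∈ supp u ∩ supp w then 1 else 0 := by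
    intro i _
    simp only [Finset.mem_inter, mem_supp]
    rcases zmod2_cases (u i) with h0 | h1 <;> rcases zmod2_cases (w i) with h0' | h1' <;>
      simp [*]
  rw [Finset.sum_congr rfl e, Finset.sum_boole]
  congr 2
  ext i
  simp

theorem sum_mul_self_eq (w : V24) : ∑ i, w i * w i = ((hammingNorm w : ℕ) : ZMod 2) := by
  rw [sum_mul_eq_card_inter, Finset.inter_self, card_supp]

theorem IsGolay.even_weight {C : Submodule (ZMod 2) V24} (h : IsGolay C) {w : V24} (hw : w ∈ C) :
    Even (hammingNorm w) := by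
  have h1 := h.horth w hw w hw
  rw [sum_mul_self_eq] at h1
  exact (ZMod.natCast_eq_zero_iff_even).mp h1

theorem IsGolay.one_mem {C : Submodule (ZMod 2) V24} (h : IsGolay C) : (1 : V24) ∈ C := by
  apply h.mem_of_orth
  intro w hw
  have h1 := h.horth w hw w hw
  have e : ∑ i, w i * (1 : V24) i = ∑ i, w i * w i := by
    apply Finset.sum_congr rfl
    intro i _
    rcases zmod2_cases (w i) with h0 | h1' <;> simp [*]
  rw [e, h1]

theorem supp_add_one (w : V24) : supp (w + 1) = (supp w)ᶜ := by
  ext i
  rw [Finset.mem_compl, mem_supp, mem_supp, Pi.add_apply, Pi.one_apply]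
  rcases zmod2_cases (w i) with h0 | h1
  · simp [h0]
  · rw [h1]; decide

theorem hammingNorm_add_one (w : V24) : hammingNorm (w + 1) = 24 - hammingNorm w := by
  rw [← card_supp, supp_add_one, Finset.card_compl, card_supp]
  simp

theorem hammingNorm_le_24 (w : V24) : hammingNorm w ≤ 24 := by
  rw [← card_supp]
  have := Finset.card_le_univ (supp w)
  simpa using this

theorem add_one_add_one (w : V24) : w + 1 + 1 = w := by
  funext i
  rw [Pi.add_apply, Pi.add_apply, Pi.one_apply, add_assoc]
  have : (1 : ZMod 2) + 1 = 0 := by decide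
  rw [this, add_zero]

theorem IsGolay.weight_cases {C : Submodule (ZMod 2) V24} (h : IsGolay C) {w : V24} (hw : w ∈ C) :
    hammingNorm w = 0 ∨ hammingNorm w = 8 ∨ hammingNorm w = 10 ∨ hammingNorm w = 12 ∨
      hammingNorm w = 14 ∨ hammingNorm w = 16 ∨ hammingNorm w = 24 := by
  have h1 := h.even_weight hw
  have h2 : w ≠ 0 → 8 ≤ hammingNorm w := h.hmin w hw
  have h3 : w + 1 ∈ C := C.add_mem hw h.one_mem
  have h4 : w + 1 ≠ 0 → 8 ≤ hammingNorm (w + 1) := h.hmin (w + 1) h3
  rw [hammingNorm_add_one] at h4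
  have h5 := hammingNorm_le_24 w
  by_cases e1 : w = 0
  · left; rw [e1]; exact hammingNorm_zero
  · by_cases e2 : w + 1 = 0
    · right; right; right; right; right; right
      have : hammingNorm (w + 1) = 0 := by rw [e2]; exact hammingNorm_zero
      rw [hammingNorm_add_one] at this
      omega
    · have h2' := h2 e1
      have h4' := h4 e2
      obtain ⟨r, hr⟩ := h1
      omega

/-- The number of words of `C` of weight `i`. -/
noncomputable def wtCount (C : Submodule (ZMod 2) V24) (i : ℕ) : ℕ :=
  ((wordsF C).filter (fun w => hammingNorm w = i)).card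

theorem wtCount_zero (C : Submodule (ZMod 2) V24) : wtCount C 0 = 1 := by
  unfold wtCount
  rw [Finset.card_eq_one]
  refine ⟨0, ?_⟩
  ext w
  rw [Finset.mem_filter, Finset.mem_singleton, mem_wordsF, hammingNorm_eq_zero]
  constructor
  · exact fun h => h.2
  · rintro rfl; exact ⟨C.zero_mem, rfl⟩

theorem IsGolay.wtCount_compl {C : Submodule (ZMod 2) V24} (h : IsGolay C) (i : ℕ) (hi : i ≤ 24) :
    wtCount C (24 - i) = wtCount C i := by
  unfold wtCount
  apply Finset.card_nbij' (fun w => w + 1) (fun w => w + 1)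
  · intro w hw
    rw [Finset.mem_coe, Finset.mem_filter, mem_wordsF] at hw ⊢
    refine ⟨C.add_mem hw.1 h.one_mem, ?_⟩
    rw [hammingNorm_add_one, hw.2]; omega
  · intro w hw
    rw [Finset.mem_coe, Finset.mem_filter, mem_wordsF] at hw ⊢
    refine ⟨C.add_mem hw.1 h.one_mem, ?_⟩
    rw [hammingNorm_add_one, hw.2]
  · intro w _; exact add_one_add_one w
  · intro w _; exact add_one_add_one w

theorem IsGolay.sum_weight {C : Submodule (ZMod 2) V24} (h : IsGolay C) (f : ℕ → ℕ) :
    ∑ w ∈ wordsF C, f (hammingNorm w)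
      = wtCount C 0 * f 0 + wtCount C 8 * f 8 + wtCount C 10 * f 10 + wtCount C 12 * f 12
        + wtCount C 14 * f 14 + wtCount C 16 * f 16 + wtCount C 24 * f 24 := by
  classical
  have h1 : ∑ w ∈ wordsF C, f (hammingNorm w)
      = ∑ j ∈ ({0, 8, 10, 12, 14, 16, 24} : Finset ℕ), wtCount C j * f j := by
    rw [← Finset.sum_fiberwise_of_maps_to (s := wordsF C) (t := ({0, 8, 10, 12, 14, 16, 24} : Finset ℕ))
      (g := fun w => hammingNorm w)]
    · apply Finset.sum_congr rfl
      intro j _
      rw [Finset.sum_congr rfl (fun w hw => by rw [(Finset.mem_filter.mp hw).2] :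
        ∀ w ∈ (wordsF C).filter (fun w => hammingNorm w = j), f (hammingNorm w) = f j)]
      rw [Finset.sum_const, smul_eq_mul]
      rfl
    · intro w hw
      have := h.weight_cases (mem_wordsF.mp hw)
      simp only [Finset.mem_insert, Finset.mem_singleton]
      tauto
  rw [h1]
  simp [Finset.sum_insert]
  ring

theorem IsGolay.card_words {C : Submodule (ZMod 2) V24} (h : IsGolay C) : (wordsF C).card = 4096 := by
  rw [card_wordsF, Module.natCard_eq_pow_finrank (K := ZMod 2), h.hdim, Nat.card_zmod]
  norm_num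

/-- The weight distribution of an abstract Golay code. -/
theorem IsGolay.wtCount_values {C : Submodule (ZMod 2) V24} (h : IsGolay C) :
    wtCount C 8 = 759 ∧ wtCount C 10 = 0 ∧ wtCount C 12 = 2576 ∧ wtCount C 14 = 0 ∧
      wtCount C 16 = 759 ∧ wtCount C 24 = 1 := by
  have s0 := h.sum_choose 0 (by norm_num)
  have s2 := h.sum_choose 2 (by norm_num)
  have s4 := h.sum_choose 4 (by norm_num)
  rw [h.sum_weight (fun n => n.choose 0)] at s0
  rw [h.sum_weight (fun n => n.choose 2)] at s2
  rw [h.sum_weight (fun n => n.choose 4)] at s4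
  have a0 := wtCount_zero C
  have a24 := h.wtCount_compl 0 (by norm_num)
  have a16 := h.wtCount_compl 8 (by norm_num)
  have a14 := h.wtCount_compl 10 (by norm_num)
  rw [a0] at a24
  norm_num at a24 a16 a14
  have c1 : Nat.choose 8 2 = 28 := by decide
  have c2 : Nat.choose 10 2 = 45 := by decide
  have c3 : Nat.choose 12 2 = 66 := by decide
  have c4 : Nat.choose 14 2 = 91 := by decide
  have c5 : Nat.choose 16 2 = 120 := by decide
  have c6 : Nat.choose 24 2 = 276 := by decide
  have d1 : Nat.choose 8 4 = 70 := by decide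
  have d2 : Nat.choose 10 4 = 210 := by decide
  have d3 : Nat.choose 12 4 = 495 := by decide
  have d4 : Nat.choose 14 4 = 1001 := by decide
  have d5 : Nat.choose 16 4 = 1820 := by decide
  have d6 : Nat.choose 24 4 = 10626 := by
    norm_num [Nat.choose_eq_factorial_div_factorial, Nat.factorial]
  simp only [Nat.choose_zero_right, mul_one] at s0
  simp only [c1, c2, c3, c4, c5, c6] at s2
  simp only [d1, d2, d3, d4, d5, d6] at s4
  have z2 : Nat.choose 0 2 = 0 := by decide
  have z4 : Nat.choose 0 4 = 0 := by decide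
  rw [z2] at s2
  rw [z4] at s4
  norm_num at s0 s2 s4
  omega


theorem IsGolay.weight_cases' {C : Submodule (ZMod 2) V24} (h : IsGolay C) {w : V24} (hw : w ∈ C) :
    hammingNorm w = 0 ∨ hammingNorm w = 8 ∨ hammingNorm w = 12 ∨ hammingNorm w = 16 ∨
      hammingNorm w = 24 := by
  have hv := h.wtCount_values
  have key : ∀ j : ℕ, wtCount C j = 0 → hammingNorm w ≠ j := by
    intro j hj e
    unfold wtCount at hj
    rw [Finset.card_eq_zero] at hj
    have : w ∈ (wordsF C).filter (fun w => hammingNorm w = j) := by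
      rw [Finset.mem_filter, mem_wordsF]
      exact ⟨hw, e⟩
    rw [hj] at this
    exact absurd this (Finset.notMem_empty w)
  have k10 := key 10 hv.2.1
  have k14 := key 14 hv.2.2.2.1
  have := h.weight_cases hw
  tauto

theorem IsGolay.doubly_even {C : Submodule (ZMod 2) V24} (h : IsGolay C) {w : V24} (hw : w ∈ C) :
    4 ∣ hammingNorm w := by
  rcases h.weight_cases' hw with e | e | e | e | e <;> rw [e] <;> decide

end Cfsg.Agent.Lib.Helper95
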