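import Mathlib
import Cfsg.Prelude.Def_Sporadic_a
import Cfsg.Agent.Lib.Helper95.Golay
import Cfsg.Agent.Lib.Helper95.Steiner

set_option autoImplicit false

namespace Cfsg.Agent.Lib.Helper95

open Finset

theorem support₂_eq_supp (w : V24) : Cfsg.support₂ w = supp w := rfl

theorem supp_injective : Function.Injective supp := by
  intro u w h
  funext i
  have h1 : i ∈ supp u ↔ i ∈ supp w := by rw [h]
  rw [mem_supp, mem_supp] at h1
  rcases zmod2_cases (u i) with h0 | h1' <;> rcases zmod2_cases (w i) with h0' | h1'' <;>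
    simp_all

theorem supp_add (u w : V24) : supp (u + w) = (supp u \ supp w) ∪ (supp w \ supp u) := by
  ext i
  simp only [Finset.mem_union, Finset.mem_sdiff, mem_supp, Pi.add_apply]
  rcases zmod2_cases (u i) with h0 | h1' <;> rcases zmod2_cases (w i) with h0' | h1'' <;>
    (simp [*]; try decide)

theorem hammingNorm_add (u w : V24) :
    hammingNorm (u + w) + 2 * (supp u ∩ supp w).card = hammingNorm u + hammingNorm w := by
  rw [← card_supp, supp_add, Finset.card_union_of_disjoint, ← card_supp, ← card_supp]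
  · have h1 := Finset.card_sdiff_add_card_inter (supp u) (supp w)
    have h2 := Finset.card_sdiff_add_card_inter (supp w) (supp u)
    rw [Finset.inter_comm] at h2
    omega
  · rw [Finset.disjoint_left]
    intro i hi hi'
    rw [Finset.mem_sdiff] at hi hi'
    exact hi.2 hi'.1

theorem add_self_V24 (w : V24) : w + w = 0 := by
  funext i
  rw [Pi.add_apply, Pi.zero_apply]
  rcases zmod2_cases (w i) with h0 | h1 <;> rw [‹w i = _›] <;> decide

theorem sub_eq_add_V24 (u w : V24) : u - w = u + w := by
  funext i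
  rw [Pi.sub_apply, Pi.add_apply]
  rcases zmod2_cases (w i) with h0 | h1
  · rw [h0, sub_zero, add_zero]
  · rw [h1]
    rcases zmod2_cases (u i) with h0 | h1' <;> rw [‹u i = _›] <;> decide

/-- The octads: supports of the weight-8 words. -/
noncomputable def octF (C : Submodule (ZMod 2) V24) : Finset (Finset (Fin 24)) :=
  by classical exact ((wordsF C).filter (fun w => hammingNorm w = 8)).image supp

theorem mem_octF {C : Submodule (ZMod 2) V24} {b : Finset (Fin 24)} :
    b ∈ octF C ↔ ∃ w ∈ C, hammingNorm w = 8 ∧ supp w = b := by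
  classical
  simp [octF, mem_wordsF, and_assoc]

theorem coe_octF (C : Submodule (ZMod 2) V24) :
    (octF C : Set (Finset (Fin 24))) = Cfsg.wordsOfWeight (C : Set V24) 8 := by
  ext b
  rw [Finset.mem_coe, mem_octF]
  unfold Cfsg.wordsOfWeight Cfsg.supports
  simp only [Set.mem_ofPred_eq, Set.mem_image, SetLike.mem_coe]
  constructor
  · rintro ⟨w, hw, h8, rfl⟩
    exact ⟨⟨w, hw, rfl⟩, h8⟩
  · rintro ⟨⟨w, hw, rfl⟩, h8⟩
    exact ⟨w, hw, h8, rfl⟩

theorem IsGolay.card_octF {C : Submodule (ZMod 2) V24} (h : IsGolay C) : (octF C).card = 759 := by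
  classical
  unfold octF
  rw [Finset.card_image_of_injective _ supp_injective]
  exact h.wtCount_values.1

theorem card_of_mem_octF {C : Submodule (ZMod 2) V24} {b : Finset (Fin 24)} (hb : b ∈ octF C) :
    b.card = 8 := by
  obtain ⟨w, _, h8, rfl⟩ := mem_octF.mp hb
  exact h8

theorem IsGolay.octF_inter {C : Submodule (ZMod 2) V24} (h : IsGolay C) {b b' : Finset (Fin 24)}
    (hb : b ∈ octF C) (hb' : b' ∈ octF C) (hne : b ≠ b') : (b ∩ b').card ≤ 4 := by
  obtain ⟨u, hu, hu8, rfl⟩ := mem_octF.mp hb
  obtain ⟨w, hw, hw8, rfl⟩ := mem_octF.mp hb'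
  have hne' : u + w ≠ 0 := by
    intro e
    apply hne
    have : u = w := by
      have := congrArg (fun x => x + w) e
      simp only [add_assoc, add_self_V24, add_zero, zero_add] at this
      exact this
    rw [this]
  have h1 := h.hmin (u + w) (C.add_mem hu hw) hne'
  have h2 := hammingNorm_add u w
  omega

theorem IsGolay.octF_steiner_count {C : Submodule (ZMod 2) V24} (h : IsGolay C)
    (s : Finset (Fin 24)) (hs : s.card = 5) : ((octF C).filter (fun b => s ⊆ b)).card = 1 := by
  classical
  have hle : ∀ s ∈ (Finset.univ : Finset (Fin 24)).powersetCard 5,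
      ((octF C).filter (fun b => s ⊆ b)).card ≤ 1 := by
    intro s hs
    rw [Finset.mem_powersetCard] at hs
    rw [Finset.card_le_one]
    intro b hb b' hb'
    rw [Finset.mem_filter] at hb hb'
    by_contra hne
    have h1 := h.octF_inter hb.1 hb'.1 hne
    have h2 : s ⊆ b ∩ b' := Finset.subset_inter hb.2 hb'.2
    have h3 := Finset.card_le_card h2
    omega
  have hsum : ∑ s ∈ (Finset.univ : Finset (Fin 24)).powersetCard 5,
      ((octF C).filter (fun b => s ⊆ b)).card
      = ∑ s ∈ (Finset.univ : Finset (Fin 24)).powersetCard 5, 1 := by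
    have e1 : ∀ s ∈ (Finset.univ : Finset (Fin 24)).powersetCard 5,
        ((octF C).filter (fun b => s ⊆ b)).card = ∑ b ∈ octF C, (if s ⊆ b then 1 else 0) := by
      intro s _
      rw [Finset.card_eq_sum_ones, ← Finset.sum_filter]
    rw [Finset.sum_congr rfl e1, Finset.sum_comm]
    have e2 : ∀ b ∈ octF C,
        (∑ s ∈ (Finset.univ : Finset (Fin 24)).powersetCard 5, (if s ⊆ b then 1 else 0)) = 56 := by
      intro b hb
      rw [← Finset.sum_filter, ← Finset.card_eq_sum_ones]
      have : ((Finset.univ : Finset (Fin 24)).powersetCard 5).filter (fun s => s ⊆ b)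
          = b.powersetCard 5 := by
        ext s
        simp only [Finset.mem_filter, Finset.mem_powersetCard, Finset.subset_univ, true_and]
        tauto
      rw [this, Finset.card_powersetCard, card_of_mem_octF hb]
      decide
    rw [Finset.sum_congr rfl e2, Finset.sum_const, h.card_octF, Finset.sum_const,
      Finset.card_powersetCard, Finset.card_univ, Fintype.card_fin]
    have : Nat.choose 24 5 = 42504 := by
      norm_num [Nat.choose_eq_factorial_div_factorial, Nat.factorial]
    rw [this]
    rfl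
  have := (Finset.sum_eq_sum_iff_of_le hle).mp hsum s (by
    rw [Finset.mem_powersetCard]; exact ⟨Finset.subset_univ s, hs⟩)
  exact this

theorem IsGolay.octF_isSteiner {C : Submodule (ZMod 2) V24} (h : IsGolay C) :
    Cfsg.IsSteinerSystem 5 8 (octF C : Set (Finset (Fin 24))) := by
  classical
  refine ⟨fun b hb => card_of_mem_octF (Finset.mem_coe.mp hb), ?_⟩
  intro s hs
  have h1 := h.octF_steiner_count s hs
  rw [Finset.card_eq_one] at h1
  obtain ⟨b, hb⟩ := h1
  have hb' : b ∈ (octF C).filter (fun b => s ⊆ b) := by rw [hb]; exact Finset.mem_singleton_self b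
  rw [Finset.mem_filter] at hb'
  refine ⟨b, ⟨Finset.mem_coe.mpr hb'.1, hb'.2⟩, ?_⟩
  rintro c ⟨hc1, hc2⟩
  have : c ∈ (octF C).filter (fun b => s ⊆ b) := by
    rw [Finset.mem_filter]; exact ⟨Finset.mem_coe.mp hc1, hc2⟩
  rw [hb] at this
  exact Finset.mem_singleton.mp this

theorem IsGolay.exists_weight_eight {C : Submodule (ZMod 2) V24} (h : IsGolay C) :
    ∃ w ∈ C, hammingNorm w = 8 := by
  have h1 := h.card_octF
  have h2 : (octF C).Nonempty := by
    rw [← Finset.card_pos, h1]; norm_num
  obtain ⟨b, hb⟩ := h2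
  obtain ⟨w, hw, h8, _⟩ := mem_octF.mp hb
  exact ⟨w, hw, h8⟩


/-! ### Coset leaders -/

/-- Indicator word of a set of coordinates. -/
def ind (s : Finset (Fin 24)) : V24 := fun i => if i ∈ s then 1 else 0

theorem supp_ind (s : Finset (Fin 24)) : supp (ind s) = s := by
  ext i
  rw [mem_supp]
  unfold ind
  by_cases h : i ∈ s <;> simp [h]

theorem ind_supp (w : V24) : ind (supp w) = w := by
  funext i
  unfold ind
  simp only [mem_supp]
  rcases zmod2_cases (w i) with h0 | h1 <;> simp [*]

theorem card_weight_eq (j : ℕ) :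
    (Finset.univ.filter (fun u : V24 => hammingNorm u = j)).card = (24).choose j := by
  have e : (24).choose j = ((Finset.univ : Finset (Fin 24)).powersetCard j).card := by
    rw [Finset.card_powersetCard, Finset.card_univ, Fintype.card_fin]
  rw [e]
  apply Finset.card_nbij' supp ind
  · intro u hu
    rw [Finset.mem_coe, Finset.mem_filter] at hu
    rw [Finset.mem_coe, Finset.mem_powersetCard]
    exact ⟨Finset.subset_univ _, hu.2⟩
  · intro t ht
    rw [Finset.mem_coe, Finset.mem_powersetCard] at ht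
    rw [Finset.mem_coe, Finset.mem_filter, ← card_supp, supp_ind]
    exact ⟨Finset.mem_univ _, ht.2⟩
  · intro u _; exact ind_supp u
  · intro t _; exact supp_ind t

theorem card_weight_le (n : ℕ) :
    (Finset.univ.filter (fun u : V24 => hammingNorm u ≤ n)).card
      = ∑ j ∈ Finset.range (n + 1), (24).choose j := by
  rw [Finset.card_eq_sum_card_fiberwise (f := fun u : V24 => hammingNorm u)
    (t := Finset.range (n + 1))]
  · apply Finset.sum_congr rfl
    intro j hj
    rw [Finset.mem_range] at hj
    rw [← card_weight_eq j]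
    congr 1
    ext u
    simp only [Finset.mem_filter, Finset.mem_univ, true_and]
    constructor
    · exact fun h => h.2
    · intro h; exact ⟨by omega, h⟩
  · intro u hu
    rw [Finset.mem_coe, Finset.mem_filter] at hu
    rw [Finset.mem_coe, Finset.mem_range]
    show hammingNorm u < n + 1
    omega

theorem card_weight_le_three :
    (Finset.univ.filter (fun u : V24 => hammingNorm u ≤ 3)).card = 2325 := by
  rw [card_weight_le]
  decide

theorem card_weight_le_four :
    (Finset.univ.filter (fun u : V24 => hammingNorm u ≤ 4)).card = 12951 := by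
  rw [card_weight_le]
  have d6 : Nat.choose 24 4 = 10626 := by
    norm_num [Nat.choose_eq_factorial_div_factorial, Nat.factorial]
  rw [Finset.sum_range_succ, d6]
  decide

/-- Two distinct light words in the same coset have weight 4 and disjoint supports. -/
theorem IsGolay.light_pair {C : Submodule (ZMod 2) V24} (h : IsGolay C) {u u' : V24}
    (hu : hammingNorm u ≤ 4) (hu' : hammingNorm u' ≤ 4) (hne : u ≠ u') (hmem : u - u' ∈ C) :
    hammingNorm u = 4 ∧ hammingNorm u' = 4 ∧ Disjoint (supp u) (supp u') := by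
  rw [sub_eq_add_V24] at hmem
  have hne' : u + u' ≠ 0 := by
    intro e
    apply hne
    have := congrArg (fun x => x + u') e
    simp only [add_assoc, add_self_V24, add_zero, zero_add] at this
    exact this
  have h1 := h.hmin (u + u') hmem hne'
  have h2 := hammingNorm_add u u'
  refine ⟨by omega, by omega, ?_⟩
  rw [Finset.disjoint_iff_inter_eq_empty, ← Finset.card_eq_zero]
  omega


theorem IsGolay.card_quotient {C : Submodule (ZMod 2) V24} (h : IsGolay C) :
    Nat.card (V24 ⧸ C) = 4096 := by
  have h1 := Submodule.card_eq_card_quotient_mul_card C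
  have h2 : Nat.card V24 = 2 ^ 24 := by
    rw [Module.natCard_eq_pow_finrank (K := ZMod 2), finrank_V24, Nat.card_zmod]
  have h3 : Nat.card C = 2 ^ 12 := by
    rw [Module.natCard_eq_pow_finrank (K := ZMod 2), h.hdim, Nat.card_zmod]
  rw [h2, h3] at h1
  have h4 : (2 : ℕ) ^ 24 = 2 ^ 12 * 4096 := by norm_num
  rw [h4] at h1
  exact (Nat.eq_of_mul_eq_mul_left (by norm_num) h1).symm

open Classical in
/-- The light words (weight at most 4) in a coset. -/
noncomputable def lightFib (C : Submodule (ZMod 2) V24) (κ : V24 ⧸ C) : Finset V24 :=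
  (Finset.univ.filter (fun u : V24 => hammingNorm u ≤ 4)).filter
    (fun u => (Submodule.Quotient.mk u : V24 ⧸ C) = κ)

theorem mem_lightFib {C : Submodule (ZMod 2) V24} {κ : V24 ⧸ C} {u : V24} :
    u ∈ lightFib C κ ↔ hammingNorm u ≤ 4 ∧ (Submodule.Quotient.mk u : V24 ⧸ C) = κ := by
  classical
  simp [lightFib]

theorem IsGolay.lightFib_pair {C : Submodule (ZMod 2) V24} (h : IsGolay C) {κ : V24 ⧸ C}
    {u u' : V24} (hu : u ∈ lightFib C κ) (hu' : u' ∈ lightFib C κ) (hne : u ≠ u') :
    hammingNorm u = 4 ∧ hammingNorm u' = 4 ∧ Disjoint (supp u) (supp u') := by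
  rw [mem_lightFib] at hu hu'
  apply h.light_pair hu.1 hu'.1 hne
  rw [← Submodule.Quotient.eq, hu.2, hu'.2]

theorem IsGolay.lightFib_card_le {C : Submodule (ZMod 2) V24} (h : IsGolay C) {κ : V24 ⧸ C}
    (h4 : ∀ u ∈ lightFib C κ, hammingNorm u = 4) : (lightFib C κ).card ≤ 6 := by
  classical
  have hd : ∀ u ∈ lightFib C κ, ∀ u' ∈ lightFib C κ, u ≠ u' → Disjoint (supp u) (supp u') :=
    fun u hu u' hu' hne => (h.lightFib_pair hu hu' hne).2.2
  have h1 := Finset.card_biUnion hd
  have h2 : ∑ u ∈ lightFib C κ, (supp u).card = (lightFib C κ).card * 4 := by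
    rw [Finset.sum_const_nat]
    intro u hu
    exact h4 u hu
  have h3 : ((lightFib C κ).biUnion supp).card ≤ 24 := by
    have := Finset.card_le_univ ((lightFib C κ).biUnion supp)
    simpa using this
  omega

theorem IsGolay.lightFib_structure {C : Submodule (ZMod 2) V24} (h : IsGolay C) (κ : V24 ⧸ C) :
    (∃ u : V24, lightFib C κ = {u} ∧ hammingNorm u ≤ 3) ∨
      ((lightFib C κ).card = 6 ∧ ∀ u ∈ lightFib C κ, hammingNorm u = 4) := by
  classical
  let _ : Fintype (V24 ⧸ C) := Fintype.ofFinite _
  set L3 : Finset V24 := Finset.univ.filter (fun u : V24 => hammingNorm u ≤ 3) with hL3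
  set q : V24 → V24 ⧸ C := fun u => Submodule.Quotient.mk u with hq
  set A : Finset (V24 ⧸ C) := L3.image q with hA
  -- type A cosets
  have hAfib : ∀ κ ∈ A, ∃ u : V24, lightFib C κ = {u} ∧ hammingNorm u ≤ 3 := by
    intro κ hκ
    rw [hA, Finset.mem_image] at hκ
    obtain ⟨u0, hu0, rfl⟩ := hκ
    rw [hL3, Finset.mem_filter] at hu0
    have hu0' : u0 ∈ lightFib C (q u0) := by
      rw [mem_lightFib]; exact ⟨by omega, rfl⟩
    refine ⟨u0, ?_, hu0.2⟩
    ext u
    rw [Finset.mem_singleton]
    constructor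
    · intro hu
      by_contra hne
      have := (h.lightFib_pair hu hu0' hne).2.1
      omega
    · rintro rfl; exact hu0'
  have hBfib : ∀ κ, κ ∉ A → ∀ u ∈ lightFib C κ, hammingNorm u = 4 := by
    intro κ hκ u hu
    rw [mem_lightFib] at hu
    by_contra hne
    apply hκ
    rw [hA, Finset.mem_image]
    refine ⟨u, ?_, hu.2⟩
    rw [hL3, Finset.mem_filter]
    exact ⟨Finset.mem_univ _, by omega⟩
  have hAcard : A.card = 2325 := by
    rw [hA, Finset.card_image_of_injOn, hL3, card_weight_le_three]
    intro u hu u' hu' hqq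
    rw [hL3, Finset.mem_coe, Finset.mem_filter] at hu hu'
    by_contra hne
    have h1 : u ∈ lightFib C (q u) := by rw [mem_lightFib]; exact ⟨by omega, rfl⟩
    have h2 : u' ∈ lightFib C (q u) := by rw [mem_lightFib]; exact ⟨by omega, hqq.symm⟩
    have := (h.lightFib_pair h1 h2 hne).1
    omega
  have hcardq : (Finset.univ : Finset (V24 ⧸ C)).card = 4096 := by
    rw [Finset.card_univ, ← Nat.card_eq_fintype_card, h.card_quotient]
  have hsum : ∑ κ : V24 ⧸ C, (lightFib C κ).card = 12951 := by
    rw [← card_weight_le_four]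
    rw [Finset.card_eq_sum_card_fiberwise (f := q) (t := Finset.univ)
      (fun _ _ => Finset.mem_coe.mpr (Finset.mem_univ _))]
    apply Finset.sum_congr rfl
    intro κ _
    rfl
  have hsplit : ∑ κ ∈ A, (lightFib C κ).card + ∑ κ ∈ Aᶜ, (lightFib C κ).card
      = ∑ κ : V24 ⧸ C, (lightFib C κ).card := Finset.sum_add_sum_compl A _
  have hsumA : ∑ κ ∈ A, (lightFib C κ).card = 2325 := by
    rw [Finset.sum_const_nat (m := 1), hAcard]
    intro κ hκ
    obtain ⟨u, hu, _⟩ := hAfib κ hκ
    rw [hu, Finset.card_singleton]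
  have hAc : Aᶜ.card = 1771 := by
    rw [Finset.card_compl, hAcard, ← Finset.card_univ, hcardq]
  have hle : ∀ κ ∈ Aᶜ, (lightFib C κ).card ≤ 6 := by
    intro κ hκ
    rw [Finset.mem_compl] at hκ
    exact h.lightFib_card_le (hBfib κ hκ)
  have hsumB : ∑ κ ∈ Aᶜ, (lightFib C κ).card = ∑ κ ∈ Aᶜ, 6 := by
    rw [Finset.sum_const, hAc, smul_eq_mul]
    omega
  have hB6 := (Finset.sum_eq_sum_iff_of_le hle).mp hsumB
  by_cases hκ : κ ∈ A
  · left; exact hAfib κ hκ
  · right
    exact ⟨hB6 κ (Finset.mem_compl.mpr hκ), hBfib κ hκ⟩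

theorem IsGolay.coset_leaders {C : Submodule (ZMod 2) V24} (h : IsGolay C) (w : V24) :
    (∃ u : V24, {u : V24 | u - w ∈ C ∧ hammingNorm u ≤ 4} = {u} ∧ hammingNorm u ≤ 3) ∨
    ({u : V24 | u - w ∈ C ∧ hammingNorm u ≤ 4}.ncard = 6 ∧
      ∀ u ∈ {u : V24 | u - w ∈ C ∧ hammingNorm u ≤ 4}, hammingNorm u = 4 ∧
        ∀ u' ∈ {u : V24 | u - w ∈ C ∧ hammingNorm u ≤ 4}, u ≠ u' →
          Disjoint (supp u) (supp u')) := by
  have hX : {u : V24 | u - w ∈ C ∧ hammingNorm u ≤ 4}
      = ((lightFib C (Submodule.Quotient.mk w) : Finset V24) : Set V24) := by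
    ext u
    rw [Finset.mem_coe, mem_lightFib, Submodule.Quotient.eq]
    exact and_comm
  rw [hX]
  rcases h.lightFib_structure (Submodule.Quotient.mk w) with ⟨u, hu, hu3⟩ | ⟨h6, h4⟩
  · left
    refine ⟨u, ?_, hu3⟩
    rw [hu, Finset.coe_singleton]
  · right
    refine ⟨by rw [Set.ncard_coe_finset, h6], ?_⟩
    intro u hu
    rw [Finset.mem_coe] at hu
    refine ⟨h4 u hu, ?_⟩
    intro u' hu' hne
    rw [Finset.mem_coe] at hu'
    exact (h.lightFib_pair hu hu' hne).2.2


/-! ### Spanned by octads -/

theorem IsGolay.card_octF_through_one {C : Submodule (ZMod 2) V24} (h : IsGolay C) (p : Fin 24) :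
    ((octF C).filter (fun b => {p} ⊆ b)).card = 253 := by
  have h1 := steiner_blocks_through 5 8 (octF C) h.octF_isSteiner {p} (by simp)
  rw [Finset.card_singleton, Fintype.card_fin] at h1
  have c1 : Nat.choose (8 - 1) (5 - 1) = 35 := by decide
  have c2 : Nat.choose (24 - 1) (5 - 1) = 8855 := by
    norm_num [Nat.choose_eq_factorial_div_factorial, Nat.factorial]
  rw [c1, c2] at h1
  omega

theorem IsGolay.card_octF_through_two {C : Submodule (ZMod 2) V24} (h : IsGolay C) (p q : Fin 24)
    (hpq : p ≠ q) : ((octF C).filter (fun b => {p, q} ⊆ b)).card = 77 := by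
  have h1 := steiner_blocks_through 5 8 (octF C) h.octF_isSteiner {p, q} (by
    rw [Finset.card_pair hpq]; norm_num)
  rw [Finset.card_pair hpq, Fintype.card_fin] at h1
  have c1 : Nat.choose (8 - 2) (5 - 2) = 20 := by decide
  have c2 : Nat.choose (24 - 2) (5 - 2) = 1540 := by
    norm_num [Nat.choose_eq_factorial_div_factorial, Nat.factorial]
  rw [c1, c2] at h1
  omega

/-- A nonzero word of weight at most 4 is not orthogonal to all octad words. -/
theorem IsGolay.light_not_orth {C : Submodule (ZMod 2) V24} (h : IsGolay C) (u : V24)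
    (hu : hammingNorm u ≤ 4)
    (horth : ∀ w ∈ C, hammingNorm w = 8 → ∑ i, w i * u i = 0) : u = 0 := by
  classical
  by_contra hne
  have hpos : 0 < hammingNorm u := hammingNorm_pos_iff.mpr hne
  rw [← card_supp] at hpos hu
  obtain ⟨p, hp⟩ := Finset.card_pos.mp hpos
  have hsub : (octF C).filter (fun b => {p} ⊆ b)
      ⊆ ((supp u).erase p).biUnion (fun q => (octF C).filter (fun b => {p, q} ⊆ b)) := by
    intro b hb
    rw [Finset.mem_filter] at hb
    obtain ⟨w, hw, hw8, rfl⟩ := mem_octF.mp hb.1
    have hpw : p ∈ supp w := hb.2 (Finset.mem_singleton_self p)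
    have h0 := horth w hw hw8
    rw [sum_mul_eq_card_inter, ZMod.natCast_eq_zero_iff_even] at h0
    have hpi : p ∈ supp w ∩ supp u := Finset.mem_inter.mpr ⟨hpw, hp⟩
    have hone : 1 < (supp w ∩ supp u).card := by
      have : 0 < (supp w ∩ supp u).card := Finset.card_pos.mpr ⟨p, hpi⟩
      obtain ⟨r, hr⟩ := h0
      omega
    obtain ⟨q, hq, hqp⟩ := Finset.exists_mem_ne hone p
    rw [Finset.mem_inter] at hq
    rw [Finset.mem_biUnion]
    refine ⟨q, Finset.mem_erase.mpr ⟨hqp, hq.2⟩, ?_⟩
    rw [Finset.mem_filter]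
    refine ⟨hb.1, ?_⟩
    intro x hx
    rw [Finset.mem_insert, Finset.mem_singleton] at hx
    rcases hx with rfl | rfl
    · exact hpw
    · exact hq.1
  have h1 := Finset.card_le_card hsub
  have h2 := Finset.card_biUnion_le (s := (supp u).erase p)
    (t := fun q => (octF C).filter (fun b => {p, q} ⊆ b))
  have h3 : ∑ q ∈ (supp u).erase p, ((octF C).filter (fun b => {p, q} ⊆ b)).card
      = ((supp u).erase p).card * 77 := by
    rw [Finset.sum_const_nat]
    intro q hq
    exact h.card_octF_through_two p q (Finset.ne_of_mem_erase hq).symm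
  have h4 : ((supp u).erase p).card = (supp u).card - 1 := Finset.card_erase_of_mem hp
  rw [h.card_octF_through_one p] at h1
  omega

theorem IsGolay.mem_of_orth_octads {C : Submodule (ZMod 2) V24} (h : IsGolay C) (x : V24)
    (horth : ∀ w ∈ C, hammingNorm w = 8 → ∑ i, w i * x i = 0) : x ∈ C := by
  have hne : (lightFib C (Submodule.Quotient.mk x)).Nonempty := by
    rcases h.lightFib_structure (Submodule.Quotient.mk x) with ⟨u, hu, _⟩ | ⟨h6, _⟩
    · rw [hu]; exact Finset.singleton_nonempty u
    · rw [← Finset.card_pos, h6]; norm_num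
  obtain ⟨u, hu⟩ := hne
  rw [mem_lightFib, Submodule.Quotient.eq] at hu
  have hu0 : u = 0 := by
    apply h.light_not_orth u hu.1
    intro w hw hw8
    have e1 : u = (u - x) + x := by abel
    rw [e1]
    simp only [Pi.add_apply, mul_add, Finset.sum_add_distrib]
    rw [h.horth w hw (u - x) hu.2, horth w hw hw8, add_zero]
  rw [hu0] at hu
  have := C.neg_mem hu.2
  simpa using this

theorem IsGolay.span_octads {C : Submodule (ZMod 2) V24} (h : IsGolay C) :
    Submodule.span (ZMod 2) {w : V24 | w ∈ C ∧ hammingNorm w = 8} = C := by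
  set D := Submodule.span (ZMod 2) {w : V24 | w ∈ C ∧ hammingNorm w = 8} with hD
  have hDC : D ≤ C := Submodule.span_le.mpr (fun w hw => hw.1)
  have h1 : dotB.orthogonal D = C := by
    apply le_antisymm
    · intro x hx
      apply h.mem_of_orth_octads
      intro w hw hw8
      have hwD : w ∈ D := Submodule.subset_span ⟨hw, hw8⟩
      have := (LinearMap.BilinForm.mem_orthogonal_iff.mp hx) w hwD
      have e : dotB w x = 0 := this
      rw [dotB_apply] at e
      exact e
    · rw [← h.orthogonal_eq]
      exact LinearMap.BilinForm.orthogonal_le hDC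
  have h2 := LinearMap.BilinForm.orthogonal_orthogonal dotB_nondeg dotB_isRefl D
  rw [h1, h.orthogonal_eq] at h2
  exact h2.symm

end Cfsg.Agent.Lib.Helper95
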