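import Mathlib
import Cfsg.Agent.Lib.Helper18.CTDefs

/-! Project CT (S4699, architect helper18), piece TAU1 (helper95): `tau` commutes with the
normalizer of `P`. -/

set_option autoImplicit false

namespace Cfsg.Agent.Lib.Helper18.CT

variable {G : Type*} [Group G] {F : Type*} [Field F] {V : Type*} [AddCommGroup V] [Module F V]

/-- conjugation of a list product -/
theorem tau1_conj_prod {M : Type*} [Monoid M] (A B : M) (hBA : B * A = 1) (hAB : A * B = 1)
    (L : List M) : A * L.prod * B = (L.map (fun φ => A * φ * B)).prod := by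
  induction L with
  | nil => simp [hAB]
  | cons a L ih =>
    rw [List.prod_cons, List.map_cons, List.prod_cons, ← ih]
    calc A * (a * L.prod) * B = A * a * (1 * L.prod) * B := by
          rw [one_mul]
          simp only [mul_assoc]
      _ = A * a * ((B * A) * L.prod) * B := by rw [hBA]
      _ = A * a * B * (A * L.prod * B) := by simp only [mul_assoc]

-- piece TAU1
theorem tau_comm [Finite G] (ρ : Representation F G V) (P : Subgroup G) (x : G)
    (hx : Subgroup.zpowers x = P) (g : G) (hg : g ∈ Subgroup.normalizer (P : Set G)) :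
    ρ g * tau ρ P x = tau ρ P x * ρ g := by
  classical
  have hBA : ρ g⁻¹ * ρ g = 1 := by rw [← map_mul, inv_mul_cancel, map_one]
  have hAB : ρ g * ρ g⁻¹ = 1 := by rw [← map_mul, mul_inv_cancel, map_one]
  have hmem : ∀ u : G, u ∈ orbN P x ↔
      ∃ h ∈ Subgroup.normalizer (P : Set G), u = h * x * h⁻¹ := by
    intro u
    simp only [orbN, Set.Finite.mem_toFinset, Set.mem_setOf_eq]
  have hconj : ∀ k ∈ Subgroup.normalizer (P : Set G), ∀ u : G, u ∈ orbN P x →
      k * u * k⁻¹ ∈ orbN P x := by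
    intro k hk u hu
    obtain ⟨h, hh, rfl⟩ := (hmem u).mp hu
    refine (hmem _).mpr ⟨k * h, Subgroup.mul_mem _ hk hh, ?_⟩
    group
  have hP : ∀ u : G, u ∈ orbN P x → u ∈ Subgroup.zpowers x := by
    intro u hu
    obtain ⟨h, hh, rfl⟩ := (hmem u).mp hu
    rw [hx]
    have hxP : x ∈ P := by
      rw [← hx]
      exact Subgroup.mem_zpowers x
    exact (Subgroup.mem_normalizer_iff.mp hh x).mp hxP
  have hcomm : ∀ u v : G, u ∈ orbN P x → v ∈ orbN P x → Commute (ρ u - 1) (ρ v - 1) := by
    intro u v hu hv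
    obtain ⟨i, rfl⟩ := Subgroup.mem_zpowers_iff.mp (hP u hu)
    obtain ⟨j, rfl⟩ := Subgroup.mem_zpowers_iff.mp (hP v hv)
    have h1 : Commute (ρ (x ^ i)) (ρ (x ^ j)) := by
      show ρ (x ^ i) * ρ (x ^ j) = ρ (x ^ j) * ρ (x ^ i)
      rw [← map_mul, ← map_mul, ← zpow_add, ← zpow_add, add_comm]
    exact (h1.sub_left (Commute.one_left _)).sub_right (Commute.one_right _)
  have hLmem : ∀ u, u ∈ (orbN P x).toList ↔ u ∈ orbN P x := fun u => Finset.mem_toList
  have hnd : (orbN P x).toList.Nodup := Finset.nodup_toList _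
  have hnd' : ((orbN P x).toList.map (fun u => g * u * g⁻¹)).Nodup := by
    refine hnd.map ?_
    intro a b hab
    exact mul_left_cancel (mul_right_cancel hab)
  have hperm : ((orbN P x).toList.map (fun u => g * u * g⁻¹)).Perm (orbN P x).toList := by
    rw [List.perm_ext_iff_of_nodup hnd' hnd]
    intro a
    rw [List.mem_map]
    constructor
    · rintro ⟨u, hu, rfl⟩
      exact (hLmem _).mpr (hconj g hg u ((hLmem u).mp hu))
    · intro ha
      refine ⟨g⁻¹ * a * g, (hLmem _).mpr ?_, by group⟩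
      have h := hconj g⁻¹ (Subgroup.inv_mem _ hg) a ((hLmem a).mp ha)
      rwa [inv_inv] at h
  have hkey : ρ g * tau ρ P x * ρ g⁻¹ = tau ρ P x := by
    unfold tau
    rw [tau1_conj_prod (ρ g) (ρ g⁻¹) hBA hAB, List.map_map]
    have h1 : ((fun φ => ρ g * φ * ρ g⁻¹) ∘ fun u => ρ u - 1) =
        (fun u => ρ u - 1) ∘ (fun u => g * u * g⁻¹) := by
      funext u
      simp only [Function.comp_apply]
      rw [mul_sub, sub_mul, mul_one, hAB, map_mul, map_mul]
    rw [h1, ← List.map_map]
    apply List.Perm.prod_eq'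
    · exact hperm.map _
    · apply List.pairwise_of_forall_mem_list
      intro a ha b hb
      rw [List.mem_map] at ha hb
      obtain ⟨u, hu, rfl⟩ := ha
      obtain ⟨v, hv, rfl⟩ := hb
      rw [List.mem_map] at hu hv
      obtain ⟨u', hu', rfl⟩ := hu
      obtain ⟨v', hv', rfl⟩ := hv
      exact hcomm _ _ (hconj g hg u' ((hLmem u').mp hu')) (hconj g hg v' ((hLmem v').mp hv'))
  calc ρ g * tau ρ P x = ρ g * tau ρ P x * (ρ g⁻¹ * ρ g) := by rw [hBA, mul_one]
    _ = (ρ g * tau ρ P x * ρ g⁻¹) * ρ g := by simp only [mul_assoc]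
    _ = tau ρ P x * ρ g := by rw [hkey]

end Cfsg.Agent.Lib.Helper18.CT
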