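import Cfsg.Agent.Lib.Helper98.O72Defs
import Cfsg.Agent.Lib.Helper98.O72Fix
import Cfsg.Agent.Lib.Helper96.SpTI

/-! Project O72 (S5972), piece EVEN (helper95). -/

set_option autoImplicit false
set_option linter.unusedSectionVars false
set_option linter.unusedVariables false

namespace Cfsg.Agent.Lib.Helper98.O72

open Module Polynomial Cfsg.Agent.Lib.Helper96.Sp Cfsg.Agent.Lib.Helper96.BG

universe u v

variable {F : Type*} [Field F] [Fintype F] {V : Type*} [AddCommGroup V] [Module F V]
  [FiniteDimensional F V] {B : LinearMap.BilinForm F V}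

theorem even_aux_isom_pow (T : Module.End F V) (hT : Isom B T) (k : ℕ) : Isom B (T ^ k) := by
  induction k with
  | zero => intro x y; simp
  | succ k ih =>
    intro x y
    rw [pow_succ, Module.End.mul_apply, Module.End.mul_apply, ih, hT]

theorem even_aux_pow_mem (T : Module.End F V) (U : Submodule F V) (hU : U.map T ≤ U) (k : ℕ)
    {x : V} (hx : x ∈ U) : (T ^ k) x ∈ U := by
  induction k with
  | zero => simpa using hx
  | succ k ih =>
    rw [pow_succ', Module.End.mul_apply]
    exact hU (Submodule.mem_map_of_mem ih)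

theorem even_aux_fix (T : Module.End F V) (r : ℕ) (hr : r.Prime) (hr2 : r ≠ 2) (hTr : T ^ r = 1)
    (x : V) (h2 : T (T x) = x) : T x = x := by
  have hodd : Odd r := hr.odd_of_ne_two hr2
  obtain ⟨k, hk⟩ := hodd
  have h3 : ∀ j : ℕ, (T ^ (2 * j)) x = x := by
    intro j
    induction j with
    | zero => simp
    | succ j ih =>
      rw [show 2 * (j + 1) = 2 * j + 1 + 1 by ring, pow_succ, pow_succ, Module.End.mul_apply,
        Module.End.mul_apply, h2, ih]
  have h4 : (T ^ r) x = T x := by
    rw [hk, pow_succ', Module.End.mul_apply, h3 k]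
  rw [← h4, hTr]; rfl

/-- PIECE EVEN. -/
theorem even_finrank_of_nd_range (hS : B.IsSymm) (hchar2 : (2 : F) ≠ 0) (hN : ND B ⊤)
    (T : Module.End F V) (hT : Isom B T) (r : ℕ) [Fact r.Prime] (hr2 : r ≠ 2)
    (hrq : ¬ r ∣ Fintype.card F) (hr0 : (r : F) ≠ 0) (hTr : T ^ r = 1)
    (U : Submodule F V) (hU : U.map T ≤ U) (hUnd : ND B U)
    (hUR : U ≤ LinearMap.range (T - 1)) : Even (finrank F U) := by
  have hrp : r.Prime := Fact.out
  obtain ⟨-, -, -, hdisj, -, -, -, -, -⟩ := pow_one_setup T r hrq hr0 hTr
  -- the alternating form on `U`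
  let A : LinearMap.BilinForm F U :=
    B.comp (T ∘ₗ U.subtype) U.subtype - B.comp U.subtype (T ∘ₗ U.subtype)
  have hAapp : ∀ a b : U, A a b = B (T (a : V)) (b : V) - B (a : V) (T (b : V)) := by
    intro a b
    simp [A, LinearMap.BilinForm.comp_apply]
  have hAalt : A.IsAlt := by
    intro a
    rw [hAapp, sym_swap hS hchar2 (T (a : V)) (a : V)]
    exact sub_self _
  have hAnd : ND A ⊤ := by
    intro a _ ha
    -- S = T^(r-1) is the inverse of T
    set S : Module.End F V := T ^ (r - 1) with hSdef
    have hr1 : r - 1 + 1 = r := Nat.succ_pred_eq_of_pos hrp.pos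
    have hST : ∀ x : V, S (T x) = x := by
      intro x
      have : S * T = 1 := by rw [hSdef, ← pow_succ, hr1, hTr]
      rw [← Module.End.mul_apply, this]; rfl
    have hTS : ∀ x : V, T (S x) = x := by
      intro x
      have : T * S = 1 := by rw [hSdef, ← pow_succ', hr1, hTr]
      rw [← Module.End.mul_apply, this]; rfl
    have hSiso : Isom B S := even_aux_isom_pow T hT (r - 1)
    have hSa : S (a : V) ∈ U := even_aux_pow_mem T U hU (r - 1) a.2
    have hTa : T (a : V) ∈ U := hU (Submodule.mem_map_of_mem a.2)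
    have hkey : ∀ w ∈ U, B (T (a : V) - S (a : V)) w = 0 := by
      intro w hw
      have h1 := ha ⟨w, hw⟩ Submodule.mem_top
      rw [hAapp] at h1
      have h2 : B (a : V) (T w) = B (S (a : V)) w := by
        rw [← hSiso (a : V) (T w), hST]
      simp only [] at h1
      rw [h2] at h1
      rw [map_sub, LinearMap.sub_apply]
      exact h1
    have h0 : T (a : V) - S (a : V) = 0 := hUnd _ (U.sub_mem hTa hSa) hkey
    have h2 : T (T (a : V)) = (a : V) := by
      have : T (a : V) = S (a : V) := sub_eq_zero.mp h0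
      rw [this, hTS]
    have h3 : T (a : V) = (a : V) := even_aux_fix T r hrp hr2 hTr _ h2
    have hker : (a : V) ∈ LinearMap.ker (T - 1) := by
      rw [LinearMap.mem_ker, LinearMap.sub_apply, h3]
      simp
    have hmem : (a : V) ∈ LinearMap.ker (T - 1) ⊓ LinearMap.range (T - 1) := ⟨hker, hUR a.2⟩
    rw [hdisj] at hmem
    exact Subtype.ext ((Submodule.mem_bot F).mp hmem)
  have h := even_finrank_of_nd hAalt (⊤ : Submodule F U) hAnd
  rwa [finrank_top] at h

end Cfsg.Agent.Lib.Helper98.O72
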