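import Cfsg.Agent.Lib.Helper96.HyDefs

/-! Project HY (S5992), piece TYPA (helper95): a hyperbolic subspace has value-count type `+1`
(count of the zeros of `v ↦ B v v` by cosets of a totally singular subspace of half dimension). -/

set_option autoImplicit false
set_option linter.unusedSectionVars false
set_option linter.unusedVariables false

namespace Cfsg.Agent.Lib.Helper95.Hy

open Module Polynomial Cfsg.Agent.Lib.Helper96.Sp Cfsg.Agent.Lib.Helper96.Hy
  Cfsg.Agent.Lib.Helper47

universe u

section Count

variable {F : Type*} [Field F] [Fintype F]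

/-- all fibres of a nonzero functional on a finite space have `|E| / q` elements -/
theorem typa_fiber {E : Type*} [AddCommGroup E] [Module F E] [Finite E] (f : E →ₗ[F] F)
    (hf : ∃ u, f u ≠ 0) (a : F) :
    Nat.card {u : E // f u = a} * Fintype.card F = Nat.card E := by
  classical
  obtain ⟨u0, hu0⟩ := hf
  have hsurj : ∀ b : F, ∃ u, f u = b := fun b => ⟨(b / f u0) • u0, by
    rw [map_smul, smul_eq_mul, div_mul_cancel₀ _ hu0]⟩
  choose s hs using hsurj
  have heq : ∀ b : F, Nat.card {u : E // f u = b} = Nat.card {u : E // f u = a} := by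
    intro b
    apply Nat.card_congr
    refine ⟨fun u => ⟨u.1 - s b + s a, by rw [map_add, map_sub, u.2, hs, hs]; ring⟩,
      fun u => ⟨u.1 - s a + s b, by rw [map_add, map_sub, u.2, hs, hs]; ring⟩, ?_, ?_⟩
    · intro u; apply Subtype.ext; simp
    · intro u; apply Subtype.ext; simp
  have h1 : Nat.card E = ∑ b : F, Nat.card {u : E // f u = b} := by
    rw [← Nat.card_sigma]
    exact Nat.card_congr (Equiv.sigmaFiberEquiv f).symm
  rw [h1, Finset.sum_congr rfl (fun b _ => heq b), Finset.sum_const, Finset.card_univ,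
    smul_eq_mul, mul_comm]

theorem typa_sum {C E : Type*} [Fintype C] [Finite E] (P : C → E → Prop) :
    Nat.card {x : C × E // P x.1 x.2} = ∑ c : C, Nat.card {u : E // P c u} := by
  rw [← Nat.card_sigma]
  apply Nat.card_congr
  exact ⟨fun x => ⟨x.1.1, ⟨x.1.2, x.2⟩⟩, fun y => ⟨(y.1, y.2.1), y.2.2⟩, fun x => rfl,
    fun y => rfl⟩

/-- the number of zeros of `w ↦ β w w` on a space of dimension `2k+2` with a totally singular
subspace `U` of dimension `k+1` which is its own orthogonal -/
theorem typa_count (h2 : (2 : F) ≠ 0) {M : Type*} [AddCommGroup M] [Module F M]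
    [FiniteDimensional F M] (β : LinearMap.BilinForm F M) (hsym : ∀ x y, β x y = β y x)
    (U : Submodule F M) (k : ℕ) (hM : finrank F M = 2 * k + 2) (hk : finrank F U = k + 1)
    (hts : ∀ u ∈ U, ∀ v ∈ U, β u v = 0) (hnz : ∀ w : M, w ∉ U → ∃ u ∈ U, β w u ≠ 0) :
    ∃ m : ℕ, Fintype.card F ^ (k + 1) = m + 1 ∧
      Nat.card {w : M // β w w = 0} = Fintype.card F ^ (k + 1) + m * Fintype.card F ^ k := by
  classical
  haveI : Finite M := Module.finite_of_finite F
  set q := Fintype.card F with hq
  have hqpos : 0 < q := Fintype.card_pos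
  obtain ⟨C, hC⟩ := Submodule.exists_isCompl U
  have hcardU : Nat.card U = q ^ (k + 1) := by
    rw [Module.natCard_eq_pow_finrank (K := F), hk, Nat.card_eq_fintype_card]
  have hfrC : finrank F C = k + 1 := by
    have := Submodule.finrank_add_eq_of_isCompl hC
    omega
  have hcardC : Nat.card C = q ^ (k + 1) := by
    rw [Module.natCard_eq_pow_finrank (K := F), hfrC, Nat.card_eq_fintype_card]
  let e : (C × U) ≃ₗ[F] M := Submodule.prodEquivOfIsCompl C U hC.symm
  have he : ∀ x : C × U, e x = (x.1 : M) + (x.2 : M) :=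
    fun x => Submodule.coe_prodEquivOfIsCompl' C U hC.symm x
  have h1 : Nat.card {w : M // β w w = 0} =
      Nat.card {x : C × U // β ((x.1 : M) + (x.2 : M)) ((x.1 : M) + (x.2 : M)) = 0} := by
    apply Nat.card_congr
    exact (e.toEquiv.subtypeEquiv (fun x => by rw [LinearEquiv.coe_toEquiv, he])).symm
  haveI : Fintype C := Fintype.ofFinite C
  have hexp : ∀ (c : C) (u : U),
      β ((c : M) + (u : M)) ((c : M) + (u : M)) = β c c + 2 * β c u := by
    intro c u
    have h0 : β (u : M) (u : M) = 0 := hts u u.2 u u.2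
    have h1 : β (u : M) (c : M) = β (c : M) (u : M) := hsym _ _
    simp only [map_add, LinearMap.add_apply]
    rw [h0, h1]; ring
  have hfib : ∀ c : C,
      Nat.card {u : U // β ((c : M) + (u : M)) ((c : M) + (u : M)) = 0} =
        if c = 0 then q ^ (k + 1) else q ^ k := by
    intro c
    by_cases hc : c = 0
    · rw [if_pos hc, ← hcardU]
      apply Nat.card_congr
      refine Equiv.subtypeUnivEquiv (fun u => ?_)
      rw [hexp, hc]; simp
    · rw [if_neg hc]
      have hcU : (c : M) ∉ U := by
        intro h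
        apply hc
        have hmem : (c : M) ∈ U ⊓ C := ⟨h, c.2⟩
        rw [hC.inf_eq_bot] at hmem
        exact Subtype.ext ((Submodule.mem_bot F).mp hmem)
      obtain ⟨u0, hu0U, hu0⟩ := hnz c hcU
      let f : U →ₗ[F] F := (2 : F) • (β (c : M)).comp U.subtype
      have hf : ∀ u : U, f u = 2 * β c u := fun u => by simp [f]
      have hfibre := typa_fiber f ⟨⟨u0, hu0U⟩, by rw [hf]; exact mul_ne_zero h2 hu0⟩ (-(β c c))
      have hcong : Nat.card {u : U // β ((c : M) + (u : M)) ((c : M) + (u : M)) = 0} =
          Nat.card {u : U // f u = -(β c c)} := by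
        apply Nat.card_congr
        refine Equiv.subtypeEquivRight (fun u => ?_)
        rw [hexp, hf]
        constructor
        · intro h; linear_combination h
        · intro h; linear_combination h
      rw [hcong]
      rw [hcardU, pow_succ] at hfibre
      exact Nat.eq_of_mul_eq_mul_right hqpos hfibre
  obtain ⟨m, hm⟩ : ∃ m : ℕ, q ^ (k + 1) = m + 1 :=
    ⟨q ^ (k + 1) - 1, (Nat.succ_pred_eq_of_pos (pow_pos hqpos _)).symm⟩
  refine ⟨m, hm, ?_⟩
  rw [h1, typa_sum (fun (c : C) (u : U) => β ((c : M) + (u : M)) ((c : M) + (u : M)) = 0),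
    Finset.sum_congr rfl (fun c _ => hfib c),
    ← Finset.add_sum_erase Finset.univ _ (Finset.mem_univ (0 : C)), if_pos rfl]
  congr 1
  rw [Finset.sum_congr rfl (fun c hc => if_neg (Finset.ne_of_mem_erase hc)), Finset.sum_const,
    smul_eq_mul, Finset.card_erase_of_mem (Finset.mem_univ _), Finset.card_univ,
    ← Nat.card_eq_fintype_card, hcardC, hm]
  rfl

end Count

variable {F : Type u} [Field F] [Fintype F] {V : Type u} [AddCommGroup V] [Module F V]
  [FiniteDimensional F V] {B : LinearMap.BilinForm F V}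

-- PIECE TYPA
theorem typ_of_hyp (p : ℕ) [Fact p.Prime] [CharP F p] (hS : B.IsSymm) (h2 : (2 : F) ≠ 0)
    (W : Submodule F V) (hW : Hyp B W) (hpos : 0 < finrank F W) : Typ B W 1 := by
  classical
  obtain ⟨hND, U, hUW, hUU, hdim⟩ := hW
  obtain ⟨k, hk⟩ : ∃ k, finrank F U = k + 1 := ⟨finrank F U - 1, by omega⟩
  have hW2 : finrank F W = 2 * k + 2 := by omega
  rcases typ_exists p hS h2 W hND k hW2 with h | h
  · exact h
  · exfalso
    obtain ⟨k', hk', hT⟩ := h
    have hkk : k' = k := by omega
    rw [hkk] at hT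
    have hcount := hT.1
    -- the restricted form
    let β : LinearMap.BilinForm F W := B.comp W.subtype W.subtype
    have hβ : ∀ x y : W, β x y = B (x : V) (y : V) := fun x y => by
      simp [β, LinearMap.BilinForm.comp_apply]
    have hβsym : ∀ x y : W, β x y = β y x := fun x y => by
      rw [hβ, hβ, hS.eq (x : V) (y : V)]
    have hβS : β.IsSymm := ⟨hβsym⟩
    have hNtop : ND β ⊤ := by
      intro x _ hx
      have h1 : (x : V) = 0 := hND (x : V) x.2 (fun v hv => by
        have := hx ⟨v, hv⟩ Submodule.mem_top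
        rwa [hβ] at this)
      exact Subtype.ext h1
    let U' : Submodule F W := U.comap W.subtype
    have hU'fr : finrank F U' = k + 1 := by
      rw [← hk]
      exact LinearEquiv.finrank_eq (Submodule.comapSubtypeEquivOfLe hUW)
    have hts : ∀ u ∈ U', ∀ v ∈ U', β u v = 0 := by
      intro u hu v hv
      rw [hβ]
      exact hUU _ (Submodule.mem_comap.mp hu) _ (Submodule.mem_comap.mp hv)
    have hperp : U' = β.orthogonal U' := by
      have hle : U' ≤ β.orthogonal U' := by
        intro v hv
        rw [mem_perp_iff]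
        intro w hw
        exact hts w hw v hv
      have hfr := Cfsg.Agent.Lib.Helper98.O72.finrank_inf_perp hβS h2 hNtop
        (le_top : U' ≤ ⊤) hNtop
      rw [top_inf_eq, finrank_top] at hfr
      exact Submodule.eq_of_le_of_finrank_eq hle (by omega)
    have hnz : ∀ w : W, w ∉ U' → ∃ u ∈ U', β w u ≠ 0 := by
      intro w hw
      by_contra hcon
      push Not at hcon
      apply hw
      rw [hperp, mem_perp_iff]
      intro u hu
      rw [hβsym]
      exact hcon u hu
    obtain ⟨m, hm, hcnt⟩ := typa_count h2 β hβsym U' k hW2 hU'fr hts hnz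
    have hcong : Nat.card {v : W // B (v : V) (v : V) = 0} = Nat.card {w : W // β w w = 0} := by
      apply Nat.card_congr
      exact Equiv.subtypeEquivRight (fun w => by rw [hβ])
    rw [hcong, hcnt] at hcount
    -- arithmetic
    have hq2 : (2 : ℤ) ≤ (Fintype.card F : ℤ) := by
      exact_mod_cast Fintype.one_lt_card
    have hx : (0 : ℤ) < (Fintype.card F : ℤ) ^ k := by positivity
    have hmZ : (Fintype.card F : ℤ) ^ (k + 1) = (m : ℤ) + 1 := by exact_mod_cast hm
    push_cast at hcount
    have e1 : (Fintype.card F : ℤ) ^ (2 * k + 1)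
        = (Fintype.card F : ℤ) ^ (k + 1) * (Fintype.card F : ℤ) ^ k := by
      rw [← pow_add]; congr 1; omega
    have e2 : (Fintype.card F : ℤ) ^ (k + 1)
        = (Fintype.card F : ℤ) ^ k * (Fintype.card F : ℤ) := pow_succ _ _
    have hprod : (Fintype.card F : ℤ) ^ k * ((Fintype.card F : ℤ) - 1) = 0 := by
      have hmm : (m : ℤ) = (Fintype.card F : ℤ) ^ (k + 1) - 1 := by linarith
      rw [hmm, e1] at hcount
      nlinarith [hcount, e2]
    have hpos' : (0 : ℤ) < (Fintype.card F : ℤ) ^ k * ((Fintype.card F : ℤ) - 1) :=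
      mul_pos hx (by linarith)
    linarith

end Cfsg.Agent.Lib.Helper95.Hy
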