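import Mathlib
import Cfsg.Prelude.Def_Sporadic_a
import Cfsg.Agent.Lib.Helper9.M24Data
import Cfsg.Agent.Lib.Helper95.M24Tab

set_option autoImplicit false

namespace Cfsg.Agent.Lib.Helper95

open Cfsg
open Cfsg.Agent.Lib.Helper9
open scoped Pointwise

/-- Restriction of a permutation group to an invariant set of points. -/
noncomputable def resHom (H : Subgroup (Equiv.Perm GolayPt)) (C : Finset GolayPt)
    (hC : ∀ σ ∈ H, σ • C = C) : ↥H →* Equiv.Perm ↥C :=
  MonoidHom.mk' (fun σ => (σ.1).subtypePerm (p := fun x => x ∈ C) (fun x => by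
    have h1 : σ.1 • x ∈ σ.1 • C ↔ x ∈ C := Finset.smul_mem_smul_finset_iff _
    rw [hC σ.1 σ.2] at h1
    exact h1)) (fun _ _ => rfl)

theorem resHom_apply (H : Subgroup (Equiv.Perm GolayPt)) (C : Finset GolayPt)
    (hC : ∀ σ ∈ H, σ • C = C) (σ : ↥H) (x : ↥C) :
    ((resHom H C hC σ x : ↥C) : GolayPt) = σ.1 x.1 := rfl

theorem resHom_injective (H : Subgroup (Equiv.Perm GolayPt)) (C : Finset GolayPt)
    (hC : ∀ σ ∈ H, σ • C = C) (hf : ∀ σ ∈ H, (∀ p ∈ C, σ p = p) → σ = 1) :
    Function.Injective (resHom H C hC) := by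
  rw [injective_iff_map_eq_one]
  intro σ hσ
  apply Subtype.ext
  apply hf σ.1 σ.2
  intro p hp
  have h1 := congrArg (fun f : Equiv.Perm ↥C => ((f ⟨p, hp⟩ : ↥C) : GolayPt)) hσ
  exact h1

/-- A group acting faithfully on an invariant `n`-set, of order at least `n!`, is the full
symmetric group. -/
theorem iso_perm_of_faithful (H : Subgroup (Equiv.Perm GolayPt)) (C : Finset GolayPt)
    (hC : ∀ σ ∈ H, σ • C = C) (hf : ∀ σ ∈ H, (∀ p ∈ C, σ p = p) → σ = 1) (n : ℕ)
    (hn : C.card = n) (hcard : n.factorial ≤ Nat.card H) :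
    Nonempty (↥H ≃* Equiv.Perm (Fin n)) := by
  have hc : Nat.card (Equiv.Perm ↥C) = n.factorial := by
    rw [Nat.card_eq_fintype_card, Fintype.card_perm, Fintype.card_coe, hn]
  have hbij : Function.Bijective (resHom H C hC) :=
    (resHom_injective H C hC hf).bijective_of_nat_card_le (by rw [hc]; exact hcard)
  have hfin : Fintype.card ↥C = n := by rw [Fintype.card_coe, hn]
  exact ⟨(MulEquiv.ofBijective _ hbij).trans
    (Equiv.permCongrHom (Fintype.equivFinOfCardEq hfin))⟩

/-- The order of such a group is exactly `n!`. -/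
theorem card_eq_factorial_of_faithful (H : Subgroup (Equiv.Perm GolayPt)) (C : Finset GolayPt)
    (hC : ∀ σ ∈ H, σ • C = C) (hf : ∀ σ ∈ H, (∀ p ∈ C, σ p = p) → σ = 1) (n : ℕ)
    (hn : C.card = n) (hcard : n.factorial ≤ Nat.card H) : Nat.card H = n.factorial := by
  have hc : Nat.card (Equiv.Perm ↥C) = n.factorial := by
    rw [Nat.card_eq_fintype_card, Fintype.card_perm, Fintype.card_coe, hn]
  apply le_antisymm _ hcard
  rw [← hc]
  exact Nat.card_le_card_of_injective _ (resHom_injective H C hC hf)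

end Cfsg.Agent.Lib.Helper95
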