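import Cfsg.Agent.Lib.Helper95.GsLike

/-!
# Coordinates in the holomorph of an elementary abelian 2-group

A split extension of an elementary abelian 2-group by its full automorphism group: the
centraliser of a nontrivial element of the normal subgroup is parametrised like the centraliser
of a transvection.
-/

set_option autoImplicit false
open Cfsg

namespace Cfsg.Agent.Lib.Helper95

open Cfsg.Agent.Lib.Helper94 Matrix

/-- Coordinates on an elementary abelian 2-group with a prescribed first basis vector. -/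
theorem exists_coords_add {A : Type*} [AddCommGroup A] [Finite A] (n : ℕ) (h2 : ∀ x : A, x + x = 0)
    (hc : Nat.card A = 2 ^ (n + 1)) (z : A) (hz : z ≠ 0) :
    ∃ e : (ZMod 2 × (Fin n → ZMod 2)) ≃+ A, e (1, 0) = z := by
  letI : Module (ZMod 2) A :=
    AddCommGroup.zmodModule (n := 2) (fun x => by rw [two_nsmul]; exact h2 x)
  have hfr : Module.finrank (ZMod 2) A = n + 1 := by
    have h := Module.natCard_eq_pow_finrank (K := ZMod 2) (V := A)
    rw [hc, Nat.card_zmod] at h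
    exact (Nat.pow_right_injective (le_refl 2) h).symm
  obtain ⟨W, hW⟩ := Submodule.exists_isCompl (Submodule.span (ZMod 2) {z})
  have hWr : Module.finrank (ZMod 2) W = n := by
    have h := Submodule.finrank_add_eq_of_isCompl hW
    rw [finrank_span_singleton hz, hfr] at h
    omega
  let e1 : ZMod 2 ≃ₗ[ZMod 2] Submodule.span (ZMod 2) {z} :=
    LinearEquiv.toSpanNonzeroSingleton (ZMod 2) A z hz
  let e2 : (Fin n → ZMod 2) ≃ₗ[ZMod 2] W := LinearEquiv.ofFinrankEq _ _ (by rw [hWr]; simp)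
  let e : (ZMod 2 × (Fin n → ZMod 2)) ≃ₗ[ZMod 2] A :=
    (e1.prodCongr e2).trans (Submodule.prodEquivOfIsCompl _ _ hW)
  refine ⟨e.toAddEquiv, ?_⟩
  show (Submodule.prodEquivOfIsCompl _ _ hW) (e1 1, e2 0) = z
  rw [Submodule.coe_prodEquivOfIsCompl', map_zero, LinearEquiv.toSpanNonzeroSingleton_one]
  simp

section Aff

variable {n : ℕ}

/-- The additive automorphism `(c, x) ↦ (c + u ⬝ x, A x)`. -/
def affAdd (u : Fin n → ZMod 2) (A : Matrix.SpecialLinearGroup (Fin n) (ZMod 2)) :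
    (ZMod 2 × (Fin n → ZMod 2)) ≃+ (ZMod 2 × (Fin n → ZMod 2)) where
  toFun p := (p.1 + u ⬝ᵥ p.2, A.1 *ᵥ p.2)
  invFun p := (p.1 + (u ᵥ* (A⁻¹).1) ⬝ᵥ p.2, (A⁻¹).1 *ᵥ p.2)
  left_inv p := by
    apply Prod.ext
    · show p.1 + u ⬝ᵥ p.2 + (u ᵥ* (A⁻¹).1) ⬝ᵥ (A.1 *ᵥ p.2) = p.1
      rw [Matrix.dotProduct_mulVec, Matrix.vecMul_vecMul, sl_inv_mul, Matrix.vecMul_one,
        add_assoc, zmod2_add_self, add_zero]
    · show (A⁻¹).1 *ᵥ (A.1 *ᵥ p.2) = p.2
      rw [Matrix.mulVec_mulVec, sl_inv_mul, Matrix.one_mulVec]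
  right_inv p := by
    apply Prod.ext
    · show p.1 + (u ᵥ* (A⁻¹).1) ⬝ᵥ p.2 + u ⬝ᵥ ((A⁻¹).1 *ᵥ p.2) = p.1
      rw [Matrix.dotProduct_mulVec, add_assoc, zmod2_add_self, add_zero]
    · show A.1 *ᵥ ((A⁻¹).1 *ᵥ p.2) = p.2
      rw [Matrix.mulVec_mulVec, sl_mul_inv, Matrix.one_mulVec]
  map_add' p q := by
    apply Prod.ext
    · show p.1 + q.1 + u ⬝ᵥ (p.2 + q.2) = p.1 + u ⬝ᵥ p.2 + (q.1 + u ⬝ᵥ q.2)
      rw [dotProduct_add]
      ring
    · show A.1 *ᵥ (p.2 + q.2) = A.1 *ᵥ p.2 + A.1 *ᵥ q.2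
      rw [Matrix.mulVec_add]

theorem affAdd_apply (u : Fin n → ZMod 2) (A : Matrix.SpecialLinearGroup (Fin n) (ZMod 2))
    (p : ZMod 2 × (Fin n → ZMod 2)) : affAdd u A p = (p.1 + u ⬝ᵥ p.2, A.1 *ᵥ p.2) := rfl

theorem affAdd_comp (u u' : Fin n → ZMod 2) (A A' : Matrix.SpecialLinearGroup (Fin n) (ZMod 2))
    (p : ZMod 2 × (Fin n → ZMod 2)) :
    affAdd u A (affAdd u' A' p) = affAdd (u' + u ᵥ* A'.1) (A * A') p := by
  rw [affAdd_apply, affAdd_apply, affAdd_apply]
  apply Prod.ext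
  · show p.1 + u' ⬝ᵥ p.2 + u ⬝ᵥ (A'.1 *ᵥ p.2) = p.1 + (u' + u ᵥ* A'.1) ⬝ᵥ p.2
    rw [add_dotProduct, Matrix.dotProduct_mulVec, add_assoc]
  · show A.1 *ᵥ (A'.1 *ᵥ p.2) = (A * A').1 *ᵥ p.2
    rw [Matrix.mulVec_mulVec]
    rfl

theorem affAdd_zero_one (p : ZMod 2 × (Fin n → ZMod 2)) : affAdd 0 1 p = p := by
  rw [affAdd_apply]
  apply Prod.ext
  · show p.1 + 0 ⬝ᵥ p.2 = p.1
    rw [zero_dotProduct, add_zero]
  · show (1 : Matrix.SpecialLinearGroup (Fin n) (ZMod 2)).1 *ᵥ p.2 = p.2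
    rw [Matrix.SpecialLinearGroup.coe_one, Matrix.one_mulVec]

theorem affAdd_inj {u u' : Fin n → ZMod 2} {A A' : Matrix.SpecialLinearGroup (Fin n) (ZMod 2)}
    (h : ∀ p, affAdd u A p = affAdd u' A' p) : u = u' ∧ A = A' := by
  constructor
  · funext k
    have h1 := congrArg Prod.fst (h (0, Pi.single k 1))
    rw [affAdd_apply, affAdd_apply] at h1
    simpa using h1
  · apply Subtype.ext
    ext i k
    have h1 := congrFun (congrArg Prod.snd (h (0, Pi.single k 1))) i
    rw [affAdd_apply, affAdd_apply] at h1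
    simpa using h1

/-- An injective additive map fixing `(1, 0)` has the form `(c, x) ↦ (c + u ⬝ x, A x)`. -/
theorem add_map_form (β : (ZMod 2 × (Fin n → ZMod 2)) →+ (ZMod 2 × (Fin n → ZMod 2)))
    (hβ : Function.Injective β) (h1 : β (1, 0) = (1, 0)) :
    ∃ (u : Fin n → ZMod 2) (A : Matrix.SpecialLinearGroup (Fin n) (ZMod 2)),
      ∀ p, β p = affAdd u A p := by
  let βL : (ZMod 2 × (Fin n → ZMod 2)) →ₗ[ZMod 2] (ZMod 2 × (Fin n → ZMod 2)) :=
    β.toZModLinearMap 2
  have hβL : ∀ p, βL p = β p := fun p => rfl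
  let f : (Fin n → ZMod 2) →ₗ[ZMod 2] ZMod 2 :=
    (LinearMap.fst (ZMod 2) (ZMod 2) (Fin n → ZMod 2)).comp
      (βL.comp (LinearMap.inr (ZMod 2) (ZMod 2) (Fin n → ZMod 2)))
  let B : (Fin n → ZMod 2) →ₗ[ZMod 2] (Fin n → ZMod 2) :=
    (LinearMap.snd (ZMod 2) (ZMod 2) (Fin n → ZMod 2)).comp
      (βL.comp (LinearMap.inr (ZMod 2) (ZMod 2) (Fin n → ZMod 2)))
  have hf : ∀ x, f x = (β (0, x)).1 := fun x => rfl
  have hB : ∀ x, B x = (β (0, x)).2 := fun x => rfl
  have hc0 : ∀ c : ZMod 2, β (c, 0) = (c, 0) := by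
    intro c
    rcases zmod2_cases c with rfl | rfl
    · exact map_zero β
    · exact h1
  have hsplit : ∀ p : ZMod 2 × (Fin n → ZMod 2), β p = (p.1 + f p.2, B p.2) := by
    rintro ⟨c, x⟩
    have e : ((c, x) : ZMod 2 × (Fin n → ZMod 2)) = (c, 0) + (0, x) := by simp
    have h3 : β (c, x) = (c, 0) + β (0, x) := by rw [e, map_add, hc0]
    rw [h3, hf, hB]
    show (c, 0) + β (0, x) = (c + (β (0, x)).1, (β (0, x)).2)
    exact Prod.ext rfl (zero_add _)
  let u : Fin n → ZMod 2 := fun j => f (fun k => if j = k then 1 else 0)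
  have hdot : ∀ y : Fin n → ZMod 2, u ⬝ᵥ y = f y := by
    intro y
    rw [LinearMap.pi_apply_eq_sum_univ f y]
    unfold dotProduct
    apply Finset.sum_congr rfl
    intro j _
    rw [smul_eq_mul]
    ring
  have hBinj : Function.Injective B := by
    rw [← LinearMap.ker_eq_bot, LinearMap.ker_eq_bot']
    intro x hx
    have h2 : β (0, x) = β (f x, 0) := by
      rw [hc0, hsplit]
      simp [hx]
    have h3 := hβ h2
    exact (Prod.ext_iff.mp h3).2
  have hM : ∀ x, (LinearMap.toMatrix' B) *ᵥ x = B x := fun x => by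
    rw [← Matrix.toLin'_apply, Matrix.toLin'_toMatrix']
  have hdet : (LinearMap.toMatrix' B).det = 1 := by
    have hinj : Function.Injective (LinearMap.toMatrix' B).mulVec := by
      intro x y hxy
      apply hBinj
      rw [← hM, ← hM]
      exact hxy
    have h4 := (Matrix.mulVec_injective_iff_isUnit.mp hinj)
    have h5 := (Matrix.isUnit_iff_isUnit_det _).mp h4
    exact zmod2_eq_one_of_ne_zero _ h5.ne_zero
  have hAs : ∃ As : Matrix.SpecialLinearGroup (Fin n) (ZMod 2), As.1 = LinearMap.toMatrix' B :=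
    ⟨⟨_, hdet⟩, rfl⟩
  obtain ⟨As, hAs⟩ := hAs
  refine ⟨u, As, fun p => ?_⟩
  rw [hsplit, affAdd_apply, hdot, hAs, hM]

/-- The additive automorphism exchanging the first coordinate with a later one. -/
def swapAdd (k : Fin n) : (ZMod 2 × (Fin n → ZMod 2)) ≃+ (ZMod 2 × (Fin n → ZMod 2)) where
  toFun p := (p.2 k, Function.update p.2 k p.1)
  invFun p := (p.2 k, Function.update p.2 k p.1)
  left_inv p := by
    apply Prod.ext
    · show Function.update p.2 k p.1 k = p.1
      rw [Function.update_self]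
    · show Function.update (Function.update p.2 k p.1) k (p.2 k) = p.2
      rw [Function.update_idem, Function.update_eq_self]
  right_inv p := by
    apply Prod.ext
    · show Function.update p.2 k p.1 k = p.1
      rw [Function.update_self]
    · show Function.update (Function.update p.2 k p.1) k (p.2 k) = p.2
      rw [Function.update_idem, Function.update_eq_self]
  map_add' p q := by
    apply Prod.ext
    · rfl
    · show Function.update (p.2 + q.2) k (p.1 + q.1) =
        Function.update p.2 k p.1 + Function.update q.2 k q.1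
      funext i
      by_cases hi : i = k
      · subst hi
        simp
      · simp [Function.update_of_ne hi]

theorem swapAdd_one (k : Fin n) :
    swapAdd k ((1 : ZMod 2), (0 : Fin n → ZMod 2)) = (0, Pi.single k 1) := rfl

theorem swapAdd_single (k : Fin n) :
    swapAdd k ((0 : ZMod 2), (Pi.single k 1 : Fin n → ZMod 2)) = (1, 0) := by
  apply Prod.ext
  · show (Pi.single k 1 : Fin n → ZMod 2) k = 1
    rw [Pi.single_eq_same]
  · show Function.update (Pi.single k 1 : Fin n → ZMod 2) k 0 = 0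
    funext i
    by_cases hi : i = k
    · subst hi
      simp
    · simp [Function.update_of_ne hi, Pi.single_eq_of_ne hi]

end Aff

/-- Over the field with two elements the special linear group is the general linear group. -/
noncomputable def slEquivGL2 (n : ℕ) :
    Matrix.SpecialLinearGroup (Fin n) (ZMod 2) ≃* GL (Fin n) (ZMod 2) :=
  MulEquiv.ofBijective Matrix.SpecialLinearGroup.toGL
    ⟨Matrix.SpecialLinearGroup.toGL_injective, fun M => by
      have hdet : Matrix.det (M : Matrix (Fin n) (Fin n) (ZMod 2)) = 1 :=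
        zmod2_eq_one_of_ne_zero _ (Matrix.GeneralLinearGroup.det_ne_zero M)
      refine ⟨⟨(M : Matrix (Fin n) (Fin n) (ZMod 2)), hdet⟩, ?_⟩
      apply Units.ext
      rfl⟩

/-- In a split extension of an elementary abelian group of order `2 ^ (n + 1)` by its full
automorphism group, the centraliser of a nontrivial element of the normal subgroup is
parametrised like the centraliser of a transvection. -/
theorem exists_gsLike {G : Type*} [Group G] [Finite G] (n : ℕ) (k0 : Fin n) (U M : Subgroup G)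
    [U.Normal] (hU : IsElementaryAbelian 2 U) (hUcard : Nat.card ↥U = 2 ^ (n + 1))
    (hUM : U ⊓ M = ⊥) (hUM' : U ⊔ M = ⊤)
    (hfaith : ∀ m ∈ M, (∀ u ∈ U, m * u * m⁻¹ = u) → m = 1)
    (hfull : ∀ φ : ↥U ≃* ↥U, ∃ m ∈ M, ∀ u : ↥U, ((φ u : ↥U) : G) = m * u * m⁻¹)
    (z : G) (hzU : z ∈ U) (hz1 : z ≠ 1) :
    ∃ γ : (Fin n → ZMod 2) → (Fin n → ZMod 2) → ZMod 2 →
        Matrix.SpecialLinearGroup (Fin n) (ZMod 2) → G,
      GsLike γ ∧ γ 0 0 1 1 = z ∧ (∀ g : G, g * z = z * g → ∃ u v c A, g = γ u v c A) ∧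
      ∃ h : G, h * z * h⁻¹ = γ 0 (Pi.single k0 1) 0 1 ∧
        h * γ 0 (Pi.single k0 1) 0 1 * h⁻¹ = z := by
  classical
  letI : CommGroup ↥U := { (inferInstance : Group ↥U) with mul_comm := hU.1.is_comm.comm }
  have h2 : ∀ x : Additive ↥U, x + x = 0 := by
    intro x
    have h := hU.2 (Additive.toMul x).1 (Additive.toMul x).2
    apply Additive.toMul.injective
    apply Subtype.ext
    show ((Additive.toMul x : ↥U) : G) * ((Additive.toMul x : ↥U) : G) = 1
    rw [← pow_two]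
    exact h
  have hcA : Nat.card (Additive ↥U) = 2 ^ (n + 1) := hUcard
  obtain ⟨e, he⟩ := exists_coords_add n h2 hcA (Additive.ofMul (⟨z, hzU⟩ : ↥U)) (by
    intro h
    apply hz1
    exact congrArg (fun x : Additive ↥U => ((Additive.toMul x : ↥U) : G)) h)
  let τ : ZMod 2 × (Fin n → ZMod 2) → G := fun p => ((Additive.toMul (e p) : ↥U) : G)
  have hτU : ∀ p, τ p ∈ U := fun p => (Additive.toMul (e p)).2
  have hτadd : ∀ p q, τ (p + q) = τ p * τ q := by
    intro p q
    show ((Additive.toMul (e (p + q)) : ↥U) : G) = _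
    rw [map_add]
    rfl
  have hτinj : Function.Injective τ := by
    intro p q h
    apply e.injective
    apply Additive.toMul.injective
    exact Subtype.ext h
  have hτsurj : ∀ x ∈ U, ∃ p, τ p = x := by
    intro x hx
    refine ⟨e.symm (Additive.ofMul ⟨x, hx⟩), ?_⟩
    show ((Additive.toMul (e (e.symm (Additive.ofMul ⟨x, hx⟩))) : ↥U) : G) = x
    rw [AddEquiv.apply_symm_apply]
    rfl
  have hτz : τ (1, 0) = z := by
    show ((Additive.toMul (e (1, 0)) : ↥U) : G) = z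
    rw [he]
    rfl
  have hfull' : ∀ α : (ZMod 2 × (Fin n → ZMod 2)) ≃+ (ZMod 2 × (Fin n → ZMod 2)),
      ∃ m, m ∈ M ∧ ∀ p, m * τ p * m⁻¹ = τ (α p) := by
    intro α
    let φ : ↥U ≃* ↥U :=
      { toFun := fun x => Additive.toMul (e (α (e.symm (Additive.ofMul x))))
        invFun := fun x => Additive.toMul (e (α.symm (e.symm (Additive.ofMul x))))
        left_inv := fun x => by simp
        right_inv := fun x => by simp
        map_mul' := fun x y => by
          rw [ofMul_mul, map_add, map_add, map_add, toMul_add] }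
    obtain ⟨m, hmM, hm⟩ := hfull φ
    refine ⟨m, hmM, fun p => ?_⟩
    refine (hm (Additive.toMul (e p))).symm.trans ?_
    show ((Additive.toMul (e (α (e.symm (Additive.ofMul (Additive.toMul (e p)))))) : ↥U) : G) =
      ((Additive.toMul (e (α p)) : ↥U) : G)
    rw [ofMul_toMul, AddEquiv.symm_apply_apply]
  have hconj : ∀ g : G, ∃ β : (ZMod 2 × (Fin n → ZMod 2)) →+ (ZMod 2 × (Fin n → ZMod 2)),
      Function.Injective β ∧ ∀ p, g * τ p * g⁻¹ = τ (β p) := by
    intro g
    have hex : ∀ p, ∃ q, τ q = g * τ p * g⁻¹ := fun p =>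
      hτsurj _ (Subgroup.Normal.conj_mem inferInstance _ (hτU p) g)
    choose b hb using hex
    have hbadd : ∀ p q, b (p + q) = b p + b q := by
      intro p q
      apply hτinj
      rw [hb, hτadd, hτadd, hb, hb]
      group
    refine ⟨AddMonoidHom.mk' b hbadd, ?_, fun p => (hb p).symm⟩
    intro p q h
    have h' : b p = b q := h
    have h3 : g * τ p * g⁻¹ = g * τ q * g⁻¹ := by rw [← hb, ← hb, h']
    apply hτinj
    exact mul_left_cancel (mul_right_cancel h3)
  have hμex : ∀ (u : Fin n → ZMod 2) (A : Matrix.SpecialLinearGroup (Fin n) (ZMod 2)),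
      ∃ m, m ∈ M ∧ ∀ p, m * τ p * m⁻¹ = τ (affAdd u A p) := fun u A => hfull' (affAdd u A)
  choose μ hμM hμc using hμex
  have huniq : ∀ m ∈ M, ∀ m' ∈ M, (∀ p, m * τ p * m⁻¹ = m' * τ p * m'⁻¹) → m = m' := by
    intro m hm m' hm' h
    have h1 : m'⁻¹ * m = 1 := by
      apply hfaith _ (M.mul_mem (M.inv_mem hm') hm)
      intro x hx
      obtain ⟨p, rfl⟩ := hτsurj x hx
      have e1 : m'⁻¹ * m * τ p * (m'⁻¹ * m)⁻¹ = m'⁻¹ * (m * τ p * m⁻¹) * m' := by group
      rw [e1, h p]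
      group
    calc m = m' * (m'⁻¹ * m) := by group
      _ = m' := by rw [h1, mul_one]
  have hμmul : ∀ u A u' A', μ u A * μ u' A' = μ (u' + u ᵥ* A'.1) (A * A') := by
    intro u A u' A'
    apply huniq _ (M.mul_mem (hμM u A) (hμM u' A')) _ (hμM _ _)
    intro p
    have e1 : μ u A * μ u' A' * τ p * (μ u A * μ u' A')⁻¹ =
        μ u A * (μ u' A' * τ p * (μ u' A')⁻¹) * (μ u A)⁻¹ := by group
    rw [e1, hμc, hμc, hμc, affAdd_comp]
  have hμ1 : μ 0 1 = 1 := by
    apply huniq _ (hμM 0 1) _ M.one_mem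
    intro p
    rw [hμc, affAdd_zero_one]
    group
  let γ : (Fin n → ZMod 2) → (Fin n → ZMod 2) → ZMod 2 →
      Matrix.SpecialLinearGroup (Fin n) (ZMod 2) → G := fun u v c A => τ (c, v) * μ u A
  have hγ : GsLike γ := by
    refine ⟨?_, ?_⟩
    · intro u v u' v' c c' A A'
      show τ (c, v) * μ u A * (τ (c', v') * μ u' A') =
        τ (c + c' + u ⬝ᵥ v', v + A.1 *ᵥ v') * μ (u' + u ᵥ* A'.1) (A * A')
      have e1 : τ (c, v) * μ u A * (τ (c', v') * μ u' A') =
          τ (c, v) * (μ u A * τ (c', v') * (μ u A)⁻¹) * (μ u A * μ u' A') := by group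
      rw [e1, hμc, hμmul, ← hτadd, affAdd_apply, Prod.mk_add_mk, add_assoc]
    · intro u v u' v' c c' A A' h
      have h' : τ (c, v) * μ u A = τ (c', v') * μ u' A' := h
      have h1 : (τ (c', v'))⁻¹ * τ (c, v) = μ u' A' * (μ u A)⁻¹ := by
        rw [inv_mul_eq_iff_eq_mul, ← mul_assoc, ← h']
        group
      have h2 : (τ (c', v'))⁻¹ * τ (c, v) ∈ U ⊓ M :=
        ⟨U.mul_mem (U.inv_mem (hτU _)) (hτU _), by
          rw [h1]
          exact M.mul_mem (hμM _ _) (M.inv_mem (hμM _ _))⟩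
      rw [hUM, Subgroup.mem_bot, inv_mul_eq_one] at h2
      have h3 : τ (c, v) = τ (c', v') := h2.symm
      have h4 : μ u A = μ u' A' := by
        rw [h3] at h'
        exact mul_left_cancel h'
      have h5 := hτinj h3
      have h6 : ∀ p, affAdd u A p = affAdd u' A' p := by
        intro p
        apply hτinj
        rw [← hμc, ← hμc, h4]
      obtain ⟨h7, h8⟩ := affAdd_inj h6
      exact ⟨h7, (Prod.ext_iff.mp h5).2, (Prod.ext_iff.mp h5).1, h8⟩
  have hγz : γ 0 0 1 1 = z := by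
    show τ (1, 0) * μ 0 1 = z
    rw [hμ1, mul_one, hτz]
  have hcent : ∀ g : G, g * z = z * g → ∃ u v c A, g = γ u v c A := by
    intro g hg
    have hgm : g ∈ U ⊔ M := by
      rw [hUM']
      exact Subgroup.mem_top g
    rw [← SetLike.mem_coe, Subgroup.normal_mul, Set.mem_mul] at hgm
    obtain ⟨x, hx, m, hm, rfl⟩ := hgm
    obtain ⟨p0, rfl⟩ := hτsurj x hx
    have hxz : τ p0 * z = z * τ p0 := by
      rw [← hτz, ← hτadd, ← hτadd, add_comm]
    have hmz : m * z * m⁻¹ = z := by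
      calc m * z * m⁻¹ = (τ p0)⁻¹ * (τ p0 * m * z) * m⁻¹ := by group
        _ = (τ p0)⁻¹ * (z * (τ p0 * m)) * m⁻¹ := by rw [hg]
        _ = (τ p0)⁻¹ * (z * τ p0) := by group
        _ = (τ p0)⁻¹ * (τ p0 * z) := by rw [hxz]
        _ = z := by group
    obtain ⟨β, hβinj, hβ⟩ := hconj m
    have hβ1 : β (1, 0) = (1, 0) := by
      apply hτinj
      rw [← hβ, hτz, hmz]
    obtain ⟨u, A, huA⟩ := add_map_form β hβinj hβ1
    have hm' : m = μ u A := by
      apply huniq _ hm _ (hμM u A)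
      intro p
      rw [hβ, hμc, huA]
    exact ⟨u, p0.2, p0.1, A, by rw [hm']⟩
  obtain ⟨h, -, hh⟩ := hfull' (swapAdd k0)
  refine ⟨γ, hγ, hγz, hcent, h, ?_, ?_⟩
  · show h * z * h⁻¹ = τ (0, Pi.single k0 1) * μ 0 1
    rw [hμ1, mul_one, ← hτz, hh, swapAdd_one]
  · show h * (τ (0, Pi.single k0 1) * μ 0 1) * h⁻¹ = z
    rw [hμ1, mul_one, hh, swapAdd_single, hτz]

end Cfsg.Agent.Lib.Helper95
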