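import Mathlib
import Cfsg.Prelude.Def_Sporadic_a
import Cfsg.Prelude.Def_Spor_Mathieu
import Cfsg.Prelude.Def_SporadicCombinatorics
import Cfsg.Agent.Lib.Helper9.M24Data
import Cfsg.Agent.Lib.Helper95.M24Tab
import Cfsg.Agent.Lib.Helper95.M24Inv
import Cfsg.Agent.Lib.Helper95.M24Trans
import Cfsg.Agent.Lib.Helper95.Sextet

set_option autoImplicit false

namespace Cfsg.Agent.Lib.Helper95

open Cfsg
open Cfsg.Agent.Lib.Helper9
open scoped Pointwise

/-- Counting the members of the image of a list with a property. -/
theorem card_filter_map_toFinset {α β : Type*} [DecidableEq α] (f : β → α) (P : α → Prop)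
    [DecidablePred P] (p : β → Bool) :
    ∀ l : List β, (l.map f).Nodup → (∀ b ∈ l, P (f b) ↔ p b = true) →
      ((l.map f).toFinset.filter P).card = l.countP p
  | [], _, _ => by simp
  | a :: l, hnd, h => by
    rw [List.map_cons, List.nodup_cons] at hnd
    have ih := card_filter_map_toFinset f P p l hnd.2
      (fun b hb => h b (List.mem_cons_of_mem _ hb))
    rw [List.map_cons, List.toFinset_cons, Finset.filter_insert, List.countP_cons]
    have hnotin : f a ∉ (l.map f).toFinset.filter P := fun hm =>
      hnd.1 (List.mem_toFinset.mp (Finset.mem_filter.mp hm).1)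
    by_cases hP : P (f a)
    · rw [if_pos hP, Finset.card_insert_of_notMem hnotin, ih,
        if_pos ((h a List.mem_cons_self).mp hP)]
    · rw [if_neg hP, ih, if_neg (fun hp => hP ((h a List.mem_cons_self).mpr hp))]
      rfl

theorem support₂_dec_nonempty {n : ℕ} (hn : n < 2 ^ 24) :
    (support₂ (dec n)).Nonempty ↔ n ≠ 0 := by
  constructor
  · rintro h rfl
    rw [support₂_dec_zero] at h
    exact Finset.not_nonempty_empty h
  · intro h
    rw [← Finset.card_pos, card_support₂, hammingNorm_dec]
    by_contra h0
    exact h (eq_zero_of_popc_eq_zero hn (by omega))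

/-- The number of tetrads of a listed sextet with a property, computed on masks. -/
theorem card_filter_sxSet {L : List ℕ} (hL : sxOK L = true) (P : Finset GolayPt → Prop)
    [DecidablePred P] (p : ℕ → Bool) (h : ∀ m ∈ L, P (support₂ (dec m)) ↔ p m = true) :
    ((sxSet L).filter P).card = L.countP p :=
  card_filter_map_toFinset (fun m => support₂ (dec m)) P p L (sxSet_nodup hL) h

/-- The group of the code is 3-transitive: a chain for the base `∞, 0, 1`. -/
theorem m24_tchain3 : TChain M24 (support₂ (dec 16777215)) [] [23, 0, 1] :=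
  tchain_cons (reach0 shift_mem projInv_mem cubeTwist_mem) (by decide +kernel)
    (tchain_cons (reach1 shift_mem projInv_mem cubeTwist_mem) (by decide +kernel)
      (tchain_cons (reach2 shift_mem projInv_mem cubeTwist_mem) (by decide +kernel) trivial))

/-- The group of the code is transitive on 3-subsets. -/
theorem exists_smul_three {Y : Finset GolayPt} (hY : Y.card = 3) :
    ∃ x ∈ M24, x • support₂ (dec 8388611) = Y := by
  obtain ⟨a, b, c, hab, hac, hbc, rfl⟩ := Finset.card_eq_three.mp hY
  obtain ⟨σ, hσ, hF⟩ := TChain.exists_perm (H := M24) (D := support₂ (dec 16777215))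
    (fun σ _ => by rw [support₂_dec_full, Finset.smul_finset_univ]) [23, 0, 1] [] m24_tchain3
    [a, b, c] rfl (by
      simp only [List.nodup_cons, List.mem_cons, List.not_mem_nil, or_false, not_or,
        List.nodup_nil, and_true, not_false_eq_true]
      exact ⟨⟨hab, hac⟩, hbc⟩)
    (fun c _ => ⟨by rw [support₂_dec_full]; exact Finset.mem_univ _,
      fun i hi => absurd hi List.not_mem_nil⟩)
  rw [List.forall₂_cons, List.forall₂_cons, List.forall₂_cons] at hF
  obtain ⟨h0, h1, h2, -⟩ := hF
  refine ⟨σ, hσ.1, ?_⟩
  have e : support₂ (dec 8388611) = {pt 23, pt 0, pt 1} := by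
    have h3 := support₂_maskOf [23, 0, 1] (by decide)
    have h4 : maskOf [23, 0, 1] = 8388611 := by decide
    rw [h4] at h3
    rw [h3]
    rfl
  rw [e, Finset.smul_finset_insert, Finset.smul_finset_insert, Finset.smul_finset_singleton]
  show {σ (pt 23), σ (pt 0), σ (pt 1)} = ({a, b, c} : Finset GolayPt)
  rw [h0, h1, h2]

end Cfsg.Agent.Lib.Helper95
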