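import Cfsg.Agent.Lib.Helper95.TabGroup
import Cfsg.Agent.Lib.Helper95.SextetAux

/-!
# Stabilisers of families of sets

The action of the stabiliser of a family of subsets of the 24 points on the members of the
family: the homomorphism to the symmetric group, surjectivity from swaps, the order of the
kernel, and transport along the group.
-/

set_option autoImplicit false
open scoped Pointwise
open Cfsg

namespace Cfsg.Agent.Lib.Helper95

open Cfsg.Agent.Lib.Helper9

theorem smul_mem_of_stab {S : Finset (Finset GolayPt)} {σ : Equiv.Perm GolayPt} (h : σ • S = S)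
    {t : Finset GolayPt} (ht : t ∈ S) : σ • t ∈ S := by
  have h1 := Finset.smul_mem_smul_finset (a := σ) ht
  rwa [h] at h1

theorem inv_smul_mem_of_stab {S : Finset (Finset GolayPt)} {σ : Equiv.Perm GolayPt}
    (h : σ • S = S) {t : Finset GolayPt} (ht : t ∈ S) : σ⁻¹ • t ∈ S :=
  smul_mem_of_stab (inv_smul_eq_iff.mpr h.symm) ht

/-- The action of the stabiliser of a family of sets on its members. -/
noncomputable def famHom (S : Finset (Finset GolayPt)) :
    ↥(MulAction.stabilizer ↥M24 S) →* Equiv.Perm ↥S :=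
  MonoidHom.mk' (fun g =>
    { toFun := fun t => ⟨((g : ↥M24) : Equiv.Perm GolayPt) • (t : Finset GolayPt),
        smul_mem_of_stab g.2 t.2⟩
      invFun := fun t => ⟨((g : ↥M24) : Equiv.Perm GolayPt)⁻¹ • (t : Finset GolayPt),
        inv_smul_mem_of_stab g.2 t.2⟩
      left_inv := fun _ => Subtype.ext (inv_smul_smul _ _)
      right_inv := fun _ => Subtype.ext (smul_inv_smul _ _) })
    (fun _ _ => Equiv.ext fun _ => Subtype.ext (mul_smul _ _ _))

theorem famHom_apply (S : Finset (Finset GolayPt)) (g : ↥(MulAction.stabilizer ↥M24 S))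
    (t : ↥S) : ((famHom S g t : ↥S) : Finset GolayPt) =
      ((g : ↥M24) : Equiv.Perm GolayPt) • (t : Finset GolayPt) := rfl

theorem mem_ker_famHom {S : Finset (Finset GolayPt)} {g : ↥(MulAction.stabilizer ↥M24 S)} :
    g ∈ (famHom S).ker ↔ ∀ t ∈ S, ((g : ↥M24) : Equiv.Perm GolayPt) • t = t := by
  rw [MonoidHom.mem_ker]
  constructor
  · intro h t ht
    exact congrArg (fun f : Equiv.Perm ↥S => ((f ⟨t, ht⟩ : ↥S) : Finset GolayPt)) h
  · intro h
    exact Equiv.ext fun t => Subtype.ext (h t.1 t.2)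

/-- If every swap of two members is induced, the action on the members is the full symmetric
group. -/
theorem famHom_surjective {S : Finset (Finset GolayPt)}
    (h : ∀ a ∈ S, ∀ b ∈ S, a ≠ b → ∃ g : Equiv.Perm GolayPt, g ∈ M24 ∧ g • S = S ∧ g • a = b ∧
      g • b = a ∧ ∀ t ∈ S, t ≠ a → t ≠ b → g • t = t) :
    Function.Surjective (famHom S) := by
  rw [← MonoidHom.range_eq_top, eq_top_iff, ← Equiv.Perm.closure_isSwap, Subgroup.closure_le]
  rintro e ⟨a, b, hab, rfl⟩
  obtain ⟨g, hgM, hgS, hga, hgb, hgt⟩ := h a.1 a.2 b.1 b.2 (fun h => hab (Subtype.ext h))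
  refine ⟨⟨⟨g, hgM⟩, hgS⟩, ?_⟩
  refine Equiv.ext fun t => Subtype.ext ?_
  show g • (t : Finset GolayPt) = ((Equiv.swap a b t : ↥S) : Finset GolayPt)
  by_cases hta : t = a
  · rw [hta, Equiv.swap_apply_left]
    exact hga
  by_cases htb : t = b
  · rw [htb, Equiv.swap_apply_right]
    exact hgb
  · rw [Equiv.swap_apply_of_ne_of_ne hta htb]
    exact hgt t.1 t.2 (fun h => hta (Subtype.ext h)) (fun h => htb (Subtype.ext h))

theorem card_ker_famHom {S : Finset (Finset GolayPt)} (hs : Function.Surjective (famHom S)) :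
    Nat.card ↥(famHom S).ker * S.card.factorial =
      Nat.card ↥(MulAction.stabilizer ↥M24 S) := by
  have h1 := Subgroup.card_eq_card_quotient_mul_card_subgroup (famHom S).ker
  have h2 : Nat.card (↥(MulAction.stabilizer ↥M24 S) ⧸ (famHom S).ker) = S.card.factorial := by
    rw [Nat.card_congr (QuotientGroup.quotientKerEquivOfSurjective (famHom S) hs).toEquiv,
      Nat.card_eq_fintype_card, Fintype.card_perm, Fintype.card_coe]
  rw [h1, h2, mul_comm]

theorem exists_of_famHom_surjective {S : Finset (Finset GolayPt)}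
    (hs : Function.Surjective (famHom S)) (e : Equiv.Perm ↥S) :
    ∃ g ∈ MulAction.stabilizer ↥M24 S, ∀ t : ↥S,
      ((g : ↥M24) : Equiv.Perm GolayPt) • (t : Finset GolayPt) =
        ((e t : ↥S) : Finset GolayPt) := by
  obtain ⟨g, rfl⟩ := hs e
  exact ⟨g.1, g.2, fun _ => rfl⟩

/-- Swaps of members transport along the group. -/
theorem swaps_transport {S₀ S : Finset (Finset GolayPt)} {x : Equiv.Perm GolayPt} (hx : x ∈ M24)
    (hxS : x • S₀ = S)
    (h : ∀ a ∈ S₀, ∀ b ∈ S₀, a ≠ b → ∃ g : Equiv.Perm GolayPt, g ∈ M24 ∧ g • S₀ = S₀ ∧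
      g • a = b ∧ g • b = a ∧ ∀ t ∈ S₀, t ≠ a → t ≠ b → g • t = t) :
    ∀ a ∈ S, ∀ b ∈ S, a ≠ b → ∃ g : Equiv.Perm GolayPt, g ∈ M24 ∧ g • S = S ∧ g • a = b ∧
      g • b = a ∧ ∀ t ∈ S, t ≠ a → t ≠ b → g • t = t := by
  intro a ha b hb hab
  have hback : ∀ t ∈ S, x⁻¹ • t ∈ S₀ := by
    intro t ht
    rw [← hxS] at ht
    exact Finset.inv_smul_mem_iff.mpr ht
  obtain ⟨g, hgM, hgS, hga, hgb, hgt⟩ := h (x⁻¹ • a) (hback a ha) (x⁻¹ • b) (hback b hb)
    (fun h => hab (by simpa using h))
  refine ⟨x * g * x⁻¹, M24.mul_mem (M24.mul_mem hx hgM) (M24.inv_mem hx), ?_, ?_, ?_, ?_⟩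
  · rw [mul_smul, mul_smul, ← hxS, inv_smul_smul, hgS]
  · rw [mul_smul, mul_smul, hga, smul_inv_smul]
  · rw [mul_smul, mul_smul, hgb, smul_inv_smul]
  · intro t ht hta htb
    rw [mul_smul, mul_smul, hgt (x⁻¹ • t) (hback t ht) (fun h => hta (by simpa using h))
      (fun h => htb (by simpa using h)), smul_inv_smul]

/-- The orbit-stabiliser formula in the group of the code. -/
theorem card_stabilizer_mul_orbit {β : Type*} [MulAction ↥M24 β] (b : β) :
    Nat.card ↥(MulAction.stabilizer ↥M24 b) * (MulAction.orbit ↥M24 b).ncard = 244823040 := by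
  have h1 := Subgroup.card_mul_index (MulAction.stabilizer ↥M24 b)
  rw [MulAction.index_stabilizer] at h1
  rw [h1]
  exact card_M24

/-- Transport of a normal subgroup of exponent two. -/
theorem exists_normal_sq_of_equiv {G G' : Type*} [Group G] [Group G'] (e : G ≃* G')
    (N' : Subgroup G') (hN : N'.Normal) (n : ℕ) (hc : Nat.card N' = n)
    (hsq : ∀ x ∈ N', x * x = 1) :
    ∃ N : Subgroup G, N.Normal ∧ Nat.card N = n ∧ ∀ x ∈ N, x * x = 1 := by
  refine ⟨N'.comap e.toMonoidHom, Subgroup.Normal.comap hN _, ?_, ?_⟩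
  · rw [← hc, Subgroup.comap_equiv_eq_map_symm']
    exact Subgroup.card_map_of_injective e.symm.injective
  · intro x hx
    apply e.injective
    rw [map_mul, map_one]
    exact hsq _ hx

/-! ### Multiple transitivity of the group of the code -/

theorem forall₂_mem_right {α β : Type*} {R : α → β → Prop} :
    ∀ {l₁ : List α} {l₂ : List β}, List.Forall₂ R l₁ l₂ → ∀ c ∈ l₂, ∃ b ∈ l₁, R b c
  | _, _, List.Forall₂.nil, c, hc => absurd hc List.not_mem_nil
  | _, _, List.Forall₂.cons hab ht, c, hc => by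
    rcases List.mem_cons.mp hc with rfl | hc
    · exact ⟨_, List.mem_cons_self, hab⟩
    · obtain ⟨b, hb, hbc⟩ := forall₂_mem_right ht c hc
      exact ⟨b, List.mem_cons_of_mem _ hb, hbc⟩

theorem m24_tchain5 : TChain M24 (support₂ (dec 16777215)) [] [23, 0, 1, 2, 3] :=
  tchain_cons (reach0 shift_mem projInv_mem cubeTwist_mem) (by decide +kernel)
    (tchain_cons (reach1 shift_mem projInv_mem cubeTwist_mem) (by decide +kernel)
      (tchain_cons (reach2 shift_mem projInv_mem cubeTwist_mem) (by decide +kernel)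
        (tchain_cons (reach3 shift_mem projInv_mem cubeTwist_mem) (by decide +kernel)
          (tchain_cons (reach4 shift_mem projInv_mem cubeTwist_mem) (by decide +kernel)
            trivial))))

theorem m24_tchain4 : TChain M24 (support₂ (dec 16777215)) [] [23, 0, 1, 2] :=
  tchain_cons (reach0 shift_mem projInv_mem cubeTwist_mem) (by decide +kernel)
    (tchain_cons (reach1 shift_mem projInv_mem cubeTwist_mem) (by decide +kernel)
      (tchain_cons (reach2 shift_mem projInv_mem cubeTwist_mem) (by decide +kernel)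
        (tchain_cons (reach3 shift_mem projInv_mem cubeTwist_mem) (by decide +kernel)
          trivial)))

/-- The group of the code carries the base points of a transitivity chain onto any set of the
same size. -/
theorem exists_smul_of_tchain {bs : List ℕ} (hbs : ∀ b ∈ bs, b < 24)
    (ht : TChain M24 (support₂ (dec 16777215)) [] bs) {Y : Finset GolayPt}
    (hY : Y.card = bs.length) : ∃ σ ∈ M24, σ • support₂ (dec (maskOf bs)) = Y := by
  obtain ⟨σ, hσ, hF⟩ := TChain.exists_perm (H := M24) (D := support₂ (dec 16777215))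
    (fun σ _ => by rw [support₂_dec_full, Finset.smul_finset_univ]) bs [] ht Y.toList
    (by rw [Finset.length_toList, hY]) (Finset.nodup_toList Y)
    (fun c _ => ⟨by rw [support₂_dec_full]; exact Finset.mem_univ _,
      fun i hi => absurd hi List.not_mem_nil⟩)
  refine ⟨σ, hσ.1, (Finset.eq_of_subset_of_card_le ?_ ?_).symm⟩
  · intro c hc
    obtain ⟨b, hb, hbc⟩ := forall₂_mem_right hF c (Finset.mem_toList.mpr hc)
    rw [← hbc, support₂_maskOf bs hbs]
    exact Finset.smul_mem_smul_finset (List.mem_toFinset.mpr (List.mem_map.mpr ⟨b, hb, rfl⟩))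
  · rw [Finset.card_smul_finset, hY, support₂_maskOf bs hbs]
    exact (List.toFinset_card_le _).trans (by rw [List.length_map])

end Cfsg.Agent.Lib.Helper95
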