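import Cfsg.Agent.Lib.Helper95.GL32

/-!
# `GL₃(𝔽₂)` has no normal 2-subgroups, and equals `SL₃(𝔽₂)`
-/

set_option autoImplicit false
open Cfsg

namespace Cfsg.Agent.Lib.Helper95

/-- For each involution, a matrix and its inverse such that the product of the involution with
its conjugate has order 3. -/
def glInvW : List (List ℕ) :=
  [[84, 85, 340], [124, 85, 340], [161, 84, 84], [167, 92, 116], [214, 85, 340], [233, 86, 212],
   [266, 84, 84], [275, 106, 396], [277, 84, 84], [279, 84, 84], [281, 142, 354], [302, 86, 212],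
   [305, 141, 226], [309, 84, 84], [313, 86, 212], [337, 84, 84], [345, 84, 84], [401, 99, 172],
   [403, 92, 116], [458, 92, 116], [465, 84, 84]]

/-- The check of a witness for an involution. -/
def glInvChk (k g gi : ℕ) : Bool :=
  glKeys.contains g && glKeys.contains gi && mulKey g gi == 273 &&
    mulKey k (mulKey (mulKey g k) gi) != 273 &&
    mulKey (mulKey k (mulKey (mulKey g k) gi))
      (mulKey (mulKey k (mulKey (mulKey g k) gi)) (mulKey k (mulKey (mulKey g k) gi))) == 273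

theorem glInvW_ok : glKeys.all (fun k => k == 273 || mulKey k k != 273 ||
    glInvW.any (fun w => w.getD 0 0 == k && glInvChk k (w.getD 1 0) (w.getD 2 0))) = true := by
  decide +kernel

/-- Every involution has a conjugate such that the product has order 3. -/
theorem gl3_invol_conj (t : GL (Fin 3) (ZMod 2)) (ht1 : t ≠ 1) (ht : t * t = 1) :
    ∃ g : GL (Fin 3) (ZMod 2), t * (g * t * g⁻¹) ≠ 1 ∧
      (t * (g * t * g⁻¹)) * ((t * (g * t * g⁻¹)) * (t * (g * t * g⁻¹))) = 1 := by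
  have h := List.all_eq_true.mp glInvW_ok _ (gl3Key_mem t)
  have hk1 : gl3Key t ≠ 273 := fun e => ht1 (gl3_eq_one e)
  have hk2 : mulKey (gl3Key t) (gl3Key t) = 273 := by
    rw [← gl3Key_mul', ht, gl3Key_one]
  simp only [Bool.or_eq_true, beq_iff_eq, bne_iff_ne, ne_eq, List.any_eq_true,
    Bool.and_eq_true] at h
  rcases h with (h | h) | ⟨w, -, -, hw⟩
  · exact absurd h hk1
  · exact absurd hk2 h
  · simp only [glInvChk, Bool.and_eq_true, beq_iff_eq, bne_iff_ne, ne_eq,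
      List.contains_iff_mem] at hw
    obtain ⟨⟨⟨⟨hg, hgi⟩, hggi⟩, hy1⟩, hy3⟩ := hw
    obtain ⟨g, hgk⟩ := exists_gl3Key_eq hg
    obtain ⟨gi, hgik⟩ := exists_gl3Key_eq hgi
    have e1 : g * gi = 1 := by
      apply gl3_eq_one
      rw [gl3Key_mul', hgk, hgik, hggi]
    have e2 : g⁻¹ = gi := inv_eq_of_mul_eq_one_right e1
    have ekey : gl3Key (t * (g * t * g⁻¹)) =
        mulKey (gl3Key t) (mulKey (mulKey (w.getD 1 0) (gl3Key t)) (w.getD 2 0)) := by
      rw [e2, gl3Key_mul', gl3Key_mul', gl3Key_mul', hgk, hgik]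
    refine ⟨g, ?_, ?_⟩
    · intro e
      apply hy1
      rw [← ekey, e, gl3Key_one]
    · apply gl3_eq_one
      rw [gl3Key_mul' (t * (g * t * g⁻¹)), gl3Key_mul' (t * (g * t * g⁻¹)) (t * (g * t * g⁻¹)),
        ekey, hy3]

/-- `GL₃(𝔽₂)` has no nontrivial normal 2-subgroup. -/
theorem gl3_no_normal_two (N : Subgroup (GL (Fin 3) (ZMod 2))) (hN : N.Normal)
    (hp : IsPGroup 2 ↥N) : N = ⊥ := by
  rw [Subgroup.eq_bot_iff_forall]
  by_contra hne
  have hne' : ∃ x ∈ N, x ≠ 1 := by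
    by_contra h
    apply hne
    intro x hx
    by_contra hx1
    exact h ⟨x, hx, hx1⟩
  obtain ⟨x, hx, hx1⟩ := hne'
  have hex : ∃ k : ℕ, x ^ 2 ^ k = 1 := by
    obtain ⟨k, hk⟩ := hp ⟨x, hx⟩
    exact ⟨k, by simpa using congrArg Subtype.val hk⟩
  classical
  let k := Nat.find hex
  have hk : x ^ 2 ^ k = 1 := Nat.find_spec hex
  have hk0 : k ≠ 0 := by
    intro h0
    rw [h0, pow_zero, pow_one] at hk
    exact hx1 hk
  obtain ⟨j, hj⟩ := Nat.exists_eq_succ_of_ne_zero hk0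
  have ht1 : x ^ 2 ^ j ≠ 1 := by
    intro h
    have := Nat.find_min' hex h
    omega
  have htt : x ^ 2 ^ j * x ^ 2 ^ j = 1 := by
    have e : k = j + 1 := hj
    rw [← pow_add, ← two_mul, ← pow_succ', ← e]
    exact hk
  have htN : x ^ 2 ^ j ∈ N := N.pow_mem hx _
  obtain ⟨g, hy1, hy3⟩ := gl3_invol_conj _ ht1 htt
  have hyN : x ^ 2 ^ j * (g * x ^ 2 ^ j * g⁻¹) ∈ N := N.mul_mem htN (hN.conj_mem _ htN g)
  obtain ⟨m, hm⟩ := hp ⟨_, hyN⟩
  have hm' : (x ^ 2 ^ j * (g * x ^ 2 ^ j * g⁻¹)) ^ 2 ^ m = 1 := by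
    simpa using congrArg Subtype.val hm
  have h3 : (x ^ 2 ^ j * (g * x ^ 2 ^ j * g⁻¹)) ^ 3 = 1 := by
    rw [pow_succ, pow_two, mul_assoc]
    exact hy3
  have hd1 := orderOf_dvd_of_pow_eq_one hm'
  have hd3 := orderOf_dvd_of_pow_eq_one h3
  have hcop : Nat.Coprime (2 ^ m) 3 := Nat.Coprime.pow_left m (by norm_num)
  have h1 : orderOf (x ^ 2 ^ j * (g * x ^ 2 ^ j * g⁻¹)) = 1 :=
    Nat.eq_one_of_dvd_coprimes hcop hd1 hd3
  exact hy1 (orderOf_eq_one_iff.mp h1)

/-- Over the field with two elements the special linear group is the general linear group. -/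
noncomputable def sl3EquivGL3 :
    Matrix.SpecialLinearGroup (Fin 3) (ZMod 2) ≃* GL (Fin 3) (ZMod 2) :=
  MulEquiv.ofBijective Matrix.SpecialLinearGroup.toGL
    ⟨Matrix.SpecialLinearGroup.toGL_injective, fun M => by
      have hdet : Matrix.det (M : Matrix (Fin 3) (Fin 3) (ZMod 2)) = 1 := by
        have h := Matrix.GeneralLinearGroup.det_ne_zero M
        revert h
        generalize Matrix.det (M : Matrix (Fin 3) (Fin 3) (ZMod 2)) = d
        revert d
        decide
      refine ⟨⟨(M : Matrix (Fin 3) (Fin 3) (ZMod 2)), hdet⟩, ?_⟩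
      apply Units.ext
      rfl⟩

end Cfsg.Agent.Lib.Helper95
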