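import Cfsg.Agent.Lib.Helper95.TransvLarge

/-!
# Groups parametrised like the centraliser of a transvection

A family `γ u v c A` of elements of a group with the multiplication law of the block matrices
with rows `(1, c, u)`, `(0, 1, 0)`, `(0, v, A)` over the field with two elements, and the
structure of the centraliser of `γ 0 0 1 1` when the family exhausts it.
-/

set_option autoImplicit false
open Cfsg

namespace Cfsg.Agent.Lib.Helper95

open Cfsg.Agent.Lib.Helper94 Matrix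

section GsLike

variable {G : Type*} [Group G] {n : ℕ}

/-- A parametrisation of elements of a group with the multiplication law of the centraliser of a
transvection in the special linear group over the field with two elements. -/
structure GsLike (γ : (Fin n → ZMod 2) → (Fin n → ZMod 2) → ZMod 2 →
    Matrix.SpecialLinearGroup (Fin n) (ZMod 2) → G) : Prop where
  mul : ∀ (u v u' v' : Fin n → ZMod 2) (c c' : ZMod 2)
    (A A' : Matrix.SpecialLinearGroup (Fin n) (ZMod 2)),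
    γ u v c A * γ u' v' c' A' = γ (u' + u ᵥ* A'.1) (v + A.1 *ᵥ v') (c + c' + u ⬝ᵥ v') (A * A')
  inj : ∀ {u v u' v' : Fin n → ZMod 2} {c c' : ZMod 2}
    {A A' : Matrix.SpecialLinearGroup (Fin n) (ZMod 2)},
    γ u v c A = γ u' v' c' A' → u = u' ∧ v = v' ∧ c = c' ∧ A = A'

variable {γ : (Fin n → ZMod 2) → (Fin n → ZMod 2) → ZMod 2 →
    Matrix.SpecialLinearGroup (Fin n) (ZMod 2) → G}

theorem GsLike.one (hγ : GsLike γ) : γ 0 0 0 1 = 1 := by
  have h := hγ.mul 0 0 0 0 0 0 1 1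
  simp only [Matrix.zero_vecMul, Matrix.mulVec_zero, zero_dotProduct, add_zero, mul_one] at h
  exact mul_left_cancel (h.trans (mul_one _).symm)

theorem GsLike.hmul (hγ : GsLike γ) (u v u' v' : Fin n → ZMod 2) (c c' : ZMod 2) :
    γ u v c 1 * γ u' v' c' 1 = γ (u + u') (v + v') (c + c' + u ⬝ᵥ v') 1 := by
  rw [hγ.mul, Matrix.SpecialLinearGroup.coe_one, Matrix.vecMul_one, Matrix.one_mulVec, mul_one,
    add_comm u' u]

theorem GsLike.hinv (hγ : GsLike γ) (u v : Fin n → ZMod 2) (c : ZMod 2) :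
    (γ u v c 1)⁻¹ = γ u v (c + u ⬝ᵥ v) 1 := by
  apply inv_eq_of_mul_eq_one_right
  rw [hγ.hmul, zvec_add_self, zvec_add_self]
  have e : c + (c + u ⬝ᵥ v) + u ⬝ᵥ v = 0 := by
    rw [add_assoc c, add_assoc, zmod2_add_self, add_zero, zmod2_add_self]
  rw [e]
  exact hγ.one

/-- The Heisenberg group of the family. -/
def GsLike.Q (hγ : GsLike γ) : Subgroup G where
  carrier := {g | ∃ u v c, g = γ u v c 1}
  mul_mem' := by
    rintro _ _ ⟨u, v, c, rfl⟩ ⟨u', v', c', rfl⟩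
    exact ⟨_, _, _, hγ.hmul u v u' v' c c'⟩
  one_mem' := ⟨0, 0, 0, hγ.one.symm⟩
  inv_mem' := by
    rintro _ ⟨u, v, c, rfl⟩
    exact ⟨_, _, _, hγ.hinv u v c⟩

/-- The elementary abelian subgroup of the family. -/
def GsLike.E (hγ : GsLike γ) : Subgroup G where
  carrier := {g | ∃ v c, g = γ 0 v c 1}
  mul_mem' := by
    rintro _ _ ⟨v, c, rfl⟩ ⟨v', c', rfl⟩
    refine ⟨v + v', c + c', ?_⟩
    rw [hγ.hmul, add_zero, zero_dotProduct, add_zero]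
  one_mem' := ⟨0, 0, hγ.one.symm⟩
  inv_mem' := by
    rintro _ ⟨v, c, rfl⟩
    refine ⟨v, c, ?_⟩
    rw [hγ.hinv, zero_dotProduct, add_zero]

/-- The complement of the family. -/
def GsLike.ψ (hγ : GsLike γ) : Matrix.SpecialLinearGroup (Fin n) (ZMod 2) →* G where
  toFun A := γ 0 0 0 A
  map_one' := hγ.one
  map_mul' A B := by
    rw [hγ.mul, Matrix.zero_vecMul, Matrix.mulVec_zero, zero_dotProduct]
    simp

theorem GsLike.ψ_apply (hγ : GsLike γ) (A : Matrix.SpecialLinearGroup (Fin n) (ZMod 2)) :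
    hγ.ψ A = γ 0 0 0 A := rfl

theorem GsLike.ds_mul_hs (hγ : GsLike γ) (A : Matrix.SpecialLinearGroup (Fin n) (ZMod 2))
    (u v : Fin n → ZMod 2) (c : ZMod 2) : γ 0 0 0 A * γ u v c 1 = γ u (A.1 *ᵥ v) c A := by
  rw [hγ.mul, Matrix.SpecialLinearGroup.coe_one, Matrix.zero_vecMul, zero_dotProduct]
  simp

theorem GsLike.hs_mul_ds (hγ : GsLike γ) (A : Matrix.SpecialLinearGroup (Fin n) (ZMod 2))
    (u v : Fin n → ZMod 2) (c : ZMod 2) : γ u v c 1 * γ 0 0 0 A = γ (u ᵥ* A.1) v c A := by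
  rw [hγ.mul, Matrix.SpecialLinearGroup.coe_one, Matrix.mulVec_zero, dotProduct_zero]
  simp

theorem GsLike.ds_conj_hs (hγ : GsLike γ) (A : Matrix.SpecialLinearGroup (Fin n) (ZMod 2))
    (u v : Fin n → ZMod 2) (c : ZMod 2) :
    γ 0 0 0 A * γ u v c 1 * (γ 0 0 0 A)⁻¹ = γ (u ᵥ* (A⁻¹).1) (A.1 *ᵥ v) c 1 := by
  rw [mul_inv_eq_iff_eq_mul, hγ.ds_mul_hs, hγ.hs_mul_ds, Matrix.vecMul_vecMul, sl_inv_mul,
    Matrix.vecMul_one]

theorem GsLike.eq_hs_mul_ds (hγ : GsLike γ) (A : Matrix.SpecialLinearGroup (Fin n) (ZMod 2))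
    (u v : Fin n → ZMod 2) (c : ZMod 2) : γ u v c A = γ (u ᵥ* (A⁻¹).1) v c 1 * γ 0 0 0 A := by
  rw [hγ.hs_mul_ds, Matrix.vecMul_vecMul, sl_inv_mul, Matrix.vecMul_one]

theorem GsLike.extraAt (hγ : GsLike γ) : ExtraAt hγ.Q (γ 0 0 1 1) := by
  refine extraAt_of_sq ⟨0, 0, 1, rfl⟩ ?_ ?_ ?_ ?_ ?_
  · intro h
    have h1 := (hγ.inj (h.trans hγ.one.symm)).2.2.1
    exact one_ne_zero h1
  · rw [hγ.hmul, zvec_add_self, zmod2_add_self, zero_dotProduct, add_zero]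
    exact hγ.one
  · rintro _ ⟨u, v, c, rfl⟩
    rw [hγ.hmul, hγ.hmul, dotProduct_zero, zero_dotProduct, add_zero, add_zero, add_zero, zero_add,
      zero_add, add_zero, add_comm c 1]
  · rintro _ ⟨u, v, c, rfl⟩ hcomm
    have hu : u = 0 := by
      funext k
      have h1 := hcomm (γ 0 (Pi.single k 1) 0 1) ⟨_, _, _, rfl⟩
      rw [hγ.hmul, hγ.hmul] at h1
      have h2 := (hγ.inj h1).2.2.1
      rw [dotProduct_single, zero_dotProduct, mul_one, add_zero, add_zero, zero_add] at h2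
      exact zmod2_add_left_eq _ _ h2.symm
    have hv : v = 0 := by
      funext k
      have h1 := hcomm (γ (Pi.single k 1) 0 0 1) ⟨_, _, _, rfl⟩
      rw [hγ.hmul, hγ.hmul] at h1
      have h2 := (hγ.inj h1).2.2.1
      rw [single_dotProduct, dotProduct_zero, one_mul, add_zero, add_zero, zero_add] at h2
      exact zmod2_add_left_eq _ _ h2
    subst hu
    subst hv
    rcases zmod2_cases c with rfl | rfl
    · left
      exact hγ.one
    · right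
      rfl
  · rintro _ ⟨u, v, c, rfl⟩
    rw [hγ.hmul, zvec_add_self, zvec_add_self, zmod2_add_self, zero_add]
    rcases zmod2_cases (u ⬝ᵥ v) with h | h
    · left
      rw [h]
      exact hγ.one
    · right
      rw [h]

theorem GsLike.na (hγ : GsLike γ) (k : Fin n) : ∃ a ∈ hγ.Q, ∃ b ∈ hγ.Q, a * b ≠ b * a := by
  refine ⟨γ (Pi.single k 1) 0 0 1, ⟨_, _, _, rfl⟩, γ 0 (Pi.single k 1) 0 1, ⟨_, _, _, rfl⟩, ?_⟩
  rw [hγ.hmul, hγ.hmul]
  intro h
  have h2 := (hγ.inj h).2.2.1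
  rw [single_dotProduct, zero_dotProduct, Pi.single_eq_same, one_mul, add_zero, zero_add] at h2
  exact one_ne_zero h2

theorem GsLike.card_Q (hγ : GsLike γ) : Nat.card ↥hγ.Q = 2 ^ (2 * n + 1) := by
  have e : ((Fin n → ZMod 2) × (Fin n → ZMod 2) × ZMod 2) ≃ ↥hγ.Q :=
    Equiv.ofBijective (fun p => ⟨γ p.1 p.2.1 p.2.2 1, ⟨_, _, _, rfl⟩⟩)
      ⟨fun p q h => by
        obtain ⟨h1, h2, h3, -⟩ := hγ.inj (congrArg Subtype.val h)
        exact Prod.ext h1 (Prod.ext h2 h3),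
       fun ⟨g, u, v, c, hg⟩ => ⟨(u, v, c), Subtype.ext hg.symm⟩⟩
  rw [← Nat.card_congr e, Nat.card_prod, Nat.card_prod, Nat.card_fun, Nat.card_zmod, Nat.card_fin]
  ring

theorem GsLike.card_E (hγ : GsLike γ) : Nat.card ↥hγ.E = 2 ^ (n + 1) := by
  have e : ((Fin n → ZMod 2) × ZMod 2) ≃ ↥hγ.E :=
    Equiv.ofBijective (fun p => ⟨γ 0 p.1 p.2 1, ⟨_, _, rfl⟩⟩)
      ⟨fun p q h => by
        obtain ⟨-, h1, h3, -⟩ := hγ.inj (congrArg Subtype.val h)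
        exact Prod.ext h1 h3,
       fun ⟨g, v, c, hg⟩ => ⟨(v, c), Subtype.ext hg.symm⟩⟩
  rw [← Nat.card_congr e, Nat.card_prod, Nat.card_fun, Nat.card_zmod, Nat.card_fin]
  ring

theorem GsLike.E_le (hγ : GsLike γ) : hγ.E ≤ hγ.Q := by
  rintro _ ⟨v, c, rfl⟩
  exact ⟨0, v, c, rfl⟩

theorem GsLike.E_elem (hγ : GsLike γ) : IsElementaryAbelian 2 hγ.E := by
  refine ⟨⟨⟨?_⟩⟩, ?_⟩
  · rintro ⟨_, v, c, rfl⟩ ⟨_, v', c', rfl⟩
    apply Subtype.ext
    show γ 0 v c 1 * γ 0 v' c' 1 = γ 0 v' c' 1 * γ 0 v c 1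
    rw [hγ.hmul, hγ.hmul, zero_dotProduct, zero_dotProduct, add_comm v v', add_comm c c']
  · rintro _ ⟨v, c, rfl⟩
    rw [pow_two, hγ.hmul, zvec_add_self, zvec_add_self, zmod2_add_self, zero_dotProduct, add_zero]
    exact hγ.one

/-- The special linear group of degree at least 1 over the field with two elements has no
nontrivial normal 2-subgroup. -/
theorem sl_no_normal_two' (hn : 1 ≤ n) (N : Subgroup (Matrix.SpecialLinearGroup (Fin n) (ZMod 2)))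
    (hN : N.Normal) (hp : IsPGroup 2 ↥N) : N = ⊥ := by
  rcases Nat.lt_or_ge n 2 with h | h
  · obtain rfl : n = 1 := by omega
    rw [Subgroup.eq_bot_iff_forall]
    intro x _
    apply Subtype.ext
    have h1 : x.1.det = 1 := x.2
    rw [Matrix.det_fin_one] at h1
    ext i j
    rw [Fin.fin_one_eq_zero i, Fin.fin_one_eq_zero j, h1]
    rfl
  · exact sl_no_normal_two h N hN hp

/-- The structure of the centraliser of `γ 0 0 1 1` when the family exhausts it. -/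
theorem GsLike.large [Finite G] (hγ : GsLike γ)
    (hcent : ∀ g : G, g * γ 0 0 1 1 = γ 0 0 1 1 * g → ∃ u v c A, g = γ u v c A)
    (h : G) (k0 : Fin n)
    (hzb : h * γ 0 0 1 1 * h⁻¹ = γ 0 (Pi.single k0 1) 0 1)
    (hbz : h * γ 0 (Pi.single k0 1) 0 1 * h⁻¹ = γ 0 0 1 1) :
    IsExtraspecial 2 ↥(tc (γ 0 0 1 1)) ∧ Nat.card ↥(tc (γ 0 0 1 1)) = 2 ^ (2 * n + 1) ∧
    (∃ E : Subgroup G, E ≤ tc (γ 0 0 1 1) ∧ IsElementaryAbelian 2 E ∧
      Nat.card ↥E = 2 ^ (n + 1)) ∧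
    IsLargeExtraspecial (tc (γ 0 0 1 1)) ∧
    ∃ K : Subgroup G, K ≤ Subgroup.centralizer ({γ 0 0 1 1} : Set G) ∧
      tc (γ 0 0 1 1) ⊓ K = ⊥ ∧
      tc (γ 0 0 1 1) ⊔ K = Subgroup.centralizer ({γ 0 0 1 1} : Set G) ∧
      Nonempty (↥K ≃* Matrix.SpecialLinearGroup (Fin n) (ZMod 2)) := by
  have hn : 1 ≤ n := by
    have := k0.2
    omega
  have hψz : ∀ l, hγ.ψ l * γ 0 0 1 1 = γ 0 0 1 1 * hγ.ψ l := by
    intro l
    rw [hγ.ψ_apply, hγ.ds_mul_hs, hγ.hs_mul_ds, Matrix.mulVec_zero, Matrix.zero_vecMul]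
  have hsurj : ∀ c : G, c * γ 0 0 1 1 = γ 0 0 1 1 * c → ∃ q ∈ hγ.Q, ∃ l, c = q * hγ.ψ l := by
    intro c hc
    obtain ⟨u, v, c', A, rfl⟩ := hcent c hc
    exact ⟨γ (u ᵥ* (A⁻¹).1) v c' 1, ⟨_, _, _, rfl⟩, A, hγ.eq_hs_mul_ds A u v c'⟩
  have hker : ∀ l, hγ.ψ l ∈ hγ.Q → l = 1 := by
    rintro l ⟨u, v, c, h⟩
    exact (hγ.inj h).2.2.2
  have hnorm : ∀ l, ∀ q ∈ hγ.Q, hγ.ψ l * q * (hγ.ψ l)⁻¹ ∈ hγ.Q := by
    rintro l _ ⟨u, v, c, rfl⟩
    exact ⟨_, _, _, hγ.ds_conj_hs l u v c⟩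
  have hfaith : ∀ l, (∀ v ∈ hγ.Q, hγ.ψ l * v * (hγ.ψ l)⁻¹ = v ∨
      hγ.ψ l * v * (hγ.ψ l)⁻¹ = γ 0 0 1 1 * v) → l = 1 := by
    intro l hl
    have key : ∀ w : Fin n → ZMod 2, l.1 *ᵥ w = w := by
      intro w
      rcases hl (γ 0 w 0 1) ⟨_, _, _, rfl⟩ with h | h
      · rw [hγ.ψ_apply, hγ.ds_conj_hs] at h
        exact (hγ.inj h).2.1
      · rw [hγ.ψ_apply, hγ.ds_conj_hs, hγ.hmul] at h
        exact (hγ.inj h).2.1.trans (zero_add w)
    apply Subtype.ext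
    ext i j
    have h1 := congrFun (key (Pi.single j 1)) i
    rw [Matrix.mulVec_single_one] at h1
    show l.1 i j = (1 : Matrix (Fin n) (Fin n) (ZMod 2)) i j
    rw [Matrix.one_apply]
    rw [Pi.single_apply] at h1
    exact h1
  have hb1 : γ 0 (Pi.single k0 1) 0 1 ≠ (1 : G) := by
    intro h
    have h1 := congrFun (hγ.inj (h.trans hγ.one.symm)).2.1 k0
    rw [Pi.single_eq_same] at h1
    exact one_ne_zero h1
  have hbz0 : γ 0 (Pi.single k0 1) 0 1 ≠ γ (0 : Fin n → ZMod 2) 0 1 1 := by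
    intro h
    exact zero_ne_one (hγ.inj h).2.2.1
  have hbb : γ 0 (Pi.single k0 1) 0 1 * γ 0 (Pi.single k0 1) 0 1 = (1 : G) := by
    rw [hγ.hmul, zvec_add_self, zvec_add_self, zmod2_add_self, zero_dotProduct, add_zero]
    exact hγ.one
  obtain ⟨h1, h2, h3, h4, h5, h6, h7⟩ := large_of_data (γ 0 0 1 1) hγ.Q hγ.ψ
    (2 * n + 1) hγ.extraAt (hγ.na k0) hγ.card_Q hψz hsurj hker hnorm
    (sl_no_normal_two' hn) hfaith (γ 0 (Pi.single k0 1) 0 1) h ⟨_, _, _, rfl⟩ hb1 hbz0 hbb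
    hzb hbz
  rw [h1]
  exact ⟨h2, hγ.card_Q, ⟨hγ.E, hγ.E_le, hγ.E_elem, hγ.card_E⟩, h3,
    hγ.ψ.range, h4, h5, h6, ⟨(MonoidHom.ofInjective h7).symm⟩⟩

end GsLike

end Cfsg.Agent.Lib.Helper95
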