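import Cfsg.Agent.Lib.Helper60.H74C4of

/-!
# Project H74, batch 2 (S5990, helper98): piece CPXF (`cpx_fix`), helper95

`g² = -1`, `-1` a nonsquare: peeling `k + 1` invariant anisotropic planes `⟨v, g v⟩` (piece C4 of
batch 1, `c4_plane` of helper60) gives an invariant nondegenerate subspace of dimension `2k + 2`
and type `(-1) ^ (k + 1)`, for every `k + 1 ≤ d`.  The sibling piece SUM (`subtyp_sup`) is the
hypothesis `hsum` of `cpxf_of`.
-/

set_option autoImplicit false

namespace Cfsg.Agent.Lib.Helper98.H74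

open Cfsg.Agent.Lib.Helper47 Cfsg.Agent.Lib.Helper98.T73 Module Polynomial

universe u

variable {F : Type u} [Field F] [Fintype F] {V : Type u} [AddCommGroup V] [Module F V]
  [FiniteDimensional F V] {Q : V → F} {B : V → V → F}

/-- CPXF, with the statement of the piece SUM (`subtyp_sup`) as the hypothesis `hsum`. -/
theorem cpxf_of
    (hsum : ∀ (X Y : Submodule F V), (∀ x ∈ X, ∀ y ∈ Y, B x y = 0) → ∀ (k₁ k₂ : ℕ) (ε₁ ε₂ : ℤ),
      SubTyp Q B X k₁ ε₁ → SubTyp Q B Y k₂ ε₂ → SubTyp Q B (X ⊔ Y) (k₁ + k₂ + 1) (ε₁ * ε₂))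
    (hf : QFacts F) (h2 : (2 : F) ≠ 0) (hns : ¬ IsSquare (-1 : F))
    (hQ : IsQuad Q B) (hnd : Nondeg B) (d : ℕ) (hdim : finrank F V = 2 * d)
    (g : Module.End F V) (hgQ : QI Q g) (hg : g * g = -1) (k : ℕ) (hk : k + 1 ≤ d) :
    ∃ W : Submodule F V, SubTyp Q B W k ((-1) ^ (k + 1)) ∧ W.map g ≤ W := by
  induction k with
  | zero =>
    have htop : (⊤ : Submodule F V) ≠ ⊥ := by
      intro h
      have h1 : finrank F (⊤ : Submodule F V) = 0 := by rw [h]; exact finrank_bot F V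
      rw [finrank_top, hdim] at h1
      omega
    have hndtop : Nondeg (resForm B (⊤ : Submodule F V)) := by
      intro x hx
      apply Subtype.ext
      exact hnd x.1 (fun y => hx ⟨y, Submodule.mem_top⟩)
    obtain ⟨P, -, hP, hPg⟩ := c4_plane hf h2 hns hQ hgQ hg ⊤ le_top hndtop htop
    have e0 : ((-1 : ℤ)) ^ (0 + 1) = -1 := by norm_num
    rw [e0]
    exact ⟨P, hP, hPg⟩
  | succ j ih =>
    obtain ⟨W, hW, hWg⟩ := ih (by omega)
    have hc : IsCompl W (hQ.form.orth W) := isCompl_orth hQ.form hW.1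
    have hYnd : Nondeg (resForm B (hQ.form.orth W)) := nondeg_orth hQ.form hnd hc
    have hY0 : hQ.form.orth W ≠ ⊥ := by
      intro h
      rw [h] at hc
      have hWtop : W = ⊤ := eq_top_of_isCompl_bot hc
      have h1 := hW.2.1
      rw [hWtop, finrank_top, hdim] at h1
      omega
    have hYg : (hQ.form.orth W).map g ≤ hQ.form.orth W := by
      rintro _ ⟨y, hy, rfl⟩
      intro x hx
      have hx' : -(g x) ∈ W := W.neg_mem (hWg (Submodule.mem_map_of_mem hx))
      have h1 : B (g (-(g x))) (g y) = B (-(g x)) y := hQ.isometry hQ g hgQ _ _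
      rw [map_neg, c4_gg hg, neg_neg] at h1
      rw [h1]
      exact hy _ hx'
    obtain ⟨P, hPY, hP, hPg⟩ := c4_plane hf h2 hns hQ hgQ hg _ hYg hYnd hY0
    have hsum' := hsum W P (fun x hx y hy => hPY hy x hx) j 0 ((-1) ^ (j + 1))
      (-1) hW hP
    refine ⟨W ⊔ P, ?_, ?_⟩
    · have e1 : j + 0 + 1 = j + 1 := by omega
      have e2 : ((-1 : ℤ)) ^ (j + 1) * (-1) = (-1) ^ (j + 1 + 1) := by ring
      rw [e1, e2] at hsum'
      exact hsum'
    · rw [Submodule.map_sup]
      exact sup_le_sup hWg hPg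

end Cfsg.Agent.Lib.Helper98.H74
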