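import Mathlib
import Cfsg.Agent.S0415
import Cfsg.Agent.Lib.Helper75.Miller1

/-!
# M. Hall's theorem on 4-transitive groups with odd 4-point stabiliser: small degrees and assembly
-/

set_option autoImplicit false
set_option linter.unusedSectionVars false
set_option linter.style.haveILetI false

namespace Cfsg.Agent.Lib.Helper95.HallP1

open MulAction

variable {α : Type*} [Fintype α] [DecidableEq α]

/-- All stabilisers of 4-tuples have the same order. -/
theorem card_stab_eq (G : Subgroup (Equiv.Perm α)) (hG : IsMultiplyPretransitive G α 4)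
    (x y : Fin 4 ↪ α) : Nat.card (stabilizer G y) = Nat.card (stabilizer G x) := by
  obtain ⟨k, hk⟩ := hG.exists_smul_eq x y
  have h := stabilizer_smul_eq_stabilizer_map_conj k x
  have e : stabilizer G y = Subgroup.map (MulAut.conj k).toMonoidHom (stabilizer G x) := by
    rw [← hk]
    exact h
  rw [e, Subgroup.card_map_of_injective (MulAut.conj k).injective]

/-- The order formula. -/
theorem card_formula (G : Subgroup (Equiv.Perm α)) (hG : IsMultiplyPretransitive G α 4)
    (x : Fin 4 ↪ α) :
    Nat.card (stabilizer G x) * (Fintype.card α).descFactorial 4 = Nat.card G := by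
  have h1 := Subgroup.card_mul_index (stabilizer G x)
  have h0 : (stabilizer G x).index = Nat.card (Fin 4 ↪ α) :=
    @index_stabilizer_of_transitive _ _ _ _ x hG
  rw [h0, Nat.card_eq_fintype_card (α := Fin 4 ↪ α),
    Fintype.card_embedding_eq, Fintype.card_fin] at h1
  exact h1

theorem hall_assemble (G : Subgroup (Equiv.Perm α))
    (hG : MulAction.IsMultiplyPretransitive G α 4) (x : Fin 4 ↪ α)
    (hodd : Odd (Nat.card (MulAction.stabilizer G x)))
    (hmain : (∀ s : Finset α, s.card ≤ 4 → ∀ σ : Equiv.Perm α, ∃ g ∈ G, ∀ q ∈ s, g q = σ q) →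
      (∀ g ∈ G, g * g = 1 → ∀ s : Finset α, s.card = 4 → (∀ q ∈ s, g q = q) → g = 1) →
      8 ≤ Fintype.card α →
      Fintype.card α = 11 ∧ ∀ g ∈ G, (∀ i, g (x i) = x i) → g = 1) :
    ((Fintype.card α = 4 ∨ Fintype.card α = 5) ∧ G = ⊤) ∨
    ((Fintype.card α = 6 ∨ Fintype.card α = 7) ∧ G = alternatingGroup α) ∨
    (Fintype.card α = 11 ∧ Nat.card G = 7920) := by
  have hn4 : 4 ≤ Fintype.card α := by
    have := Fintype.card_le_of_embedding x
    rwa [Fintype.card_fin] at this
  have hform := card_formula G hG x
  have hperm : Nat.card (Equiv.Perm α) = (Fintype.card α).factorial := by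
    rw [Nat.card_eq_fintype_card, Fintype.card_perm]
  have hdvd : Nat.card G ∣ (Fintype.card α).factorial := by
    rw [← hperm]
    exact Subgroup.card_subgroup_dvd_card G
  have hHpos : 0 < Nat.card (stabilizer G x) := Nat.card_pos
  have hidx := Subgroup.card_mul_index G
  rw [hperm] at hidx
  have hcases : Fintype.card α = 4 ∨ Fintype.card α = 5 ∨ Fintype.card α = 6 ∨
      Fintype.card α = 7 ∨ 8 ≤ Fintype.card α := by omega
  rcases hcases with h | h | h | h | h
  · left
    refine ⟨Or.inl h, ?_⟩
    apply Subgroup.eq_top_of_le_card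
    rw [hperm, ← hform, h]
    have e1 : Nat.descFactorial 4 4 = 24 := by decide
    have e2 : Nat.factorial 4 = 24 := by decide
    rw [e1, e2]
    omega
  · left
    refine ⟨Or.inr h, ?_⟩
    apply Subgroup.eq_top_of_le_card
    rw [hperm, ← hform, h]
    have e1 : Nat.descFactorial 5 4 = 120 := by decide
    have e2 : Nat.factorial 5 = 120 := by decide
    rw [e1, e2]
    omega
  · right; left
    refine ⟨Or.inl h, ?_⟩
    apply Equiv.Perm.eq_alternatingGroup_of_index_eq_two
    rw [h] at hform hidx hdvd
    have e1 : Nat.descFactorial 6 4 = 360 := by decide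
    have e2 : Nat.factorial 6 = 720 := by decide
    rw [e1] at hform
    rw [e2] at hidx hdvd
    rw [← hform] at hidx hdvd
    have hd : Nat.card (stabilizer G x) ∣ 2 :=
      Nat.dvd_of_mul_dvd_mul_right (by norm_num : 0 < 360) (by simpa using hdvd)
    have hle := Nat.le_of_dvd (by norm_num) hd
    obtain ⟨m, hm⟩ := hodd
    have h1 : Nat.card (stabilizer G x) = 1 := by omega
    rw [h1] at hidx
    omega
  · right; left
    refine ⟨Or.inr h, ?_⟩
    apply Equiv.Perm.eq_alternatingGroup_of_index_eq_two
    rw [h] at hform hidx hdvd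
    have e1 : Nat.descFactorial 7 4 = 840 := by decide
    have e2 : Nat.factorial 7 = 5040 := by decide
    rw [e1] at hform
    rw [e2] at hidx hdvd
    -- the stabiliser is not trivial
    have hne1 : Nat.card (stabilizer G x) ≠ 1 := by
      intro h1
      haveI : IsMultiplyPretransitive G α 4 := hG
      have hsharp : ∀ y : Fin 4 ↪ α, stabilizer G y = ⊥ := by
        intro y
        apply (Subgroup.card_eq_one).1
        rw [card_stab_eq G hG x y, h1]
      have := Cfsg.Agent.S0415.result G hn4 hsharp
      omega
    rw [← hform] at hidx hdvd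
    have hd : Nat.card (stabilizer G x) ∣ 6 :=
      Nat.dvd_of_mul_dvd_mul_right (by norm_num : 0 < 840) (by simpa using hdvd)
    have hle := Nat.le_of_dvd (by norm_num) hd
    obtain ⟨m, hm⟩ := hodd
    have h3 : Nat.card (stabilizer G x) = 3 := by
      rw [hm] at hd hle hne1 ⊢
      have hm2 : m ≤ 2 := by omega
      interval_cases m
      · exact absurd rfl hne1
      · rfl
      · omega
    rw [h3] at hidx
    omega
  · right; right
    have h1 : ∀ s : Finset α, s.card ≤ 4 → ∀ σ : Equiv.Perm α, ∃ g ∈ G, ∀ q ∈ s, g q = σ q :=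
      fun s hs σ => Cfsg.Agent.Lib.Helper75.Miller.exists_agree G hG hn4 s hs σ
    have h2 : ∀ g ∈ G, g * g = 1 → ∀ s : Finset α, s.card = 4 → (∀ q ∈ s, g q = q) → g = 1 := by
      intro g hg hgg s hs hfix
      by_contra hg1
      let y : Fin 4 ↪ α :=
        (s.equivFinOfCardEq hs).symm.toEmbedding.trans (Function.Embedding.subtype _)
      have hy : ∀ i, y i ∈ s := fun i => ((s.equivFinOfCardEq hs).symm i).2
      have hmem : (⟨g, hg⟩ : G) ∈ stabilizer G y := by
        rw [mem_stabilizer_iff]
        ext i
        exact hfix _ (hy i)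
      have hord : orderOf (⟨⟨g, hg⟩, hmem⟩ : stabilizer G y) = 2 := by
        apply orderOf_eq_prime
        · apply Subtype.ext
          apply Subtype.ext
          show g ^ 2 = 1
          rw [pow_two, hgg]
        · intro h
          apply hg1
          have := congrArg (fun z : stabilizer G y => ((z : G) : Equiv.Perm α)) h
          exact this
      have hdvd2 : 2 ∣ Nat.card (stabilizer G y) := hord ▸ orderOf_dvd_natCard _
      rw [card_stab_eq G hG x y] at hdvd2
      obtain ⟨m, hm⟩ := hodd
      omega
    obtain ⟨h11, htriv⟩ := hmain h1 h2 h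
    refine ⟨h11, ?_⟩
    have hbot : stabilizer G x = ⊥ := by
      rw [Subgroup.eq_bot_iff_forall]
      intro g hg
      rw [mem_stabilizer_iff] at hg
      apply Subtype.ext
      apply htriv g.1 g.2
      intro i
      have := congrArg (fun z : Fin 4 ↪ α => z i) hg
      exact this
    rw [hbot, h11] at hform
    have e1 : Nat.descFactorial 11 4 = 7920 := by decide
    rw [e1, Subgroup.card_bot] at hform
    omega

end Cfsg.Agent.Lib.Helper95.HallP1
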