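import Cfsg.Agent.Lib.Helper95.IcoP

set_option autoImplicit false
set_option maxRecDepth 100000
set_option maxHeartbeats 400000

/-! Icosian Leech lattice, part Q: `J2` is a nonabelian simple group. -/

namespace Cfsg.Agent.Lib.Helper95.Ico

open Quaternion Cfsg.Spor

/-- the reflection in line `j` as an element of `twoJ2` -/
noncomputable def R (j : Fin 315) : twoJ2 := ⟨lineRefl j, lineRefl_mem j⟩

theorem R_sq (j : Fin 315) : R j * R j = 1 := by
  apply Subtype.ext
  show lineRefl j * lineRefl j = 1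
  apply Equiv.ext
  intro x
  apply Subtype.ext
  show qrefl (lineVec j).1 (qrefl (lineVec j).1 x.1) = x.1
  exact qrefl_qrefl (lineVec_qip j) x.1

theorem conj_R (g : twoJ2) (j : Fin 315) : g * R j * g⁻¹ = R (lineHom g j) := by
  apply Subtype.ext
  show g.1 * lineRefl j * g.1⁻¹ = lineRefl (lineHom g j)
  rw [conj_lineRefl (good_of_mem g.2), lineHom_apply]

theorem negJ_eq : negJ = R 0 * R 1 * R 2 := Subtype.ext negPerm_eq

theorem lineHom_R (a : Fin 4) : lineHom (R (glF a)) = genPerm a := rfl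

theorem normal_top (N : Subgroup twoJ2) [hN : N.Normal] (hZ : Subgroup.center twoJ2 ≤ N)
    (hne : ¬ N ≤ Subgroup.center twoJ2) : N = ⊤ := by
  obtain ⟨n, hn, hnz⟩ := Set.not_subset.mp hne
  have hmove : ∃ j, lineHom n j ≠ j := by
    by_contra hc
    simp only [not_exists, not_not] at hc
    apply hnz
    show n ∈ Subgroup.center twoJ2
    rw [center_eq_ker, MonoidHom.mem_ker]
    exact Equiv.ext hc
  let r : Fin 315 → Fin 315 → Prop := fun i k => ∃ m ∈ N, lineHom m i = k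
  have hr : Equivalence r :=
    { refl := fun i => ⟨1, one_mem _, by rw [map_one]; rfl⟩
      symm := by
        rintro i k ⟨m, hm, rfl⟩
        exact ⟨m⁻¹, inv_mem hm, by rw [map_inv]; exact Equiv.symm_apply_apply _ _⟩
      trans := by
        rintro i j k ⟨m, hm, rfl⟩ ⟨m', hm', rfl⟩
        exact ⟨m' * m, mul_mem hm' hm, by rw [map_mul]; rfl⟩ }
  have hinv : ∀ (a : Fin 4) (i k : Fin 315), r i k → r (tabF a i) (tabF a k) := by
    rintro a i k ⟨m, hm, rfl⟩
    refine ⟨R (glF a) * m * (R (glF a))⁻¹, hN.conj_mem m hm _, ?_⟩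
    rw [← genPerm_apply, ← genPerm_apply, map_mul, map_mul, map_inv, lineHom_R]
    show genPerm a (lineHom m ((genPerm a)⁻¹ (genPerm a i))) = _
    rw [show (genPerm a)⁻¹ (genPerm a i) = i from Equiv.symm_apply_apply _ _]
  have hne' : ∃ i k, i ≠ k ∧ r i k := by
    obtain ⟨j, hj⟩ := hmove
    exact ⟨j, lineHom n j, fun e => hj e.symm, n, hn, rfl⟩
  have htrans := prim r hr hinv hne'
  have hRj : ∀ j, R j * (R 0)⁻¹ ∈ N := by
    intro j
    obtain ⟨m, hm, e⟩ := htrans 0 j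
    have h1 : R j = m * R 0 * m⁻¹ := by rw [conj_R, e]
    have h2 : m * R 0 * m⁻¹ * (R 0)⁻¹ = m * (R 0 * m⁻¹ * (R 0)⁻¹) := by group
    rw [h1, h2]
    exact mul_mem hm (hN.conj_mem _ (inv_mem hm) _)
  have hR0 : R 0 ∈ N := by
    have hneg : negJ ∈ N := hZ negJ_mem_center
    have hsq : (R 0)⁻¹ * (R 0)⁻¹ = 1 := by
      rw [← mul_inv_rev, R_sq, inv_one]
    have key : (R 0 * (R 1 * (R 0)⁻¹) * (R 0)⁻¹) * (R 2 * (R 0)⁻¹) = negJ * (R 0)⁻¹ := by
      calc (R 0 * (R 1 * (R 0)⁻¹) * (R 0)⁻¹) * (R 2 * (R 0)⁻¹)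
          = R 0 * R 1 * ((R 0)⁻¹ * (R 0)⁻¹) * R 2 * (R 0)⁻¹ := by group
        _ = R 0 * R 1 * R 2 * (R 0)⁻¹ := by rw [hsq, mul_one]
        _ = negJ * (R 0)⁻¹ := by rw [negJ_eq]
    have hmem : negJ * (R 0)⁻¹ ∈ N := by
      rw [← key]
      exact mul_mem (hN.conj_mem _ (hRj 1) _) (hRj 2)
    have h3 : (R 0)⁻¹ ∈ N := by
      have h4 := mul_mem (inv_mem hneg) hmem
      rwa [inv_mul_cancel_left] at h4
    exact inv_mem_iff.mp h3
  have hRall : ∀ j, R j ∈ N := fun j => by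
    have h4 := mul_mem (hRj j) hR0
    rwa [inv_mul_cancel_right] at h4
  rw [eq_top_iff]
  intro g _
  have key : ∀ (x : Equiv.Perm icoLeech) (_ : x ∈ Subgroup.closure {f | IsIcoReflection f}),
      ∀ hx : x ∈ twoJ2, (⟨x, hx⟩ : twoJ2) ∈ N := by
    intro x hx2
    induction hx2 using Subgroup.closure_induction with
    | mem y hy =>
      intro hx
      obtain ⟨j, rfl⟩ := (isRefl_iff_line y).mp hy
      exact hRall j
    | one =>
      intro hx
      exact one_mem _
    | mul a b ha hb iha ihb =>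
      intro hx
      have h1 : (⟨a * b, hx⟩ : twoJ2) = ⟨a, ha⟩ * ⟨b, hb⟩ := rfl
      rw [h1]; exact mul_mem (iha ha) (ihb hb)
    | inv a ha iha =>
      intro hx
      have h1 : (⟨a⁻¹, hx⟩ : twoJ2) = (⟨a, ha⟩)⁻¹ := rfl
      rw [h1]; exact inv_mem (iha ha)
  exact key g.1 g.2 g.2

theorem tab_ne : ap9 (gT 0) (ap9 (gT 1) 0) ≠ ap9 (gT 1) (ap9 (gT 0) 0) := by decide +kernel

theorem J2_nonabelian : ∃ a b : J2, a * b ≠ b * a := by
  refine ⟨QuotientGroup.mk (R (glF 0)), QuotientGroup.mk (R (glF 1)), ?_⟩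
  intro h
  rw [← QuotientGroup.mk_mul, ← QuotientGroup.mk_mul, QuotientGroup.eq] at h
  rw [center_eq_ker, MonoidHom.mem_ker, map_mul, map_inv, inv_mul_eq_one, map_mul, map_mul,
    lineHom_R, lineHom_R] at h
  have h2 := congrArg (fun f : Equiv.Perm (Fin 315) => ((f 0 : Fin 315) : ℕ)) h
  simp only [Equiv.Perm.mul_apply, genPerm_apply] at h2
  exact tab_ne h2

theorem J2_simple : IsSimpleGroup J2 := by
  have hnt : Nontrivial J2 := by
    obtain ⟨a, b, hab⟩ := J2_nonabelian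
    exact ⟨⟨a * b, b * a, hab⟩⟩
  refine { toNontrivial := hnt, eq_bot_or_eq_top_of_normal := ?_ }
  intro N' hN'
  have hmap : (N'.comap (QuotientGroup.mk' (Subgroup.center twoJ2))).map
      (QuotientGroup.mk' (Subgroup.center twoJ2)) = N' :=
    Subgroup.map_comap_eq_self_of_surjective (QuotientGroup.mk'_surjective _) N'
  have hNn : (N'.comap (QuotientGroup.mk' (Subgroup.center twoJ2))).Normal := hN'.comap _
  have hZ : Subgroup.center twoJ2 ≤ N'.comap (QuotientGroup.mk' (Subgroup.center twoJ2)) := by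
    intro z hz
    show (QuotientGroup.mk' (Subgroup.center twoJ2)) z ∈ N'
    have h1 : (QuotientGroup.mk' (Subgroup.center twoJ2)) z = 1 :=
      (QuotientGroup.eq_one_iff z).mpr hz
    rw [h1]; exact one_mem _
  by_cases h : N'.comap (QuotientGroup.mk' (Subgroup.center twoJ2)) ≤ Subgroup.center twoJ2
  · left
    rw [← hmap, eq_bot_iff]
    rintro _ ⟨n, hn, rfl⟩
    rw [Subgroup.mem_bot]
    exact (QuotientGroup.eq_one_iff n).mpr (h hn)
  · right
    rw [← hmap, normal_top _ hZ h, ← MonoidHom.range_eq_map, MonoidHom.range_eq_top]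
    exact QuotientGroup.mk'_surjective _

end Cfsg.Agent.Lib.Helper95.Ico
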