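import Mathlib
import Cfsg.Agent.Lib.Helper58.JEDefs
import Cfsg.Agent.Lib.Helper94.JcTH

/-! S2948 project JE (helper58), piece JE-DATAG (helper95): transport of the structure `Data`
from the subgroup `↥L` (where `L = ⊤`) to the ambient group `G` along `L.subtype`. -/

set_option autoImplicit false

namespace Cfsg.Agent.Lib.Helper95.JE

open Cfsg.Agent.Lib.Helper58.JE Cfsg.Agent.Lib.Helper72.JL Cfsg.Agent.Lib.Helper72.SC
  Cfsg.Agent.Lib.Helper78.Jc

universe u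

/-- normalizer membership is transported along the inclusion of a subgroup -/
theorem dg_norm_map {G : Type*} [Group G] (L : Subgroup G) (N : Subgroup ↥L) (x : ↥L)
    (hx : x ∈ Subgroup.normalizer (N : Set ↥L)) :
    (x : G) ∈ Subgroup.normalizer ((N.map L.subtype : Subgroup G) : Set G) :=
  Subgroup.le_normalizer_map L.subtype ⟨x, hx, rfl⟩

/-- a largest elementary abelian subgroup of `T ≤ L`, seen inside `↥L` -/
theorem dg_maxEA_down {G : Type*} [Group G] (T L A : Subgroup G) (hTL : T ≤ L)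
    (hA : IsMaxEA T A) : IsMaxEA (T.subgroupOf L) (A.subgroupOf L) := by
  obtain ⟨hAT, hc, h2, hmax⟩ := hA
  refine ⟨fun x hx => Subgroup.mem_subgroupOf.mpr (hAT (Subgroup.mem_subgroupOf.mp hx)), ?_, ?_, ?_⟩
  · intro a ha b hb
    exact Subtype.ext (hc a.1 (Subgroup.mem_subgroupOf.mp ha) b.1 (Subgroup.mem_subgroupOf.mp hb))
  · intro a ha
    exact Subtype.ext (h2 a.1 (Subgroup.mem_subgroupOf.mp ha))
  · intro B hBT hBc hB2
    have h1 : B.map L.subtype ≤ T := by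
      rintro _ ⟨x, hx, rfl⟩
      exact Subgroup.mem_subgroupOf.mp (hBT hx)
    have h3 : ∀ a ∈ B.map L.subtype, ∀ b ∈ B.map L.subtype, a * b = b * a := by
      rintro _ ⟨x, hx, rfl⟩ _ ⟨y, hy, rfl⟩
      exact congrArg Subtype.val (hBc x hx y hy)
    have h4 : ∀ a ∈ B.map L.subtype, a * a = 1 := by
      rintro _ ⟨x, hx, rfl⟩
      exact congrArg Subtype.val (hB2 x hx)
    have h5 := hmax _ h1 h3 h4
    rw [Subgroup.card_map_of_injective (Subgroup.subtype_injective L)] at h5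
    rw [Nat.card_congr (Subgroup.subgroupOfEquivOfLe (hAT.trans hTL)).toEquiv]
    exact h5

/-- a largest elementary abelian subgroup of `T.subgroupOf L`, seen inside `G` -/
theorem dg_maxEA_up {G : Type*} [Group G] (T L : Subgroup G) (A : Subgroup ↥L) (hTL : T ≤ L)
    (hA : IsMaxEA (T.subgroupOf L) A) : IsMaxEA T (A.map L.subtype) := by
  obtain ⟨hAT, hc, h2, hmax⟩ := hA
  refine ⟨?_, ?_, ?_, ?_⟩
  · rintro _ ⟨x, hx, rfl⟩
    exact Subgroup.mem_subgroupOf.mp (hAT hx)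
  · rintro _ ⟨x, hx, rfl⟩ _ ⟨y, hy, rfl⟩
    exact congrArg Subtype.val (hc x hx y hy)
  · rintro _ ⟨x, hx, rfl⟩
    exact congrArg Subtype.val (h2 x hx)
  · intro B hBT hBc hB2
    have h1 : B.subgroupOf L ≤ T.subgroupOf L :=
      fun x hx => Subgroup.mem_subgroupOf.mpr (hBT (Subgroup.mem_subgroupOf.mp hx))
    have h3 : ∀ a ∈ B.subgroupOf L, ∀ b ∈ B.subgroupOf L, a * b = b * a := by
      intro a ha b hb
      exact Subtype.ext (hBc a.1 (Subgroup.mem_subgroupOf.mp ha) b.1 (Subgroup.mem_subgroupOf.mp hb))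
    have h4 : ∀ a ∈ B.subgroupOf L, a * a = 1 := by
      intro a ha
      exact Subtype.ext (hB2 a.1 (Subgroup.mem_subgroupOf.mp ha))
    have h5 := hmax _ h1 h3 h4
    rw [Nat.card_congr (Subgroup.subgroupOfEquivOfLe (hBT.trans hTL)).toEquiv] at h5
    rw [Subgroup.card_map_of_injective (Subgroup.subtype_injective L)]
    exact h5

/-- JE-DATAG: the data for an overgroup `L ∈ ℒ(T)` of a ZN-group, from the data inside `↥L` -/
theorem datag (hTra : TraStmt.{u}) (hTrb : TrbStmt.{u}) (hTrc : TrcStmt.{u})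
    (hTrj : TrjStmt.{u}) (h : DataLStmt.{u}) : DataStmt.{u} := by
  intro G _ _ hzn T L hT hT1 hLT
  have hTL : T ≤ L := hLT.1.1
  obtain ⟨h2, hodd, hchar⟩ := hTra G T L hLT
  have hS : Setting ↥L (T.subgroupOf L) :=
    ⟨h2, hodd, hTrb G hzn T L hLT, hchar, hTrc G hzn T L hLT⟩
  obtain ⟨𝒮, h𝒮, hsup⟩ := hTrj G T L hTL
  have hex : ∃ A₀ : Subgroup ↥L, IsMaxEA (T.subgroupOf L) A₀ ∧ ¬ A₀ ≤ Cfsg.pCore 2 ↥L := by
    by_contra hcon
    push_neg at hcon
    apply hLT.2.1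
    have h1 : sSup 𝒮 ≤ Cfsg.pCore 2 ↥L := sSup_le (fun A hA => hcon A (h𝒮 A hA))
    rw [hsup] at h1
    intro x hx
    have hxL : x ∈ L := hTL (Cfsg.Agent.Lib.Helper94.Jc.th_le_self T hx)
    exact ⟨⟨x, hxL⟩, h1 (Subgroup.mem_subgroupOf.mpr hx), rfl⟩
  obtain ⟨Q, C, V, D, A, b, hd⟩ := h ↥L (T.subgroupOf L) hS hex
  have hnorm : ∀ (N : Subgroup ↥L), (⊤ : Subgroup ↥L) ≤ Subgroup.normalizer (N : Set ↥L) →
      L ≤ Subgroup.normalizer ((N.map L.subtype : Subgroup G) : Set G) := by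
    intro N hN x hx
    exact dg_norm_map L N ⟨x, hx⟩ (hN (Subgroup.mem_top _))
  refine ⟨Q.map L.subtype, C.map L.subtype, V.map L.subtype, D.map L.subtype, A.map L.subtype,
    (b : G), ?_⟩
  refine
    { hT2 := hT
      hTL := hTL
      hQ2 := hd.hQ2.map L.subtype
      hQT := ?_
      hQn := hnorm Q hd.hQn
      hCL := Subgroup.map_subtype_le C
      hCn := hnorm C hd.hCn
      hQC := Subgroup.map_mono hd.hQC
      hCT := ?_
      hc1 := ?_
      hc2 := ?_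
      hVQ := Subgroup.map_mono hd.hVQ
      hVn := hnorm V hd.hVn
      hVc := ?_
      hV2 := ?_
      hCV := ?_
      hCD := Subgroup.map_mono hd.hCD
      hDL := Subgroup.map_subtype_le D
      hDC := ?_
      hDJ := ?_
      hA := dg_maxEA_up T L A hTL hd.hA
      hbA := ⟨b, hd.hbA, rfl⟩
      hbD := ?_
      hbV := ?_ }
  · -- hQT
    rintro _ ⟨x, hx, rfl⟩
    exact Subgroup.mem_subgroupOf.mp (hd.hQT hx)
  · -- hCT
    rintro _ ⟨c, hc, rfl⟩
    have h1 := dg_norm_map L (T.subgroupOf L) c (hd.hCT hc)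
    rw [Subgroup.map_subgroupOf_eq_of_le hTL] at h1
    exact h1
  · -- hc1
    rintro _ ⟨c, hc, rfl⟩ t ht
    exact ⟨_, hd.hc1 c hc ⟨t, hTL ht⟩ (Subgroup.mem_subgroupOf.mpr ht), rfl⟩
  · -- hc2
    rintro _ ⟨c, hc, rfl⟩ ⟨n, hn⟩
    exact ⟨c, hd.hc2 c hc ⟨n, Subtype.ext hn⟩, rfl⟩
  · -- hVc
    rintro _ ⟨u, hu, rfl⟩ _ ⟨v, hv, rfl⟩
    exact congrArg Subtype.val (hd.hVc u hu v hv)
  · -- hV2
    rintro _ ⟨v, hv, rfl⟩
    exact congrArg Subtype.val (hd.hV2 v hv)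
  · -- hCV
    intro x hx
    constructor
    · rintro ⟨c, hc, rfl⟩ _ ⟨v, hv, rfl⟩
      exact congrArg Subtype.val ((hd.hCV c (Subgroup.mem_top _)).mp hc v hv)
    · intro hall
      exact ⟨⟨x, hx⟩, (hd.hCV ⟨x, hx⟩ (Subgroup.mem_top _)).mpr
        (fun v hv => Subtype.ext (hall v ⟨v, hv, rfl⟩)), rfl⟩
  · -- hDC
    rw [Subgroup.relIndex_map_map_of_injective C D (Subgroup.subtype_injective L)]
    exact hd.hDC
  · -- hDJ
    apply Cfsg.Agent.Lib.Helper94.Jc.th_le_of_forall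
    intro A' hA' a ha
    have haL : a ∈ L := hTL (hA'.1 ha)
    have h1 : A'.subgroupOf L ≤ Cfsg.thompsonSubgroupOf 2 (T.subgroupOf L) :=
      Cfsg.Agent.Lib.Helper94.Jc.th_le _ _ (dg_maxEA_down T L A' hTL hA')
    have h3 : (⟨a, haL⟩ : ↥L) ∈ Subgroup.normalizer (D : Set ↥L) :=
      hd.hDJ (h1 (Subgroup.mem_subgroupOf.mpr ha))
    exact dg_norm_map L D ⟨a, haL⟩ h3
  · -- hbD
    rintro _ ⟨d, hd', rfl⟩
    exact ⟨_, hd.hbD d hd', rfl⟩
  · -- hbV
    obtain ⟨v₀, hv₀, hall⟩ := hd.hbV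
    refine ⟨v₀, ⟨v₀, hv₀, rfl⟩, ?_⟩
    rintro _ ⟨v, hv, rfl⟩
    rcases hall v hv with h1 | h1
    · left
      exact congrArg Subtype.val h1
    · right
      exact congrArg Subtype.val h1

end Cfsg.Agent.Lib.Helper95.JE
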