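import Mathlib
import Cfsg.Agent.Lib.Helper94.M24Tools
import Cfsg.Agent.Lib.Helper95.TabGroup

/-!
# Upper bounds for normalizers of cyclic subgroups of prime order in `M24`

Let `x` be an element of `M24` with table `X` such that `23 → 0 → 1 → 2 → 3` under `x`.  An
element `g` of `M24` with `g x g⁻¹ = x ^ k` is, after multiplication by a power of `x`, determined
on the five base points `23, 0, 1, 2, 3` by `k` and the orbit representative `g 23`; an element of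
`M24` with prescribed images of the five base points lies in a coset of the pointwise stabiliser
(48 elements), which is searched.  The certificate `ndOK` is checked by the kernel.
-/

set_option autoImplicit false

namespace Cfsg.Agent.Lib.Helper95

open Cfsg Cfsg.Agent.Lib.Helper9

/-- The 48 tables of the elements of `M24` fixing `23, 0, 1, 2, 3`. -/
def stab5L : List (List ℕ) :=
  [[0, 1, 2, 3, 4, 5, 6, 7, 8, 9, 10, 11, 12, 13, 14, 15, 16, 17, 18, 19, 20, 21, 22, 23],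
   [0, 1, 2, 3, 4, 14, 15, 10, 21, 8, 12, 19, 7, 22, 17, 18, 13, 5, 6, 20, 11, 9, 16, 23],
   [0, 1, 2, 3, 4, 17, 18, 12, 9, 21, 7, 20, 10, 16, 5, 6, 22, 14, 15, 11, 19, 8, 13, 23],
   [0, 1, 2, 3, 6, 5, 4, 22, 20, 12, 11, 10, 9, 19, 14, 18, 21, 17, 15, 13, 8, 16, 7, 23],
   [0, 1, 2, 3, 6, 14, 18, 11, 16, 20, 9, 13, 22, 7, 17, 15, 19, 5, 4, 8, 10, 12, 21, 23],
   [0, 1, 2, 3, 6, 17, 15, 9, 12, 16, 22, 8, 11, 21, 5, 4, 7, 14, 18, 10, 13, 20, 19, 23],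
   [0, 1, 2, 3, 7, 5, 22, 4, 15, 11, 12, 9, 10, 21, 14, 8, 19, 17, 20, 16, 18, 13, 6, 23],
   [0, 1, 2, 3, 7, 14, 8, 12, 13, 15, 10, 16, 4, 6, 17, 20, 21, 5, 22, 18, 9, 11, 19, 23],
   [0, 1, 2, 3, 7, 17, 20, 10, 11, 13, 4, 18, 12, 19, 5, 22, 6, 14, 8, 9, 16, 15, 21, 23],
   [0, 1, 2, 3, 8, 5, 20, 15, 4, 21, 19, 13, 16, 11, 14, 7, 12, 17, 22, 10, 6, 9, 18, 23],
   [0, 1, 2, 3, 8, 14, 7, 19, 9, 4, 16, 10, 15, 18, 17, 22, 11, 5, 20, 6, 13, 21, 12, 23],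
   [0, 1, 2, 3, 8, 17, 22, 16, 21, 9, 15, 6, 19, 12, 5, 20, 18, 14, 7, 13, 10, 4, 11, 23],
   [0, 1, 2, 3, 9, 5, 12, 11, 21, 4, 22, 7, 6, 15, 14, 13, 20, 17, 19, 18, 16, 8, 10, 23],
   [0, 1, 2, 3, 9, 14, 13, 22, 8, 21, 6, 18, 11, 10, 17, 19, 15, 5, 12, 16, 7, 4, 20, 23],
   [0, 1, 2, 3, 9, 17, 19, 6, 4, 8, 11, 16, 22, 20, 5, 12, 10, 14, 13, 7, 18, 21, 15, 23],
   [0, 1, 2, 3, 10, 5, 11, 12, 19, 22, 4, 6, 7, 20, 14, 16, 15, 17, 21, 8, 13, 18, 9, 23],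
   [0, 1, 2, 3, 10, 14, 16, 4, 18, 19, 7, 8, 12, 9, 17, 21, 20, 5, 11, 13, 6, 22, 15, 23],
   [0, 1, 2, 3, 10, 17, 21, 7, 22, 18, 12, 13, 4, 15, 5, 11, 9, 14, 16, 6, 8, 19, 20, 23],
   [0, 1, 2, 3, 11, 5, 10, 9, 13, 7, 6, 4, 22, 8, 14, 21, 18, 17, 16, 20, 19, 15, 12, 23],
   [0, 1, 2, 3, 11, 14, 21, 6, 15, 13, 22, 20, 9, 12, 17, 16, 8, 5, 10, 19, 4, 7, 18, 23],
   [0, 1, 2, 3, 11, 17, 16, 22, 7, 15, 9, 19, 6, 18, 5, 10, 12, 14, 21, 4, 20, 13, 8, 23],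
   [0, 1, 2, 3, 12, 5, 9, 10, 16, 6, 7, 22, 4, 18, 14, 19, 8, 17, 13, 15, 21, 20, 11, 23],
   [0, 1, 2, 3, 12, 14, 19, 7, 20, 16, 4, 15, 10, 11, 17, 13, 18, 5, 9, 21, 22, 6, 8, 23],
   [0, 1, 2, 3, 12, 17, 13, 4, 6, 20, 10, 21, 7, 8, 5, 9, 11, 14, 19, 22, 15, 16, 18, 23],
   [0, 1, 2, 3, 13, 5, 19, 21, 11, 15, 20, 8, 18, 4, 14, 9, 22, 17, 12, 6, 10, 7, 16, 23],
   [0, 1, 2, 3, 13, 14, 9, 20, 7, 11, 18, 6, 21, 16, 17, 12, 4, 5, 19, 10, 8, 15, 22, 23],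
   [0, 1, 2, 3, 13, 17, 12, 18, 15, 7, 21, 10, 20, 22, 5, 19, 16, 14, 9, 8, 6, 11, 4, 23],
   [0, 1, 2, 3, 15, 5, 18, 8, 7, 13, 16, 21, 19, 9, 14, 4, 10, 17, 6, 12, 22, 11, 20, 23],
   [0, 1, 2, 3, 15, 14, 4, 16, 11, 7, 19, 12, 8, 20, 17, 6, 9, 5, 18, 22, 21, 13, 10, 23],
   [0, 1, 2, 3, 15, 17, 6, 19, 13, 11, 8, 22, 16, 10, 5, 18, 20, 14, 4, 21, 12, 7, 9, 23],
   [0, 1, 2, 3, 16, 5, 21, 19, 12, 20, 15, 18, 8, 22, 14, 10, 4, 17, 11, 7, 9, 6, 13, 23],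
   [0, 1, 2, 3, 16, 14, 10, 15, 6, 12, 8, 7, 19, 13, 17, 11, 22, 5, 21, 9, 18, 20, 4, 23],
   [0, 1, 2, 3, 16, 17, 11, 8, 20, 6, 19, 9, 15, 4, 5, 21, 13, 14, 10, 18, 7, 12, 22, 23],
   [0, 1, 2, 3, 18, 5, 15, 20, 22, 19, 21, 16, 13, 12, 14, 6, 11, 17, 4, 9, 7, 10, 8, 23],
   [0, 1, 2, 3, 18, 14, 6, 21, 10, 22, 13, 9, 20, 8, 17, 4, 12, 5, 15, 7, 16, 19, 11, 23],
   [0, 1, 2, 3, 18, 17, 4, 13, 19, 10, 20, 7, 21, 11, 5, 15, 8, 14, 6, 16, 9, 22, 12, 23],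
   [0, 1, 2, 3, 19, 5, 13, 16, 10, 18, 8, 20, 15, 6, 14, 12, 7, 17, 9, 4, 11, 22, 21, 23],
   [0, 1, 2, 3, 19, 14, 12, 8, 22, 10, 15, 4, 16, 21, 17, 9, 6, 5, 13, 11, 20, 18, 7, 23],
   [0, 1, 2, 3, 19, 17, 9, 15, 18, 22, 16, 11, 8, 7, 5, 13, 21, 14, 12, 20, 4, 10, 6, 23],
   [0, 1, 2, 3, 20, 5, 8, 18, 6, 16, 13, 19, 21, 10, 14, 22, 9, 17, 7, 11, 4, 12, 15, 23],
   [0, 1, 2, 3, 20, 14, 22, 13, 12, 6, 21, 11, 18, 15, 17, 7, 10, 5, 8, 4, 19, 16, 9, 23],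
   [0, 1, 2, 3, 20, 17, 7, 21, 16, 12, 18, 4, 13, 9, 5, 8, 15, 14, 22, 19, 11, 6, 10, 23],
   [0, 1, 2, 3, 21, 5, 16, 13, 9, 8, 18, 15, 20, 7, 14, 11, 6, 17, 10, 22, 12, 4, 19, 23],
   [0, 1, 2, 3, 21, 14, 11, 18, 4, 9, 20, 22, 13, 19, 17, 10, 7, 5, 16, 12, 15, 8, 6, 23],
   [0, 1, 2, 3, 21, 17, 10, 20, 8, 4, 13, 12, 18, 6, 5, 16, 19, 14, 11, 15, 22, 9, 7, 23],
   [0, 1, 2, 3, 22, 5, 7, 6, 18, 10, 9, 12, 11, 16, 14, 20, 13, 17, 8, 21, 15, 19, 4, 23],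
   [0, 1, 2, 3, 22, 14, 20, 9, 19, 18, 11, 21, 6, 4, 17, 8, 16, 5, 7, 15, 12, 10, 13, 23],
   [0, 1, 2, 3, 22, 17, 8, 11, 10, 19, 6, 15, 9, 13, 5, 7, 4, 14, 20, 12, 21, 18, 16, 23]]

theorem stab5T_sub :
    Cfsg.Agent.Lib.Helper94.stab5T.all (fun s => stab5L.contains s) = true := by
  decide +kernel

/-- Iterating a table. -/
def iterT (X : List ℕ) : ℕ → ℕ → ℕ
  | 0, i => i
  | n + 1, i => X.getD (iterT X n i) 0

theorem iter_apply {x : Equiv.Perm GolayPt} {X : List ℕ} (hX : HasTable x X) (n : ℕ) {i : ℕ}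
    (hi : i < 24) : (x ^ n) (pt i) = pt (iterT X n i) ∧ iterT X n i < 24 := by
  induction n with
  | zero => exact ⟨rfl, hi⟩
  | succ n ih =>
    refine ⟨?_, hX.getD_lt _⟩
    rw [pow_succ', Equiv.Perm.mul_apply, ih.1, hX.apply_pt ih.2]
    rfl

/-- The relation `T ∘ X = X ^ k ∘ T` on tables. -/
def relk (X : List ℕ) (k : ℕ) (T : List ℕ) : Bool :=
  (List.range 24).all (fun i => T.getD (X.getD i 0) 0 == iterT X k (T.getD i 0))

/-- One entry `(k, r, U)` of the certificate: `U` is the table of an element of `M24` with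
`U 23 = r` and `U (x ^ j 23) = x ^ (k j) r` for `j ≤ 4`, and every element of its coset that
satisfies the relation is listed in `S`. -/
def entryOK (X : List ℕ) (S : List (List ℕ)) (d : ℕ × ℕ × List ℕ) : Bool :=
  permOK d.2.2 && tableOK d.2.2 && d.2.2.getD 23 0 == d.2.1 &&
  d.2.2.getD 0 0 == iterT X d.1 d.2.1 &&
  d.2.2.getD 1 0 == iterT X (2 * d.1) d.2.1 &&
  d.2.2.getD 2 0 == iterT X (3 * d.1) d.2.1 &&
  d.2.2.getD 3 0 == iterT X (4 * d.1) d.2.1 &&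
  stab5L.all (fun s => !(relk X d.1 (compT d.2.2 s)) || S.contains (compT d.2.2 s))

/-- The certificate. -/
def ndOK (p : ℕ) (X : List ℕ) (reps : List ℕ) (dat : List (ℕ × ℕ × List ℕ))
    (S : List (List ℕ)) : Bool :=
  permOK X && tableOK X && X.getD 23 0 == 0 && X.getD 0 0 == 1 && X.getD 1 0 == 2 &&
  X.getD 2 0 == 3 &&
  (List.range 24).all (fun v => X.getD v 0 == v ||
    (List.range p).any (fun i => reps.contains (iterT X i v))) &&
  (List.range p).all (fun k => k == 0 ||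
    reps.all (fun r => dat.any (fun d => d.1 == k && d.2.1 == r))) &&
  dat.all (entryOK X S)

theorem norm_table {p : ℕ} {X reps : List ℕ} {dat : List (ℕ × ℕ × List ℕ)} {S : List (List ℕ)}
    (h : ndOK p X reps dat S = true) {g : Equiv.Perm GolayPt} (hg : g ∈ M24) {k : ℕ}
    (hk0 : k ≠ 0) (hkp : k < p) (hrel : g * tperm X = tperm X ^ k * g) :
    ∃ i < p, ∃ T ∈ S, g = (tperm X ^ i)⁻¹ * tperm T := by
  simp only [ndOK, Bool.and_eq_true, beq_iff_eq] at h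
  obtain ⟨⟨⟨⟨⟨⟨⟨⟨hpX, hokX⟩, hb23⟩, hb0⟩, hb1⟩, hb2⟩, hcov⟩, hdat⟩, hent⟩ := h
  obtain ⟨x, hx⟩ : ∃ x, x = tperm X := ⟨_, rfl⟩
  rw [← hx] at hrel ⊢
  have hXt : HasTable x X := by rw [hx]; exact hasTable_tperm hpX
  have hxM : x ∈ M24 := by rw [hx]; exact tperm_mem_M24 hpX hokX
  obtain ⟨v, hv⟩ : ∃ v, v = idx (g (pt 23)) := ⟨_, rfl⟩
  have hv23 : g (pt 23) = pt v := by rw [hv, pt_idx]
  have hvlt : v < 24 := by rw [hv]; exact idx_lt _
  have hmoved : X.getD v 0 ≠ v := by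
    intro hfix
    have h1 : x (pt v) = pt v := by rw [hXt.apply_pt hvlt, hfix]
    have h2 : (x ^ k) (pt v) = pt v := Equiv.Perm.pow_apply_eq_self_of_apply_eq_self h1 k
    have h3 : g (x (pt 23)) = g (pt 23) := by
      have h4 := congrArg (fun f : Equiv.Perm GolayPt => f (pt 23)) hrel
      simp only [Equiv.Perm.mul_apply] at h4
      rw [h4, hv23, h2]
    have h5 := g.injective h3
    rw [hXt.apply_pt (by norm_num), hb23] at h5
    have h6 := congrArg idx h5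
    rw [idx_pt (by norm_num), idx_pt (by norm_num)] at h6
    omega
  have hc := List.all_eq_true.mp hcov v (List.mem_range.mpr hvlt)
  rw [Bool.or_eq_true, beq_iff_eq] at hc
  rcases hc with hc | hc
  · exact absurd hc hmoved
  rw [List.any_eq_true] at hc
  obtain ⟨i, hi, hri⟩ := hc
  rw [List.mem_range] at hi
  rw [List.contains_iff_mem] at hri
  obtain ⟨r, hr⟩ : ∃ r, r = iterT X i v := ⟨_, rfl⟩
  rw [← hr] at hri
  have hrlt : r < 24 := by rw [hr]; exact (iter_apply hXt i hvlt).2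
  obtain ⟨g', hg'⟩ : ∃ g', g' = x ^ i * g := ⟨_, rfl⟩
  have hg'M : g' ∈ M24 := by rw [hg']; exact M24.mul_mem (M24.pow_mem hxM i) hg
  have hrel' : g' * x = x ^ k * g' := by
    rw [hg', mul_assoc, hrel, ← mul_assoc, ← mul_assoc, ← pow_add, ← pow_add, add_comm]
  have hg'23 : g' (pt 23) = pt r := by
    rw [hg', Equiv.Perm.mul_apply, hv23, (iter_apply hXt i hvlt).1, hr]
  have hd := List.all_eq_true.mp hdat k (List.mem_range.mpr hkp)
  rw [Bool.or_eq_true, beq_iff_eq] at hd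
  rcases hd with hd | hd
  · exact absurd hd hk0
  have hd2 := List.all_eq_true.mp hd r hri
  rw [List.any_eq_true] at hd2
  obtain ⟨⟨k', r', U⟩, hdm, hkr⟩ := hd2
  simp only [Bool.and_eq_true, beq_iff_eq] at hkr
  obtain ⟨hk', hr'⟩ := hkr
  subst hk' hr'
  have he := List.all_eq_true.mp hent _ hdm
  simp only [entryOK, Bool.and_eq_true, beq_iff_eq] at he
  obtain ⟨⟨⟨⟨⟨⟨⟨hpU, hokU⟩, hU23⟩, hU0⟩, hU1⟩, hU2⟩, hU3⟩, hcos⟩ := he
  have hsc : ∀ j : ℕ, g' * x ^ j = (x ^ k') ^ j * g' := fun j =>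
    (SemiconjBy.pow_right (show SemiconjBy g' x (x ^ k') from hrel') j).eq
  have himg : ∀ j : ℕ, g' (pt (iterT X j 23)) = pt (iterT X (j * k') r') := by
    intro j
    have h1 := congrArg (fun f : Equiv.Perm GolayPt => f (pt 23)) (hsc j)
    simp only [Equiv.Perm.mul_apply] at h1
    rw [(iter_apply hXt j (by norm_num)).1, hg'23, ← pow_mul,
      (iter_apply hXt (k' * j) hrlt).1] at h1
    rw [h1, mul_comm]
  have e1 : iterT X 1 23 = 0 := hb23
  have e2 : iterT X 2 23 = 1 := by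
    show X.getD (iterT X 1 23) 0 = 1
    rw [e1, hb0]
  have e3 : iterT X 3 23 = 2 := by
    show X.getD (iterT X 2 23) 0 = 2
    rw [e2, hb1]
  have e4 : iterT X 4 23 = 3 := by
    show X.getD (iterT X 3 23) 0 = 3
    rw [e3, hb2]
  have i1 := himg 1
  rw [e1, one_mul] at i1
  have i2 := himg 2
  rw [e2] at i2
  have i3 := himg 3
  rw [e3] at i3
  have i4 := himg 4
  rw [e4] at i4
  obtain ⟨u, hu⟩ : ∃ u, u = tperm U := ⟨_, rfl⟩
  have hUt : HasTable u U := by rw [hu]; exact hasTable_tperm hpU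
  have huM : u ∈ M24 := by rw [hu]; exact tperm_mem_M24 hpU hokU
  have hfix : u⁻¹ * g' ∈ M24 ⊓ fixing [3, 2, 1, 0, 23] := by
    refine ⟨M24.mul_mem (M24.inv_mem huM) hg'M, ?_⟩
    intro b hb
    simp only [List.mem_cons, List.not_mem_nil, or_false] at hb
    rw [Equiv.Perm.mul_apply, Equiv.Perm.inv_eq_iff_eq]
    rcases hb with rfl | rfl | rfl | rfl | rfl
    · rw [i4, hUt.apply_pt (by norm_num), hU3]
    · rw [i3, hUt.apply_pt (by norm_num), hU2]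
    · rw [i2, hUt.apply_pt (by norm_num), hU1]
    · rw [i1, hUt.apply_pt (by norm_num), hU0]
    · rw [hg'23, hUt.apply_pt (by norm_num), hU23]
  obtain ⟨s, hs, hst⟩ := Cfsg.Agent.Lib.Helper94.enum5.complete _ hfix
  have hsL : s ∈ stab5L := by
    have h1 := List.all_eq_true.mp stab5T_sub s hs
    exact List.contains_iff_mem.mp h1
  have hT : HasTable g' (compT U s) := by
    have h1 := hasTable_mul hUt hst
    rwa [mul_inv_cancel_left] at h1
  have hrelT : relk X k' (compT U s) = true := by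
    rw [relk, List.all_eq_true]
    intro j hj
    rw [List.mem_range] at hj
    rw [beq_iff_eq]
    have h1 := congrArg (fun f : Equiv.Perm GolayPt => f (pt j)) hrel'
    simp only [Equiv.Perm.mul_apply] at h1
    rw [hXt.apply_pt hj, hT.apply_pt (hXt.getD_lt _), hT.apply_pt hj,
      (iter_apply hXt k' (hT.getD_lt _)).1] at h1
    have h2 := congrArg idx h1
    rwa [idx_pt (hT.getD_lt _), idx_pt (iter_apply hXt k' (hT.getD_lt _)).2] at h2
  have hmem := List.all_eq_true.mp hcos s hsL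
  rw [hrelT] at hmem
  simp only [Bool.not_true, Bool.false_or] at hmem
  have hTS : compT U s ∈ S := List.contains_iff_mem.mp hmem
  refine ⟨i, hi, compT U s, hTS, ?_⟩
  have h1 : g' = tperm (compT U s) := eq_tperm hT (HasTable.permOK hT)
  rw [← h1, hg', inv_mul_cancel_left]

theorem card_norm_le {p : ℕ} {X reps : List ℕ} {dat : List (ℕ × ℕ × List ℕ)}
    {S : List (List ℕ)} (h : ndOK p X reps dat S = true) (N : Subgroup ↥M24)
    (hN : ∀ g ∈ N, ∃ k, k ≠ 0 ∧ k < p ∧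
      ((g : ↥M24) : Equiv.Perm GolayPt) * tperm X = tperm X ^ k * g) :
    Nat.card N ≤ p * S.length := by
  classical
  let F : Finset (Equiv.Perm GolayPt) :=
    ((Finset.range p) ×ˢ S.toFinset).image (fun q => (tperm X ^ q.1)⁻¹ * tperm q.2)
  have hF : ∀ g : ↥N, ((g : ↥M24) : Equiv.Perm GolayPt) ∈ F := by
    intro g
    obtain ⟨k, hk0, hkp, hrel⟩ := hN g.1 g.2
    obtain ⟨i, hi, T, hT, hgT⟩ := norm_table h (g : ↥M24).2 hk0 hkp hrel
    rw [Finset.mem_image]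
    exact ⟨(i, T), Finset.mem_product.mpr ⟨Finset.mem_range.mpr hi, List.mem_toFinset.mpr hT⟩,
      hgT.symm⟩
  have hinj : Function.Injective
      (fun g : ↥N => (⟨((g : ↥M24) : Equiv.Perm GolayPt), hF g⟩ : ↥F)) := by
    intro a b hab
    apply Subtype.ext
    apply Subtype.ext
    exact congrArg (fun s : ↥F => (s : Equiv.Perm GolayPt)) hab
  calc Nat.card N ≤ Nat.card ↥F := Nat.card_le_card_of_injective _ hinj
    _ = F.card := Nat.card_eq_finsetCard F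
    _ ≤ ((Finset.range p) ×ˢ S.toFinset).card := Finset.card_image_le
    _ = p * S.toFinset.card := by rw [Finset.card_product, Finset.card_range]
    _ ≤ p * S.length := Nat.mul_le_mul_left _ (List.toFinset_card_le S)

/-- The normalizer bound in `M24`. -/
theorem normalizer_bound {p : ℕ} (hp : p.Prime) {X reps : List ℕ}
    {dat : List (ℕ × ℕ × List ℕ)} {S : List (List ℕ)} (h : ndOK p X reps dat S = true)
    (hord : (List.range 24).all (fun i => iterT X p i == i) = true)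
    (x : ↥M24) (hx : (x : Equiv.Perm GolayPt) = tperm X) :
    orderOf x = p ∧
      Nat.card ↥(Subgroup.normalizer ((Subgroup.zpowers x : Subgroup ↥M24) : Set ↥M24)) ≤
        p * S.length := by
  have h' := h
  simp only [ndOK, Bool.and_eq_true, beq_iff_eq] at h'
  obtain ⟨⟨⟨⟨⟨⟨⟨⟨hpX, hokX⟩, hb23⟩, -⟩, -⟩, -⟩, -⟩, -⟩, -⟩ := h'
  have hXt : HasTable (x : Equiv.Perm GolayPt) X := by rw [hx]; exact hasTable_tperm hpX
  have hpow : (x : Equiv.Perm GolayPt) ^ p = 1 := by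
    ext q
    have hq := idx_lt q
    have h1 := (iter_apply hXt p hq).1
    rw [pt_idx] at h1
    have h2 := List.all_eq_true.mp hord (idx q) (List.mem_range.mpr hq)
    rw [beq_iff_eq] at h2
    rw [h1, h2, pt_idx]
    rfl
  have hne : (x : Equiv.Perm GolayPt) ≠ 1 := by
    intro h1
    have h2 := hXt.apply_pt (i := 23) (by norm_num)
    rw [h1, hb23] at h2
    have h3 := congrArg idx h2
    rw [Equiv.Perm.one_apply, idx_pt (by norm_num), idx_pt (by norm_num)] at h3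
    omega
  have : Fact p.Prime := ⟨hp⟩
  have hordx : orderOf x = p := by
    rw [← Subgroup.orderOf_coe]
    exact orderOf_eq_prime hpow hne
  refine ⟨hordx, card_norm_le h _ ?_⟩
  intro g hg
  have h1 : g * x * g⁻¹ ∈ Subgroup.zpowers x :=
    (Subgroup.mem_normalizer_iff.mp hg x).mp (Subgroup.mem_zpowers x)
  obtain ⟨n, hn⟩ := Subgroup.mem_zpowers_iff.mp h1
  have hppos : (0 : ℤ) < (p : ℤ) := by exact_mod_cast hp.pos
  have hmod := zpow_mod_orderOf x n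
  rw [hordx] at hmod
  have hnn : 0 ≤ n % (p : ℤ) := Int.emod_nonneg _ hppos.ne'
  have hlt : n % (p : ℤ) < p := Int.emod_lt_of_pos _ hppos
  obtain ⟨k, hk⟩ := Int.eq_ofNat_of_zero_le hnn
  rw [hk, zpow_natCast, hn] at hmod
  refine ⟨k, ?_, ?_, ?_⟩
  · rintro rfl
    rw [pow_zero] at hmod
    have h2 : x = 1 := by
      have h3 : g * x * g⁻¹ = 1 := hmod.symm
      have h4 : g * x = g := by rw [mul_inv_eq_one] at h3; exact h3
      exact mul_left_cancel (h4.trans (mul_one g).symm)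
    exact hne (by rw [h2]; rfl)
  · rw [hk] at hlt
    exact_mod_cast hlt
  · have h2 : g * x = x ^ k * g := by rw [hmod]; group
    have h3 := congrArg (Subtype.val : ↥M24 → Equiv.Perm GolayPt) h2
    rw [← hx]
    exact_mod_cast h3

/-- A subgroup of the centralizer from a list of tables. -/
theorem exists_cent_sub {X : List ℕ} (hpX : permOK X = true) (TL : List (List ℕ))
    (hG : tabGroupOK TL = true) (hnd : TL.Nodup)
    (hok : TL.all (fun A => tableOK A && (compT X A == compT A X)) = true)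
    (x : ↥M24) (hx : (x : Equiv.Perm GolayPt) = tperm X) :
    ∃ T : Subgroup ↥M24, T ≤ Subgroup.centralizer ({x} : Set ↥M24) ∧ Nat.card T = TL.length := by
  have hle : tabSubgroup TL hG ≤ M24 := by
    rintro _ ⟨A, hA, rfl⟩
    have h1 := List.all_eq_true.mp hok A hA
    rw [Bool.and_eq_true] at h1
    exact tperm_mem_M24 (tabGroupOK_perm hG hA) h1.1
  refine ⟨(tabSubgroup TL hG).subgroupOf M24, ?_, ?_⟩
  · intro t ht
    rw [Subgroup.mem_subgroupOf] at ht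
    obtain ⟨A, hA, htA⟩ := ht
    have h1 := List.all_eq_true.mp hok A hA
    rw [Bool.and_eq_true, beq_iff_eq] at h1
    have hpA := tabGroupOK_perm hG hA
    rw [Subgroup.mem_centralizer_iff]
    intro y hy
    rw [Set.mem_singleton_iff] at hy
    subst hy
    apply Subtype.ext
    show (y : Equiv.Perm GolayPt) * (t : Equiv.Perm GolayPt) =
      (t : Equiv.Perm GolayPt) * (y : Equiv.Perm GolayPt)
    rw [hx, htA, tperm_mul hpX hpA, tperm_mul hpA hpX, h1.2]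
  · rw [Nat.card_congr (Subgroup.subgroupOfEquivOfLe hle).toEquiv, card_tabSubgroup TL hG hnd]

end Cfsg.Agent.Lib.Helper95
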