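import Mathlib
import Cfsg.Prelude.Def_Spor_Mathieu
import Cfsg.Agent.Lib.Helper9.M22Simple
import Cfsg.Agent.Lib.Helper95.NormBound

/-!
# Normalizers of cyclic subgroups of prime order in `M22`

The group `M22` is the subgroup of `M24` fixing the points `23` and `0`.  The certificate of
`NormBound` for an element `x'` of `M24` fixing two points `a`, `b` is transported to the
conjugate of `x'` in `M22` by an element mapping `23, 0` to `a, b`.
-/

set_option autoImplicit false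

namespace Cfsg.Agent.Lib.Helper95

open Cfsg Cfsg.Agent.Lib.Helper9

theorem orderOf_tperm {p : ℕ} (hp : p.Prime) {X : List ℕ} (hpX : permOK X = true)
    (hord : (List.range 24).all (fun i => iterT X p i == i) = true) {j : ℕ} (hj : j < 24)
    (hne : X.getD j 0 ≠ j) : orderOf (tperm X) = p := by
  have hXt : HasTable (tperm X) X := hasTable_tperm hpX
  have hpow : tperm X ^ p = 1 := by
    ext q
    have hq := idx_lt q
    have h1 := (iter_apply hXt p hq).1
    rw [pt_idx] at h1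
    have h2 := List.all_eq_true.mp hord (idx q) (List.mem_range.mpr hq)
    rw [beq_iff_eq] at h2
    rw [h1, h2, pt_idx]
    rfl
  have hne' : tperm X ≠ 1 := by
    intro h1
    have h2 := hXt.apply_pt hj
    rw [h1] at h2
    have h3 := congrArg idx h2
    rw [Equiv.Perm.one_apply, idx_pt hj, idx_pt (hXt.getD_lt _)] at h3
    exact hne h3.symm
  have : Fact p.Prime := ⟨hp⟩
  exact orderOf_eq_prime hpow hne'

theorem exists_pow_of_mem_normalizer {G : Type*} [Group G] {x : G} {p : ℕ} (hp : p.Prime)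
    (hx : orderOf x = p) {g : G}
    (hg : g ∈ Subgroup.normalizer ((Subgroup.zpowers x : Subgroup G) : Set G)) :
    ∃ k, k ≠ 0 ∧ k < p ∧ g * x = x ^ k * g := by
  have h1 : g * x * g⁻¹ ∈ Subgroup.zpowers x :=
    (Subgroup.mem_normalizer_iff.mp hg x).mp (Subgroup.mem_zpowers x)
  obtain ⟨n, hn⟩ := Subgroup.mem_zpowers_iff.mp h1
  have hppos : (0 : ℤ) < (p : ℤ) := by exact_mod_cast hp.pos
  have hmod := zpow_mod_orderOf x n
  rw [hx] at hmod
  have hnn : 0 ≤ n % (p : ℤ) := Int.emod_nonneg _ hppos.ne'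
  have hlt : n % (p : ℤ) < p := Int.emod_lt_of_pos _ hppos
  obtain ⟨k, hk⟩ := Int.eq_ofNat_of_zero_le hnn
  rw [hk, zpow_natCast, hn] at hmod
  have hx1 : x ≠ 1 := by
    intro h
    rw [h, orderOf_one] at hx
    exact hp.one_lt.ne hx
  refine ⟨k, ?_, ?_, ?_⟩
  · rintro rfl
    rw [pow_zero] at hmod
    have h3 : g * x * g⁻¹ = 1 := hmod.symm
    have h4 : g * x = g := by rw [mul_inv_eq_one] at h3; exact h3
    exact hx1 (mul_left_cancel (h4.trans (mul_one g).symm))
  · rw [hk] at hlt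
    exact_mod_cast hlt
  · rw [hmod]; group

theorem norm_table_fix {p : ℕ} {X reps : List ℕ} {dat : List (ℕ × ℕ × List ℕ)}
    {S : List (List ℕ)} (h : ndOK p X reps dat S = true) (hS : S.all permOK = true)
    {a b : ℕ} (ha : a < 24) (hb : b < 24) (hXa : X.getD a 0 = a) (hXb : X.getD b 0 = b)
    {g : Equiv.Perm GolayPt} (hg : g ∈ M24) (hga : g (pt a) = pt a) (hgb : g (pt b) = pt b)
    {k : ℕ} (hk0 : k ≠ 0) (hkp : k < p) (hrel : g * tperm X = tperm X ^ k * g) :
    ∃ i < p, ∃ T ∈ S.filter (fun T => T.getD a 0 == a && T.getD b 0 == b),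
      g = (tperm X ^ i)⁻¹ * tperm T := by
  have h' := h
  simp only [ndOK, Bool.and_eq_true, beq_iff_eq] at h'
  obtain ⟨⟨⟨⟨⟨⟨⟨⟨hpX, -⟩, -⟩, -⟩, -⟩, -⟩, -⟩, -⟩, -⟩ := h'
  have hXt : HasTable (tperm X) X := hasTable_tperm hpX
  obtain ⟨i, hi, T, hT, hgT⟩ := norm_table h hg hk0 hkp hrel
  refine ⟨i, hi, T, ?_, hgT⟩
  have hpT : permOK T = true := List.all_eq_true.mp hS T hT
  have hT2 : tperm T = tperm X ^ i * g := by rw [hgT, mul_inv_cancel_left]
  have key : ∀ c, c < 24 → X.getD c 0 = c → g (pt c) = pt c → T.getD c 0 = c := by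
    intro c hc hXc hgc
    have h1 : tperm X (pt c) = pt c := by rw [hXt.apply_pt hc, hXc]
    have h2 : (tperm X ^ i) (pt c) = pt c :=
      Equiv.Perm.pow_apply_eq_self_of_apply_eq_self h1 i
    have h3 : tperm T (pt c) = pt c := by
      rw [hT2, Equiv.Perm.mul_apply, hgc, h2]
    rw [(hasTable_tperm hpT).apply_pt hc] at h3
    have h4 := congrArg idx h3
    rwa [idx_pt ((hasTable_tperm hpT).getD_lt _), idx_pt hc] at h4
  rw [List.mem_filter]
  refine ⟨hT, ?_⟩
  rw [Bool.and_eq_true, beq_iff_eq, beq_iff_eq]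
  exact ⟨key a ha hXa hga, key b hb hXb hgb⟩

theorem card_le_of_tables {N : Type*} (φ : N → Equiv.Perm GolayPt) (hφ : Function.Injective φ)
    (p : ℕ) (X : List ℕ) (S' : List (List ℕ))
    (h : ∀ n : N, ∃ i < p, ∃ T ∈ S', φ n = (tperm X ^ i)⁻¹ * tperm T) :
    Nat.card N ≤ p * S'.length := by
  classical
  let F : Finset (Equiv.Perm GolayPt) :=
    ((Finset.range p) ×ˢ S'.toFinset).image (fun q => (tperm X ^ q.1)⁻¹ * tperm q.2)
  have hF : ∀ n : N, φ n ∈ F := by
    intro n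
    obtain ⟨i, hi, T, hT, hgT⟩ := h n
    rw [Finset.mem_image]
    exact ⟨(i, T), Finset.mem_product.mpr ⟨Finset.mem_range.mpr hi, List.mem_toFinset.mpr hT⟩,
      hgT.symm⟩
  have hinj : Function.Injective (fun n : N => (⟨φ n, hF n⟩ : ↥F)) := by
    intro a b hab
    apply hφ
    exact congrArg (fun s : ↥F => (s : Equiv.Perm GolayPt)) hab
  calc Nat.card N ≤ Nat.card ↥F := Nat.card_le_card_of_injective _ hinj
    _ = F.card := Nat.card_eq_finsetCard F
    _ ≤ ((Finset.range p) ×ˢ S'.toFinset).card := Finset.card_image_le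
    _ = p * S'.toFinset.card := by rw [Finset.card_product, Finset.card_range]
    _ ≤ p * S'.length := Nat.mul_le_mul_left _ (List.toFinset_card_le S')

theorem pt23_eq : pt 23 = (none : GolayPt) := by decide

theorem pt0_eq : pt 0 = (some 0 : GolayPt) := by decide

theorem sporM22_eq : Spor.M22 = M24 ⊓ fixing [0, 23] := by
  ext σ
  have e1 : σ ∈ Spor.M22 ↔
      (σ ∈ M24 ∧ σ (none : GolayPt) = none) ∧ σ (some 0 : GolayPt) = some 0 := Iff.rfl
  rw [e1, Subgroup.mem_inf, mem_fixing]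
  constructor
  · rintro ⟨⟨h1, h2⟩, h3⟩
    refine ⟨h1, fun i hi => ?_⟩
    rw [List.mem_cons, List.mem_singleton] at hi
    rcases hi with rfl | rfl
    · rw [pt0_eq]; exact h3
    · rw [pt23_eq]; exact h2
  · rintro ⟨h1, h2⟩
    refine ⟨⟨h1, ?_⟩, ?_⟩
    · have := h2 23 (by simp)
      rwa [pt23_eq] at this
    · have := h2 0 (by simp)
      rwa [pt0_eq] at this

theorem card_sporM22 : Nat.card ↥Spor.M22 = 443520 := by
  rw [sporM22_eq]
  exact card_M22

theorem mem_sporM22_of_table {T : List ℕ} (hp : permOK T = true) (hok : tableOK T = true)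
    (h23 : T.getD 23 0 = 23) (h0 : T.getD 0 0 = 0) : tperm T ∈ Spor.M22 := by
  rw [sporM22_eq]
  refine ⟨tperm_mem_M24 hp hok, ?_⟩
  intro i hi
  rw [List.mem_cons, List.mem_singleton] at hi
  rcases hi with rfl | rfl
  · rw [(hasTable_tperm hp).apply_pt (by norm_num), h0]
  · rw [(hasTable_tperm hp).apply_pt (by norm_num), h23]

theorem sporM22_fix {g : Equiv.Perm GolayPt} (hg : g ∈ Spor.M22) :
    g ∈ M24 ∧ g (pt 23) = pt 23 ∧ g (pt 0) = pt 0 := by
  rw [sporM22_eq] at hg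
  exact ⟨hg.1, hg.2 23 (by simp), hg.2 0 (by simp)⟩

/-- The normalizer bound in `M22`. -/
theorem m22_normalizer_bound {p : ℕ} (hp : p.Prime) {X reps : List ℕ}
    {dat : List (ℕ × ℕ × List ℕ)} {S : List (List ℕ)} (h : ndOK p X reps dat S = true)
    (hS : S.all permOK = true) {a b : ℕ} (ha : a < 24) (hb : b < 24)
    (hXa : X.getD a 0 = a) (hXb : X.getD b 0 = b) {H X22 : List ℕ}
    (hH : permOK H = true ∧ tableOK H = true) (hH23 : H.getD 23 0 = a) (hH0 : H.getD 0 0 = b)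
    (hX22 : permOK X22 = true) (hconj : compT H X22 = compT X H)
    (hord : (List.range 24).all (fun i => iterT X22 p i == i) = true) {j : ℕ} (hj : j < 24)
    (hne : X22.getD j 0 ≠ j)
    (x : ↥Spor.M22) (hx : (x : Equiv.Perm GolayPt) = tperm X22) :
    orderOf x = p ∧
      Nat.card ↥(Subgroup.normalizer ((Subgroup.zpowers x : Subgroup ↥Spor.M22) :
        Set ↥Spor.M22)) ≤
        p * (S.filter (fun T => T.getD a 0 == a && T.getD b 0 == b)).length := by
  have h' := h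
  simp only [ndOK, Bool.and_eq_true, beq_iff_eq] at h'
  obtain ⟨⟨⟨⟨⟨⟨⟨⟨hpX, -⟩, -⟩, -⟩, -⟩, -⟩, -⟩, -⟩, -⟩ := h'
  have hordx : orderOf x = p := by
    rw [← Subgroup.orderOf_coe, hx]
    exact orderOf_tperm hp hX22 hord hj hne
  refine ⟨hordx, ?_⟩
  obtain ⟨hh, hhdef⟩ : ∃ hh, hh = tperm H := ⟨_, rfl⟩
  have hhM : hh ∈ M24 := by rw [hhdef]; exact tperm_mem_M24 hH.1 hH.2
  have hHt : HasTable hh H := by rw [hhdef]; exact hasTable_tperm hH.1
  have hsc : hh * (x : Equiv.Perm GolayPt) = tperm X * hh := by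
    rw [hx, hhdef, tperm_mul hH.1 hX22, tperm_mul hpX hH.1, hconj]
  have hh23 : hh (pt 23) = pt a := by rw [hHt.apply_pt (by norm_num), hH23]
  have hh0 : hh (pt 0) = pt b := by rw [hHt.apply_pt (by norm_num), hH0]
  apply card_le_of_tables
    (fun n : ↥(Subgroup.normalizer ((Subgroup.zpowers x : Subgroup ↥Spor.M22) : Set ↥Spor.M22)) =>
      hh * ((n : ↥Spor.M22) : Equiv.Perm GolayPt) * hh⁻¹) ?_ p X
  · intro n
    obtain ⟨k, hk0, hkp, hrel⟩ := exists_pow_of_mem_normalizer hp hordx n.2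
    have hrel' : ((n : ↥Spor.M22) : Equiv.Perm GolayPt) * (x : Equiv.Perm GolayPt) =
        (x : Equiv.Perm GolayPt) ^ k * ((n : ↥Spor.M22) : Equiv.Perm GolayPt) := by
      have h3 := congrArg (Subtype.val : ↥Spor.M22 → Equiv.Perm GolayPt) hrel
      exact_mod_cast h3
    obtain ⟨hgM, hg23, hg0⟩ := sporM22_fix (n : ↥Spor.M22).2
    have hsck : hh * (x : Equiv.Perm GolayPt) ^ k = tperm X ^ k * hh :=
      (SemiconjBy.pow_right (show SemiconjBy hh (x : Equiv.Perm GolayPt) (tperm X) from hsc) k).eq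
    have hx' : (x : Equiv.Perm GolayPt) * hh⁻¹ = hh⁻¹ * tperm X := by
      rw [eq_inv_mul_iff_mul_eq, ← mul_assoc, hsc, mul_assoc, mul_inv_cancel, mul_one]
    refine norm_table_fix h hS ha hb hXa hXb
      (M24.mul_mem (M24.mul_mem hhM hgM) (M24.inv_mem hhM)) ?_ ?_ hk0 hkp ?_
    · have e : hh⁻¹ (hh (pt 23)) = pt 23 := by simp
      rw [Equiv.Perm.mul_apply, Equiv.Perm.mul_apply, ← hh23, e, hg23]
    · have e : hh⁻¹ (hh (pt 0)) = pt 0 := by simp
      rw [Equiv.Perm.mul_apply, Equiv.Perm.mul_apply, ← hh0, e, hg0]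
    · calc hh * ((n : ↥Spor.M22) : Equiv.Perm GolayPt) * hh⁻¹ * tperm X
          = hh * (((n : ↥Spor.M22) : Equiv.Perm GolayPt) * (hh⁻¹ * tperm X)) := by group
        _ = hh * (((n : ↥Spor.M22) : Equiv.Perm GolayPt) * ((x : Equiv.Perm GolayPt) * hh⁻¹)) := by
            rw [hx']
        _ = hh * (((n : ↥Spor.M22) : Equiv.Perm GolayPt) * (x : Equiv.Perm GolayPt)) * hh⁻¹ := by
            group
        _ = hh * ((x : Equiv.Perm GolayPt) ^ k * ((n : ↥Spor.M22) : Equiv.Perm GolayPt)) * hh⁻¹ := by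
            rw [hrel']
        _ = (hh * (x : Equiv.Perm GolayPt) ^ k) * ((n : ↥Spor.M22) : Equiv.Perm GolayPt) * hh⁻¹ := by
            group
        _ = tperm X ^ k * (hh * ((n : ↥Spor.M22) : Equiv.Perm GolayPt) * hh⁻¹) := by
            rw [hsck]; group
  · intro n m hnm
    apply Subtype.ext
    apply Subtype.ext
    have h1 : hh * ((n : ↥Spor.M22) : Equiv.Perm GolayPt) * hh⁻¹ =
        hh * ((m : ↥Spor.M22) : Equiv.Perm GolayPt) * hh⁻¹ := hnm
    exact mul_left_cancel (mul_right_cancel h1)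

end Cfsg.Agent.Lib.Helper95
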