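import Mathlib
import Cfsg.Prelude.Def_Solvable
import Cfsg.Agent.Lib.Helper40.AxB
import Cfsg.Agent.Lib.Helper66.Cores

/-!
# Radical 2-subgroups contain their centralizers, from involution centralizers

If every involution `z` of a finite group `G` has a 2-subgroup `Q` normalized by `C_G(z)` with
`C_G(Q) ≤ Q`, then every non-trivial 2-subgroup `D` with `O_2(N_G(D)) = D` satisfies
`C_G(D) ≤ D`.
-/

set_option autoImplicit false
set_option linter.style.haveILetI false

namespace Cfsg.Agent.Lib.Helper95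

open Cfsg

/-- A non-trivial 2-group has a central involution. -/
theorem exists_central_invol {G : Type*} [Group G] [Finite G] (D : Subgroup G)
    (hD : IsPGroup 2 D) (hne : D ≠ ⊥) :
    ∃ z ∈ D, orderOf z = 2 ∧ ∀ d ∈ D, d * z = z * d := by
  haveI : Fact (Nat.Prime 2) := ⟨Nat.prime_two⟩
  haveI : Nontrivial D := by
    rw [Subgroup.nontrivial_iff_ne_bot]
    exact hne
  haveI := hD.center_nontrivial
  obtain ⟨c, hc⟩ := exists_ne (1 : Subgroup.center D)
  obtain ⟨k, hk⟩ := (IsPGroup.iff_orderOf.mp hD) (c : D)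
  have hc1 : (c : D) ≠ 1 := fun h => hc (Subtype.ext h)
  have hk0 : k ≠ 0 := by
    rintro rfl
    rw [pow_zero, orderOf_eq_one_iff] at hk
    exact hc1 hk
  obtain ⟨j, rfl⟩ := Nat.exists_eq_succ_of_ne_zero hk0
  have hord : orderOf ((c : D) ^ 2 ^ j) = 2 := by
    rw [orderOf_pow' _ (pow_ne_zero j two_ne_zero), hk]
    have : Nat.gcd (2 ^ (j + 1)) (2 ^ j) = 2 ^ j := Nat.gcd_eq_right (pow_dvd_pow 2 (Nat.le_succ j))
    rw [this, pow_succ, Nat.mul_div_cancel_left _ (pow_pos two_pos j)]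
  refine ⟨(((c : D) ^ 2 ^ j : D) : G), ((c : D) ^ 2 ^ j : D).2, ?_, ?_⟩
  · exact (Subgroup.orderOf_coe ((c : D) ^ 2 ^ j)).trans hord
  · intro d hd
    have h1 := Subgroup.mem_center_iff.mp c.2 ⟨d, hd⟩
    have h2 : (⟨d, hd⟩ : D) * (c : D) ^ 2 ^ j = (c : D) ^ 2 ^ j * ⟨d, hd⟩ :=
      ((Commute.pow_right (show Commute (⟨d, hd⟩ : D) (c : D) from h1) _)).eq
    exact congrArg Subtype.val h2

/-- The radical lemma. -/
theorem radical_cent_le {G : Type*} [Group G] [Finite G]
    (hinv : ∀ z : G, orderOf z = 2 → ∃ Q : Subgroup G, IsPGroup 2 Q ∧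
        Subgroup.centralizer ({z} : Set G) ≤ Subgroup.normalizer (Q : Set G) ∧
        Subgroup.centralizer (Q : Set G) ≤ Q)
    (D : Subgroup G) (hD : IsPGroup 2 D) (hne : D ≠ ⊥)
    (hrad : (Cfsg.pCore 2 ↥(Subgroup.normalizer (D : Set G))).map
      (Subgroup.normalizer (D : Set G)).subtype = D) :
    Subgroup.centralizer (D : Set G) ≤ D := by
  haveI : Fact (Nat.Prime 2) := ⟨Nat.prime_two⟩
  obtain ⟨z, hzD, hz2, hzc⟩ := exists_central_invol D hD hne
  obtain ⟨Q, hQ2, hQn, hQc⟩ := hinv z hz2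
  set N := Subgroup.normalizer (D : Set G) with hN
  set Y := Subgroup.centralizer (D : Set G) with hY
  have hYN : Y ≤ N := Subgroup.centralizer_le_normalizer _
  have hYz : Y ≤ Subgroup.centralizer ({z} : Set G) :=
    Subgroup.centralizer_le (Set.singleton_subset_iff.mpr hzD)
  have hDz : D ≤ Subgroup.centralizer ({z} : Set G) := by
    intro d hd
    rw [Subgroup.mem_centralizer_iff]
    intro w hw
    rw [Set.mem_singleton_iff] at hw
    subst hw
    exact (hzc d hd).symm
  have hYQ : Y ≤ Subgroup.normalizer (Q : Set G) := hYz.trans hQn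
  have hDQ : D ≤ Subgroup.normalizer (Q : Set G) := hDz.trans hQn
  -- `C(D)` is normal in `N(D)`
  have hYnorm : (Y.subgroupOf N).Normal := by
    refine ⟨fun n hn g => ?_⟩
    rw [Subgroup.mem_subgroupOf] at hn ⊢
    rw [hY, Subgroup.mem_centralizer_iff] at hn ⊢
    intro d hd
    have hg : (g : G) ∈ Subgroup.normalizer (D : Set G) := g.2
    have hd' : (g : G)⁻¹ * d * (g : G) ∈ D := by
      have := (Subgroup.mem_normalizer_iff'.mp hg ((g : G)⁻¹ * d)).mpr (by simpa using hd)
      simpa [mul_assoc] using this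
    have h1 := hn _ hd'
    push_cast
    calc d * ((g : G) * (n : G) * (g : G)⁻¹)
        = (g : G) * (((g : G)⁻¹ * d * (g : G)) * (n : G)) * (g : G)⁻¹ := by group
      _ = (g : G) * ((n : G) * ((g : G)⁻¹ * d * (g : G))) * (g : G)⁻¹ := by rw [h1]
      _ = (g : G) * (n : G) * (g : G)⁻¹ * d := by group
  -- `Q ∩ C(D) ≤ D`
  have hW0 : ∀ u ∈ Q, u ∈ Y → u ∈ D := by
    intro u huQ huY
    have hsub : ((Q ⊓ Y).subgroupOf N).IsSubnormal := by
      refine Subgroup.IsSubnormal.step _ (Y.subgroupOf N) ?_ hYnorm.isSubnormal ?_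
      · intro w hw
        rw [Subgroup.mem_subgroupOf] at hw ⊢
        exact hw.2
      · refine ⟨fun n hn g => ?_⟩
        rw [Subgroup.mem_subgroupOf, Subgroup.mem_subgroupOf] at hn ⊢
        have hgY : ((g : ↥N) : G) ∈ Y := Subgroup.mem_subgroupOf.mp g.2
        have hgQ := hYQ hgY
        refine ⟨?_, ?_⟩
        · push_cast
          exact (Subgroup.mem_normalizer_iff.mp hgQ _).mp hn.1
        · push_cast
          exact Y.mul_mem (Y.mul_mem hgY hn.2) (Y.inv_mem hgY)
    have hp : IsPGroup 2 ((Q ⊓ Y).subgroupOf N) :=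
      (hQ2.to_le inf_le_left).comap_of_injective N.subtype (Subgroup.subtype_injective _)
    have hle := Cfsg.Agent.Lib.Helper66.subnormal_le_pCore hsub hp
    have huN : u ∈ N := hYN huY
    have h1 : (⟨u, huN⟩ : ↥N) ∈ (Q ⊓ Y).subgroupOf N := by
      rw [Subgroup.mem_subgroupOf]
      exact ⟨huQ, huY⟩
    have h2 := hle h1
    rw [← hrad]
    exact ⟨⟨u, huN⟩, h2, rfl⟩
  -- odd order elements of `C(D)` are trivial
  have hodd : ∀ x ∈ Y, (orderOf x).Coprime 2 → x = 1 := by
    intro x hxY hcop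
    have hWY : Subgroup.zpowers x ≤ Y := by
      rw [Subgroup.zpowers_le]
      exact hxY
    have hcomm : ∀ w ∈ Subgroup.zpowers x, ∀ y ∈ D, w * y = y * w := by
      intro w hw y hy
      have := Subgroup.mem_centralizer_iff.mp (hWY hw) y hy
      exact this.symm
    have key := Cfsg.Agent.Lib.Helper40.thompson_AxB (p := 2) (Subgroup.zpowers x) D hD
      (by rw [Nat.card_zpowers]; exact hcop) hcomm (Nat.card Q) Q rfl hQ2
      (hWY.trans hYQ) hDQ
      (by
        intro u hu hcu w hw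
        have huY : u ∈ Y := by
          rw [hY, Subgroup.mem_centralizer_iff]
          intro y hy
          exact hcu y hy
        have huD := hW0 u hu huY
        exact hcomm w hw u huD)
    have hxQ : x ∈ Q := by
      apply hQc
      rw [Subgroup.mem_centralizer_iff]
      intro u hu
      exact (key u hu x (Subgroup.mem_zpowers x)).symm
    obtain ⟨k, hk⟩ := (IsPGroup.iff_orderOf.mp hQ2) ⟨x, hxQ⟩
    rw [Subgroup.orderOf_mk] at hk
    rw [hk] at hcop
    have hk0 : k = 0 := by
      by_contra h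
      have : (2 : ℕ) ∣ Nat.gcd (2 ^ k) 2 := Nat.dvd_gcd (dvd_pow_self 2 h) dvd_rfl
      rw [Nat.Coprime] at hcop
      rw [hcop] at this
      exact absurd this (by norm_num)
    rw [hk0, pow_zero, orderOf_eq_one_iff] at hk
    exact hk
  -- `C(D)` is a 2-group
  have hY2 : IsPGroup 2 (Y.subgroupOf N) := by
    intro g
    have hgY : ((g : ↥N) : G) ∈ Y := Subgroup.mem_subgroupOf.mp g.2
    set x : G := ((g : ↥N) : G) with hx
    have hpos : orderOf x ≠ 0 := (orderOf_pos x).ne'
    refine ⟨(orderOf x).factorization 2, ?_⟩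
    have h1 : x ^ 2 ^ (orderOf x).factorization 2 = 1 := by
      apply hodd _ (Y.pow_mem hgY _)
      rw [orderOf_pow' _ (pow_ne_zero _ two_ne_zero)]
      have hg : Nat.gcd (orderOf x) (2 ^ (orderOf x).factorization 2) =
          2 ^ (orderOf x).factorization 2 := Nat.gcd_eq_right (Nat.ordProj_dvd _ _)
      rw [hg]
      exact (Nat.coprime_ordCompl Nat.prime_two hpos).symm
    apply Subtype.ext
    apply Subtype.ext
    push_cast
    exact h1
  have hle := Cfsg.Agent.Lib.Helper66.le_pCore hYnorm hY2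
  intro y hy
  have hyN : y ∈ N := hYN hy
  have h1 : (⟨y, hyN⟩ : ↥N) ∈ Y.subgroupOf N := by
    rw [Subgroup.mem_subgroupOf]
    exact hy
  rw [← hrad]
  exact ⟨⟨y, hyN⟩, hle h1, rfl⟩

end Cfsg.Agent.Lib.Helper95
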