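import Cfsg.Agent.Lib.Helper95.FamStab

/-!
# The stabiliser of a trio

Octads and trios under the group of the code: the number of octads, transitivity on octads and
on trios, and an upper bound for the order of a trio stabiliser.
-/

set_option autoImplicit false
open scoped Pointwise
open Cfsg

namespace Cfsg.Agent.Lib.Helper95

open Cfsg.Agent.Lib.Helper9

/-! ### Masks -/

theorem support₂_dec_disjoint {a b : ℕ} (h : a &&& b = 0) :
    Disjoint (support₂ (dec a)) (support₂ (dec b)) := by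
  rw [Finset.disjoint_iff_inter_eq_empty, support₂_dec_inter, h, support₂_dec_zero]

theorem and_eq_zero_of_disjoint {a b : ℕ} (ha : a < 2 ^ 24)
    (h : Disjoint (support₂ (dec a)) (support₂ (dec b))) : a &&& b = 0 := by
  rw [Finset.disjoint_iff_inter_eq_empty, support₂_dec_inter, ← support₂_dec_zero] at h
  exact support₂_dec_injective (lt_of_le_of_lt Nat.and_le_left ha) (by norm_num) h

theorem support₂_dec_subset' {a b : ℕ} (h : a &&& b = a) :
    support₂ (dec a) ⊆ support₂ (dec b) := by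
  rw [← Finset.inter_eq_left, support₂_dec_inter, h]

theorem disjoint_smul_iff (x : Equiv.Perm GolayPt) (s t : Finset GolayPt) :
    Disjoint (x • s) (x • t) ↔ Disjoint s t := by
  rw [Finset.disjoint_iff_inter_eq_empty, Finset.disjoint_iff_inter_eq_empty,
    ← Finset.smul_finset_inter]
  constructor
  · intro h
    have h2 := congrArg (fun u => x⁻¹ • u) h
    simpa using h2
  · intro h
    rw [h, Finset.smul_finset_empty]

/-! ### Octads -/

theorem octL_length : octL.length = 759 := by decide +kernel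

theorem octL_nodup : octL.Nodup := by decide +kernel

theorem ncard_octads : octads.ncard = 759 := by
  classical
  have e : octads = (fun m => support₂ (dec m)) '' ((octL.toFinset : Finset ℕ) : Set ℕ) := by
    ext b
    constructor
    · intro hb
      obtain ⟨m, hm, rfl⟩ := exists_octL_of_mem_octads hb
      exact ⟨m, by simpa using hm, rfl⟩
    · rintro ⟨m, hm, rfl⟩
      exact support_mem_octads (by simpa using hm)
  rw [e, Set.InjOn.ncard_image, Set.ncard_coe_finset, List.toFinset_card_of_nodup octL_nodup,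
    octL_length]
  intro a ha b hb hab
  simp only [Finset.mem_coe, List.mem_toFinset] at ha hb
  exact support₂_dec_injective (octL_lt ha) (octL_lt hb) hab

theorem octL_ne_zero {m : ℕ} (hm : m ∈ octL) : m ≠ 0 := by
  rintro rfl
  have h := (of_mem_octL hm).2
  have h0 : popc 0 = 0 := by decide
  omega

/-- The base octad, through the points `∞, 0, 1, 2, 3`. -/
theorem B1_mem_octL : (8536111 : ℕ) ∈ octL := by decide +kernel

theorem B1_mem_octads : support₂ (dec 8536111) ∈ octads := support_mem_octads B1_mem_octL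

/-- The group of the code is transitive on octads. -/
theorem exists_smul_octad {o : Finset GolayPt} (ho : o ∈ octads) :
    ∃ x ∈ M24, x • support₂ (dec 8536111) = o := by
  have h8 : o.card = 8 := card_octad ho
  obtain ⟨Y, hYo, hY5⟩ := Finset.exists_subset_card_eq (show 5 ≤ o.card by rw [h8]; norm_num)
  obtain ⟨σ, hσ, hσY⟩ := exists_smul_of_tchain (bs := [23, 0, 1, 2, 3]) (by decide) m24_tchain5
    (Y := Y) hY5
  refine ⟨σ, hσ, octad_eq_of_inter (smul_octad_mem hσ B1_mem_octads) ho ?_⟩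
  have hsub : Y ⊆ σ • support₂ (dec 8536111) ∩ o := by
    apply Finset.subset_inter _ hYo
    rw [← hσY]
    exact Finset.smul_finset_subset_smul_finset (support₂_dec_subset' (by decide))
  rw [← hY5]
  exact Finset.card_le_card hsub

theorem orbit_octad : MulAction.orbit ↥M24 (support₂ (dec 8536111)) = octads := by
  ext X
  constructor
  · rintro ⟨g, rfl⟩
    exact smul_octad_mem g.2 B1_mem_octads
  · intro hX
    obtain ⟨x, hx, hxX⟩ := exists_smul_octad hX
    exact ⟨⟨x, hx⟩, hxX⟩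

/-- The stabiliser of the base octad. -/
abbrev octStab0 : Subgroup (Equiv.Perm GolayPt) :=
  M24 ⊓ MulAction.stabilizer (Equiv.Perm GolayPt) (support₂ (dec 8536111))

theorem card_octStab0 : Nat.card ↥octStab0 = 322560 := by
  have h := card_eq_orbit_mul_stab' M24 (support₂ (dec 8536111))
  rw [orbit_octad, ncard_octads, card_M24] at h
  show Nat.card ↥(M24 ⊓ MulAction.stabilizer (Equiv.Perm GolayPt) (support₂ (dec 8536111))) =
    322560
  omega

/-! ### Trios -/

theorem smul_trio_mem {x : Equiv.Perm GolayPt} (hx : x ∈ M24) {T : Finset (Finset GolayPt)}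
    (hT : T ∈ trios) : x • T ∈ trios := by
  obtain ⟨h3, ho, hd⟩ := hT
  refine ⟨?_, ?_, ?_⟩
  · rw [Finset.card_smul_finset]
    exact h3
  · intro o ho'
    obtain ⟨o0, ho0, rfl⟩ := Finset.mem_smul_finset.mp ho'
    exact smul_octad_mem hx (ho o0 ho0)
  · intro o ho' o' ho'' hne
    obtain ⟨a, ha, rfl⟩ := Finset.mem_smul_finset.mp ho'
    obtain ⟨b, hb, rfl⟩ := Finset.mem_smul_finset.mp ho''
    have hab : a ≠ b := fun h => hne (by rw [h])
    exact (disjoint_smul_iff x a b).mpr (hd a ha b hb hab)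

theorem card_golayPt : Fintype.card GolayPt = 24 := by
  rw [← Finset.card_univ, ← support₂_dec_full, ← popcF_eq_card (by norm_num)]
  decide +kernel

/-- A trio is determined by two of its octads. -/
theorem trio_third {T : Finset (Finset GolayPt)} (hT : T ∈ trios) {o1 o2 : Finset GolayPt}
    (h1 : o1 ∈ T) (h2 : o2 ∈ T) (hne : o1 ≠ o2) :
    T = {o1, o2, Finset.univ \ (o1 ∪ o2)} := by
  obtain ⟨h3, ho, hd⟩ := hT
  have hc : ((T.erase o1).erase o2).card = 1 := by
    rw [Finset.card_erase_of_mem (Finset.mem_erase.mpr ⟨hne.symm, h2⟩),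
      Finset.card_erase_of_mem h1, h3]
  obtain ⟨o3, ho3⟩ := Finset.card_eq_one.mp hc
  have h3mem : o3 ∈ (T.erase o1).erase o2 := by
    rw [ho3]
    exact Finset.mem_singleton_self _
  rw [Finset.mem_erase, Finset.mem_erase] at h3mem
  obtain ⟨h32, h31, h3T⟩ := h3mem
  have hT' : T = {o1, o2, o3} := by
    ext o
    simp only [Finset.mem_insert, Finset.mem_singleton]
    constructor
    · intro hoT
      by_cases e1 : o = o1
      · exact Or.inl e1
      by_cases e2 : o = o2
      · exact Or.inr (Or.inl e2)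
      right
      right
      have hm : o ∈ (T.erase o1).erase o2 :=
        Finset.mem_erase.mpr ⟨e2, Finset.mem_erase.mpr ⟨e1, hoT⟩⟩
      rw [ho3, Finset.mem_singleton] at hm
      exact hm
    · rintro (rfl | rfl | rfl) <;> assumption
  have e3 : o3 = Finset.univ \ (o1 ∪ o2) := by
    apply Finset.eq_of_subset_of_card_le
    · intro p hp
      rw [Finset.mem_sdiff, Finset.mem_union]
      refine ⟨Finset.mem_univ _, ?_⟩
      rintro (h | h)
      · exact Finset.disjoint_left.mp (hd o3 h3T o1 h1 h31) hp h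
      · exact Finset.disjoint_left.mp (hd o3 h3T o2 h2 h32) hp h
    · rw [Finset.card_sdiff_of_subset (Finset.subset_univ _),
        Finset.card_union_of_disjoint (hd o1 h1 o2 h2 hne), card_octad (ho o1 h1),
        card_octad (ho o2 h2), card_octad (ho o3 h3T), Finset.card_univ, card_golayPt]
  rw [hT', e3]

theorem trio_eq_of_two {T T' : Finset (Finset GolayPt)} (hT : T ∈ trios) (hT' : T' ∈ trios)
    {o1 o2 : Finset GolayPt} (h1 : o1 ∈ T) (h2 : o2 ∈ T) (h1' : o1 ∈ T') (h2' : o2 ∈ T')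
    (hne : o1 ≠ o2) : T = T' := by
  rw [trio_third hT h1 h2 hne, trio_third hT' h1' h2' hne]

/-- The base trio. -/
def tr0L : List ℕ := [8536111, 337856, 7903248]

/-- Validity of a list of three masks as a trio. -/
def trOK (L : List ℕ) : Bool :=
  L.length == 3 && L.all (fun m => octL.contains m) && pairsAll (fun a b => a &&& b == 0) L

theorem trSet_mem_trios {L : List ℕ} (h : trOK L = true) : sxSet L ∈ trios := by
  simp only [trOK, Bool.and_eq_true, beq_iff_eq, List.all_eq_true, List.contains_iff_mem] at h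
  obtain ⟨⟨hlen, hoct⟩, hpair⟩ := h
  have hpw : L.Pairwise (fun a b => (a &&& b == 0) = true) := pairsAll_pairwise _ _ hpair
  have hsymm : Std.Symm (fun a b : ℕ => (a &&& b == 0) = true) :=
    ⟨fun a b h => by rw [Nat.and_comm]; exact h⟩
  have hnd : (L.map (fun m => support₂ (dec m))).Nodup := by
    rw [List.Nodup, List.pairwise_map]
    refine hpw.imp_of_mem ?_
    intro a b ha hb hab heq
    rw [beq_iff_eq] at hab
    have e := support₂_dec_injective (octL_lt (hoct a ha)) (octL_lt (hoct b hb)) heq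
    rw [← e, Nat.and_self] at hab
    exact octL_ne_zero (hoct a ha) hab
  refine ⟨?_, ?_, ?_⟩
  · rw [sxSet, List.toFinset_card_of_nodup hnd, List.length_map, hlen]
  · intro o ho
    obtain ⟨m, hm, rfl⟩ := mem_sxSet.mp ho
    exact support_mem_octads (hoct m hm)
  · intro o ho o' ho' hne
    obtain ⟨a, ha, rfl⟩ := mem_sxSet.mp ho
    obtain ⟨b, hb, rfl⟩ := mem_sxSet.mp ho'
    have hab : a ≠ b := fun h => hne (by rw [h])
    have h0 := hpw.forall ha hb hab
    rw [beq_iff_eq] at h0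
    exact support₂_dec_disjoint h0

theorem tr0L_ok : trOK tr0L = true := by decide +kernel

theorem tr0_mem_trios : sxSet tr0L ∈ trios := trSet_mem_trios tr0L_ok

theorem B1_mem_tr0 : support₂ (dec 8536111) ∈ sxSet tr0L := mem_sxSet.mpr ⟨_, by decide, rfl⟩

theorem B2_mem_tr0 : support₂ (dec 337856) ∈ sxSet tr0L := mem_sxSet.mpr ⟨_, by decide, rfl⟩

theorem B1_ne_B2 : support₂ (dec 8536111) ≠ support₂ (dec 337856) := fun h =>
  absurd (support₂_dec_injective (by norm_num) (by norm_num) h) (by norm_num)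

/-- Elements of the stabiliser of the base octad carrying the second octad of the base trio to
each octad disjoint from the base octad. -/
def oct30Tabs : List (List ℕ) :=
  [[0, 1, 2, 3, 4, 5, 6, 7, 8, 9, 10, 11, 12, 13, 14, 15, 16, 17, 18, 19, 20, 21, 22, 23],
   [1, 17, 14, 23, 13, 3, 7, 10, 15, 8, 16, 6, 9, 12, 5, 22, 4, 0, 19, 20, 11, 21, 18, 2],
   [5, 3, 17, 2, 21, 23, 13, 4, 15, 12, 18, 20, 10, 19, 0, 11, 6, 1, 9, 16, 8, 22, 7, 14],
   [17, 14, 2, 5, 22, 3, 13, 12, 7, 6, 15, 10, 21, 11, 23, 9, 16, 0, 20, 18, 19, 4, 8, 1],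
   [17, 0, 5, 2, 7, 1, 8, 15, 20, 12, 10, 16, 19, 11, 14, 6, 9, 23, 18, 21, 22, 13, 4, 3],
   [3, 1, 2, 0, 22, 17, 4, 6, 19, 10, 11, 12, 9, 20, 14, 16, 8, 5, 13, 15, 21, 18, 7, 23],
   [0, 17, 1, 3, 22, 23, 20, 4, 19, 7, 18, 6, 8, 16, 2, 21, 9, 14, 11, 10, 12, 13, 15, 5],
   [17, 14, 5, 2, 10, 23, 11, 8, 21, 4, 13, 19, 6, 9, 0, 22, 15, 1, 7, 12, 16, 18, 20, 3],
   [2, 1, 17, 5, 7, 3, 15, 6, 16, 18, 4, 8, 22, 10, 23, 13, 21, 0, 11, 19, 12, 9, 20, 14],
   [3, 14, 2, 0, 6, 5, 13, 10, 16, 12, 21, 22, 15, 19, 1, 18, 11, 17, 9, 4, 7, 20, 8, 23],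
   [3, 2, 14, 0, 4, 1, 7, 11, 8, 19, 18, 20, 16, 6, 17, 13, 12, 23, 21, 22, 15, 10, 9, 5],
   [14, 2, 1, 23, 15, 3, 16, 8, 4, 20, 21, 18, 13, 6, 5, 7, 9, 0, 12, 11, 10, 22, 19, 17],
   [1, 5, 14, 23, 6, 0, 20, 13, 12, 10, 4, 8, 19, 21, 17, 15, 18, 3, 7, 9, 16, 22, 11, 2],
   [2, 23, 17, 5, 8, 0, 19, 7, 10, 6, 21, 18, 11, 9, 1, 16, 20, 3, 15, 22, 4, 13, 12, 14],
   [3, 17, 14, 0, 11, 23, 21, 19, 13, 20, 15, 4, 22, 8, 2, 10, 18, 1, 16, 7, 9, 6, 12, 5],
   [0, 14, 17, 3, 15, 5, 12, 22, 10, 4, 11, 20, 19, 9, 1, 13, 7, 2, 6, 18, 8, 16, 21, 23],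
   [17, 23, 2, 5, 20, 0, 12, 16, 8, 18, 22, 19, 10, 13, 14, 21, 11, 3, 4, 7, 9, 15, 6, 1],
   [14, 5, 1, 23, 12, 0, 8, 9, 19, 11, 15, 10, 18, 16, 2, 13, 6, 3, 22, 4, 7, 21, 20, 17],
   [14, 5, 23, 1, 20, 3, 7, 10, 15, 22, 11, 16, 8, 13, 2, 9, 18, 0, 19, 12, 6, 4, 21, 17],
   [14, 2, 3, 0, 8, 1, 20, 22, 16, 9, 13, 19, 12, 15, 5, 11, 4, 23, 10, 18, 21, 6, 7, 17],
   [0, 2, 14, 3, 21, 23, 8, 15, 18, 22, 6, 12, 10, 7, 17, 16, 4, 1, 20, 11, 19, 9, 13, 5],
   [2, 1, 17, 5, 21, 3, 9, 19, 22, 12, 13, 11, 16, 20, 23, 4, 7, 0, 8, 6, 18, 15, 10, 14],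
   [3, 17, 1, 0, 15, 14, 22, 20, 10, 18, 6, 8, 7, 12, 2, 9, 19, 23, 16, 21, 13, 11, 4, 5],
   [3, 17, 23, 0, 19, 1, 21, 12, 15, 6, 8, 18, 7, 13, 2, 4, 10, 14, 22, 16, 20, 9, 11, 5],
   [1, 17, 3, 23, 10, 0, 7, 18, 16, 21, 12, 4, 20, 15, 5, 6, 22, 14, 9, 19, 8, 11, 13, 2],
   [5, 0, 17, 2, 20, 1, 16, 21, 19, 4, 6, 12, 9, 22, 3, 15, 7, 23, 13, 10, 18, 11, 8, 14],
   [1, 14, 17, 23, 13, 2, 8, 10, 19, 18, 9, 7, 16, 22, 3, 11, 21, 5, 4, 12, 20, 15, 6, 0],
   [5, 3, 17, 2, 6, 23, 22, 16, 10, 8, 11, 9, 15, 7, 0, 18, 21, 1, 20, 4, 12, 13, 19, 14],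
   [1, 17, 14, 23, 4, 3, 21, 20, 9, 11, 22, 19, 15, 18, 5, 16, 13, 0, 6, 10, 8, 7, 12, 2],
   [1, 3, 5, 23, 18, 2, 4, 21, 20, 22, 19, 9, 8, 11, 14, 13, 15, 17, 12, 16, 7, 6, 10, 0]]

theorem oct30_ok : oct30Tabs.all (fun T => permOK T && tableOK T && push T 8536111 == 8536111) =
    true := by decide +kernel

theorem oct30_dec : octL.all (fun m => m &&& 8536111 != 0 ||
    oct30Tabs.any (fun T => push T 337856 == m)) = true := by decide +kernel

theorem exists_oct30 {o : Finset GolayPt} (ho : o ∈ octads)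
    (hd : Disjoint o (support₂ (dec 8536111))) :
    ∃ τ ∈ octStab0, τ • support₂ (dec 337856) = o := by
  obtain ⟨m, hm, rfl⟩ := exists_octL_of_mem_octads ho
  have h0 := and_eq_zero_of_disjoint (octL_lt hm) hd
  have h1 := List.all_eq_true.mp oct30_dec m hm
  rw [Bool.or_eq_true, bne_iff_ne, List.any_eq_true] at h1
  rcases h1 with h1 | ⟨T, hT, hTm⟩
  · exact absurd h0 h1
  rw [beq_iff_eq] at hTm
  have hok := List.all_eq_true.mp oct30_ok T hT
  rw [Bool.and_eq_true, Bool.and_eq_true, beq_iff_eq] at hok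
  obtain ⟨⟨hp, ht⟩, hB⟩ := hok
  refine ⟨tperm T, ⟨tperm_mem_M24 hp ht, ?_⟩, ?_⟩
  · show tperm T • support₂ (dec 8536111) = support₂ (dec 8536111)
    rw [smul_support₂_dec (hasTable_tperm hp), hB]
  · rw [smul_support₂_dec (hasTable_tperm hp), hTm]

/-- The group of the code is transitive on trios. -/
theorem exists_smul_trio {T : Finset (Finset GolayPt)} (hT : T ∈ trios) :
    ∃ x ∈ M24, x • sxSet tr0L = T := by
  have hcard : 1 < T.card := by rw [hT.1]; norm_num
  obtain ⟨o1, ho1, o2, ho2, hne⟩ := Finset.one_lt_card.mp hcard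
  obtain ⟨x, hx, hxo⟩ := exists_smul_octad (hT.2.1 o1 ho1)
  have hxinv := M24.inv_mem hx
  have hd : Disjoint (x⁻¹ • o2) (support₂ (dec 8536111)) := by
    have h1 : Disjoint o2 o1 := hT.2.2 o2 ho2 o1 ho1 hne.symm
    rw [← hxo] at h1
    rw [← disjoint_smul_iff x, smul_inv_smul]
    exact h1
  obtain ⟨τ, hτ, hτo⟩ := exists_oct30 (smul_octad_mem hxinv (hT.2.1 o2 ho2)) hd
  have hτB : τ • support₂ (dec 8536111) = support₂ (dec 8536111) := hτ.2
  refine ⟨x * τ, M24.mul_mem hx hτ.1, ?_⟩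
  apply trio_eq_of_two (smul_trio_mem (M24.mul_mem hx hτ.1) tr0_mem_trios) hT (o1 := o1)
    (o2 := o2) _ _ ho1 ho2 hne
  · rw [← hxo, ← hτB, ← mul_smul]
    exact Finset.smul_mem_smul_finset B1_mem_tr0
  · have e : o2 = (x * τ) • support₂ (dec 337856) := by
      rw [mul_smul, hτo, smul_inv_smul]
    rw [e]
    exact Finset.smul_mem_smul_finset B2_mem_tr0

/-! ### The order of the stabiliser of the base trio -/

/-- The stabiliser of the base trio. -/
abbrev trStab0 : Subgroup (Equiv.Perm GolayPt) :=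
  M24 ⊓ MulAction.stabilizer (Equiv.Perm GolayPt) (sxSet tr0L)

/-- Fifteen octads disjoint from the base octad, one from each trio through the base octad. -/
def rep15 : List ℕ := [337856, 628112, 832080, 1161408, 1351424, 1584464, 1903248, 2141072, 2460752, 2702848, 2890176, 3216208, 3421328, 3704512, 4038912]

theorem rep15_ok : rep15.all (fun m => octL.contains m && m &&& 8536111 == 0) = true := by
  decide +kernel

theorem rep15_nodup : rep15.Nodup := by decide +kernel

theorem rep15_dec : rep15.all (fun m => rep15.all (fun m' => m == m' ||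
    (m != 8536111 && m != 16777215 ^^^ (8536111 ||| m')))) = true := by decide +kernel

/-- The trio through the base octad and a second octad. -/
def trioOf (m : ℕ) : Finset (Finset GolayPt) :=
  {support₂ (dec 8536111), support₂ (dec m),
    Finset.univ \ (support₂ (dec 8536111) ∪ support₂ (dec m))}

theorem rep15_mem {m : ℕ} (hm : m ∈ rep15) : m ∈ octL ∧ m &&& 8536111 = 0 := by
  have hok := List.all_eq_true.mp rep15_ok m hm
  rw [Bool.and_eq_true, List.contains_iff_mem, beq_iff_eq] at hok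
  exact hok

theorem trioOf_injOn : Set.InjOn trioOf ((rep15.toFinset : Finset ℕ) : Set ℕ) := by
  intro m hm m' hm' h
  simp only [Finset.mem_coe, List.mem_toFinset] at hm hm'
  have hlt := octL_lt (rep15_mem hm).1
  have hlt' := octL_lt (rep15_mem hm').1
  have h1 : support₂ (dec m) ∈ trioOf m' := by
    rw [← h]
    simp [trioOf]
  have hd := List.all_eq_true.mp (List.all_eq_true.mp rep15_dec m hm) m' hm'
  rw [Bool.or_eq_true, beq_iff_eq, Bool.and_eq_true, bne_iff_ne, bne_iff_ne] at hd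
  rcases hd with hd | ⟨hd1, hd2⟩
  · exact hd
  simp only [trioOf, Finset.mem_insert, Finset.mem_singleton] at h1
  rcases h1 with h1 | h1 | h1
  · exact absurd (support₂_dec_injective hlt (by norm_num) h1) hd1
  · exact support₂_dec_injective hlt hlt' h1
  · rw [support₂_dec_or, compl_support₂_dec] at h1
    exact absurd (support₂_dec_injective hlt
      (Nat.xor_lt_two_pow (by norm_num) (Nat.or_lt_two_pow (by norm_num) hlt')) h1) hd2

theorem trioOf_mem_orbit {m : ℕ} (hm : m ∈ rep15) :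
    trioOf m ∈ MulAction.orbit ↥octStab0 (sxSet tr0L) := by
  obtain ⟨hoct, hand⟩ := rep15_mem hm
  obtain ⟨τ, hτ, hτo⟩ := exists_oct30 (support_mem_octads hoct) (support₂_dec_disjoint hand)
  refine ⟨⟨τ, hτ⟩, ?_⟩
  show τ • sxSet tr0L = trioOf m
  have hτB : τ • support₂ (dec 8536111) = support₂ (dec 8536111) := hτ.2
  have hT := smul_trio_mem hτ.1 tr0_mem_trios
  have h1 : support₂ (dec 8536111) ∈ τ • sxSet tr0L := by
    rw [← hτB]
    exact Finset.smul_mem_smul_finset B1_mem_tr0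
  have h2 : support₂ (dec m) ∈ τ • sxSet tr0L := by
    rw [← hτo]
    exact Finset.smul_mem_smul_finset B2_mem_tr0
  have hne : support₂ (dec 8536111) ≠ support₂ (dec m) := by
    intro h
    have e := support₂_dec_injective (by norm_num) (octL_lt hoct) h
    rw [← e] at hand
    exact absurd hand (by decide)
  exact trio_third hT h1 h2 hne

theorem card_octStab_trio :
    Nat.card ↥(octStab0 ⊓ MulAction.stabilizer (Equiv.Perm GolayPt) (sxSet tr0L)) ≤ 21504 := by
  classical
  have h := card_eq_orbit_mul_stab' octStab0 (sxSet tr0L)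
  rw [card_octStab0] at h
  have h15 : 15 ≤ (MulAction.orbit ↥octStab0 (sxSet tr0L)).ncard := by
    have hsub : trioOf '' ((rep15.toFinset : Finset ℕ) : Set ℕ) ⊆
        MulAction.orbit ↥octStab0 (sxSet tr0L) := by
      rintro _ ⟨m, hm, rfl⟩
      exact trioOf_mem_orbit (by simpa using hm)
    have hc : (trioOf '' ((rep15.toFinset : Finset ℕ) : Set ℕ)).ncard = 15 := by
      rw [Set.InjOn.ncard_image trioOf_injOn, Set.ncard_coe_finset,
        List.toFinset_card_of_nodup rep15_nodup]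
      rfl
    rw [← hc]
    exact Set.ncard_le_ncard hsub (Set.toFinite _)
  by_contra hlt
  rw [not_le] at hlt
  have h2 := Nat.mul_le_mul h15 (Nat.succ_le_of_lt hlt)
  rw [← h] at h2
  omega

/-- The stabiliser of the base trio has order at most 64512. -/
theorem card_trStab0_le : Nat.card ↥trStab0 ≤ 64512 := by
  have h := card_eq_orbit_mul_stab' trStab0 (support₂ (dec 8536111))
  have h3 : (MulAction.orbit ↥trStab0 (support₂ (dec 8536111))).ncard ≤ 3 := by
    have hsub : MulAction.orbit ↥trStab0 (support₂ (dec 8536111)) ⊆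
        ((sxSet tr0L : Finset (Finset GolayPt)) : Set (Finset GolayPt)) := by
      rintro _ ⟨g, rfl⟩
      have hg : (g : Equiv.Perm GolayPt) • sxSet tr0L = sxSet tr0L := g.2.2
      exact Finset.mem_coe.mpr (smul_mem_of_stab hg B1_mem_tr0)
    have h4 := Set.ncard_le_ncard hsub (Finset.finite_toSet _)
    rw [Set.ncard_coe_finset, tr0_mem_trios.1] at h4
    exact h4
  have e : trStab0 ⊓ MulAction.stabilizer (Equiv.Perm GolayPt) (support₂ (dec 8536111)) =
      octStab0 ⊓ MulAction.stabilizer (Equiv.Perm GolayPt) (sxSet tr0L) := by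
    ext σ
    simp only [Subgroup.mem_inf]
    tauto
  rw [e] at h
  rw [h]
  exact (Nat.mul_le_mul h3 card_octStab_trio).trans (by norm_num)

end Cfsg.Agent.Lib.Helper95
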