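import Mathlib
import Cfsg.Agent.Lib.Helper95.NormBound2
import Cfsg.Agent.Lib.Helper95.TrioStab
import Cfsg.Agent.Lib.Helper96.M24Invol
import Cfsg.Agent.Lib.Helper95.RadCent

/-!
# Radical 2-subgroups of `M22` contain their centralizers

For an involution `z` of `M22`, the fixed points of `z` form an octad `O` containing the two
points fixed by `M22`; the pointwise stabiliser `E` of `O` in `M24` is an elementary abelian
subgroup of order 16 of `M22`, normalized by `C(z)`, with `C_{M24}(E) = E`.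
-/

set_option autoImplicit false
set_option linter.style.haveILetI false

open scoped Pointwise

namespace Cfsg.Agent.Lib.Helper95

open Cfsg Cfsg.Agent.Lib.Helper9

/-- The pointwise stabiliser in `M24` of a set of points. -/
def ptStab (O : Finset GolayPt) : Subgroup (Equiv.Perm GolayPt) where
  carrier := {g | g ∈ M24 ∧ ∀ q ∈ O, g q = q}
  one_mem' := ⟨M24.one_mem, fun _ _ => rfl⟩
  mul_mem' := fun {a b} ha hb => ⟨M24.mul_mem ha.1 hb.1, fun q hq => by
    rw [Equiv.Perm.mul_apply, hb.2 q hq, ha.2 q hq]⟩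
  inv_mem' := fun {a} ha => ⟨M24.inv_mem ha.1, fun q hq => by
    rw [Equiv.Perm.inv_eq_iff_eq, ha.2 q hq]⟩

theorem mem_ptStab {O : Finset GolayPt} {g : Equiv.Perm GolayPt} :
    g ∈ ptStab O ↔ g ∈ M24 ∧ ∀ q ∈ O, g q = q := Iff.rfl

theorem comm_of_sq {G : Type*} [Group G] (H : Subgroup G) (h : ∀ x ∈ H, x * x = 1) {a b : G}
    (ha : a ∈ H) (hb : b ∈ H) : a * b = b * a := by
  have e1 : a = a⁻¹ := eq_inv_of_mul_eq_one_left (h a ha)
  have e2 : b = b⁻¹ := eq_inv_of_mul_eq_one_left (h b hb)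
  have e3 : a * b = (a * b)⁻¹ := eq_inv_of_mul_eq_one_left (h _ (H.mul_mem ha hb))
  rw [e3, mul_inv_rev, ← e1, ← e2]

/-- The base octad. -/
abbrev O0 : Finset GolayPt := support₂ (dec 8536111)

theorem O0_bits : ∀ i < 24, ((8536111 : ℕ).testBit i = true ↔
    i ∈ ([23, 0, 1, 2, 3, 5, 14, 17] : List ℕ)) := by decide +kernel

theorem pt_mem_O0 {i : ℕ} (hi : i ∈ ([23, 0, 1, 2, 3, 5, 14, 17] : List ℕ)) : pt i ∈ O0 := by
  have h24 : i < 24 := by
    simp only [List.mem_cons, List.not_mem_nil, or_false] at hi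
    omega
  rw [mem_support₂_dec, idx_pt h24]
  exact (O0_bits i h24).mpr hi

theorem idx_of_mem_O0 {q : GolayPt} (hq : q ∈ O0) :
    idx q ∈ ([23, 0, 1, 2, 3, 5, 14, 17] : List ℕ) := by
  rw [mem_support₂_dec] at hq
  exact (O0_bits _ (idx_lt q)).mp hq

/-- The 16 elements fixing the base octad pointwise. -/
def e16L : List (List ℕ) :=
  [[0, 1, 2, 3, 4, 5, 6, 7, 8, 9, 10, 11, 12, 13, 14, 15, 16, 17, 18, 19, 20, 21, 22, 23],
   [0, 1, 2, 3, 6, 5, 4, 22, 20, 12, 11, 10, 9, 19, 14, 18, 21, 17, 15, 13, 8, 16, 7, 23],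
   [0, 1, 2, 3, 7, 5, 22, 4, 15, 11, 12, 9, 10, 21, 14, 8, 19, 17, 20, 16, 18, 13, 6, 23],
   [0, 1, 2, 3, 8, 5, 20, 15, 4, 21, 19, 13, 16, 11, 14, 7, 12, 17, 22, 10, 6, 9, 18, 23],
   [0, 1, 2, 3, 9, 5, 12, 11, 21, 4, 22, 7, 6, 15, 14, 13, 20, 17, 19, 18, 16, 8, 10, 23],
   [0, 1, 2, 3, 10, 5, 11, 12, 19, 22, 4, 6, 7, 20, 14, 16, 15, 17, 21, 8, 13, 18, 9, 23],
   [0, 1, 2, 3, 11, 5, 10, 9, 13, 7, 6, 4, 22, 8, 14, 21, 18, 17, 16, 20, 19, 15, 12, 23],
   [0, 1, 2, 3, 12, 5, 9, 10, 16, 6, 7, 22, 4, 18, 14, 19, 8, 17, 13, 15, 21, 20, 11, 23],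
   [0, 1, 2, 3, 13, 5, 19, 21, 11, 15, 20, 8, 18, 4, 14, 9, 22, 17, 12, 6, 10, 7, 16, 23],
   [0, 1, 2, 3, 15, 5, 18, 8, 7, 13, 16, 21, 19, 9, 14, 4, 10, 17, 6, 12, 22, 11, 20, 23],
   [0, 1, 2, 3, 16, 5, 21, 19, 12, 20, 15, 18, 8, 22, 14, 10, 4, 17, 11, 7, 9, 6, 13, 23],
   [0, 1, 2, 3, 18, 5, 15, 20, 22, 19, 21, 16, 13, 12, 14, 6, 11, 17, 4, 9, 7, 10, 8, 23],
   [0, 1, 2, 3, 19, 5, 13, 16, 10, 18, 8, 20, 15, 6, 14, 12, 7, 17, 9, 4, 11, 22, 21, 23],
   [0, 1, 2, 3, 20, 5, 8, 18, 6, 16, 13, 19, 21, 10, 14, 22, 9, 17, 7, 11, 4, 12, 15, 23],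
   [0, 1, 2, 3, 21, 5, 16, 13, 9, 8, 18, 15, 20, 7, 14, 11, 6, 17, 10, 22, 12, 4, 19, 23],
   [0, 1, 2, 3, 22, 5, 7, 6, 18, 10, 9, 12, 11, 16, 14, 20, 13, 17, 8, 21, 15, 19, 4, 23]]

/-- A non-identity element of `e16L`. -/
def e1T : List ℕ := [0, 1, 2, 3, 6, 5, 4, 22, 20, 12, 11, 10, 9, 19, 14, 18, 21, 17, 15, 13, 8, 16, 7, 23]

/-- An element of `M24` mapping seven points outside the base octad to `4, 5, 3, 2, 1, 0, 23`. -/
def wT : List ℕ := [18, 21, 8, 19, 23, 20, 0, 1, 7, 2, 3, 14, 5, 4, 13, 11, 12, 16, 10, 6, 22, 9, 17, 15]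

theorem e16_ok : e16L.all (fun s => permOK s && tableOK s && (compT s s == idT) &&
    ([23, 0, 1, 2, 3, 5, 14, 17] : List ℕ).all (fun i => s.getD i 0 == i)) = true := by
  decide +kernel

theorem e16_filter : stab5L.all (fun s =>
    !(s.getD 5 0 == 5 && s.getD 14 0 == 14 && s.getD 17 0 == 17) || e16L.contains s) = true := by
  decide +kernel

theorem e1_mem : e1T ∈ e16L := by decide +kernel

theorem e1_fix : ∀ i < 24, (e1T.getD i 0 = i ↔ i ∈ ([23, 0, 1, 2, 3, 5, 14, 17] : List ℕ)) := by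
  decide +kernel

theorem e16_reg : (List.range 24).all (fun c => e1T.getD c 0 == c ||
    e16L.any (fun s => s.getD 4 0 == c)) = true := by decide +kernel

theorem wT_ok : permOK wT = true ∧ tableOK wT = true := by decide +kernel

theorem wT_pre : ([4, 5, 3, 2, 1, 0, 23] : List ℕ).all (fun i =>
    wT.getD ((invT wT).getD i 0) 0 == i && !(e1T.getD ((invT wT).getD i 0) 0 == (invT wT).getD i 0)
      && decide ((invT wT).getD i 0 < 24)) = true := by decide +kernel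

theorem e16_mem {s : List ℕ} (hs : s ∈ e16L) :
    permOK s = true ∧ tperm s ∈ ptStab O0 ∧ tperm s * tperm s = 1 := by
  have h := List.all_eq_true.mp e16_ok s hs
  simp only [Bool.and_eq_true, beq_iff_eq, List.all_eq_true] at h
  obtain ⟨⟨⟨hp, hok⟩, hsq⟩, hfix⟩ := h
  refine ⟨hp, ⟨tperm_mem_M24 hp hok, ?_⟩, ?_⟩
  · intro q hq
    have hi := idx_of_mem_O0 hq
    rw [tperm_apply hp, hfix _ hi, pt_idx]
  · rw [tperm_mul hp hp, hsq, tperm_idT]

/-- Elements of the pointwise stabiliser of the base octad are tabulated in `e16L`. -/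
theorem exists_e16 {g : Equiv.Perm GolayPt} (hg : g ∈ ptStab O0) : ∃ s ∈ e16L, g = tperm s := by
  obtain ⟨hM, hfix⟩ := hg
  have hf : ∀ i ∈ ([23, 0, 1, 2, 3, 5, 14, 17] : List ℕ), g (pt i) = pt i :=
    fun i hi => hfix _ (pt_mem_O0 hi)
  have h5 : g ∈ M24 ⊓ fixing [3, 2, 1, 0, 23] := by
    refine ⟨hM, fun i hi => hf i ?_⟩
    simp only [List.mem_cons, List.not_mem_nil, or_false] at hi ⊢
    omega
  obtain ⟨s, hs, hst⟩ := Cfsg.Agent.Lib.Helper94.enum5.complete _ h5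
  have hsL : s ∈ stab5L := List.contains_iff_mem.mp (List.all_eq_true.mp stab5T_sub s hs)
  have key : ∀ i ∈ ([23, 0, 1, 2, 3, 5, 14, 17] : List ℕ), s.getD i 0 = i := by
    intro i hi
    have h24 : i < 24 := by
      simp only [List.mem_cons, List.not_mem_nil, or_false] at hi
      omega
    have h1 := hf i hi
    rw [hst.apply_pt h24] at h1
    have h2 := congrArg idx h1
    rwa [idx_pt (hst.getD_lt _), idx_pt h24] at h2
  have h3 := List.all_eq_true.mp e16_filter s hsL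
  rw [key 5 (by simp), key 14 (by simp), key 17 (by simp)] at h3
  simp only [beq_self_eq_true, Bool.and_self, Bool.not_true, Bool.false_or] at h3
  exact ⟨s, List.contains_iff_mem.mp h3, eq_tperm hst (HasTable.permOK hst)⟩

theorem ptStab_O0_sq {g : Equiv.Perm GolayPt} (hg : g ∈ ptStab O0) : g * g = 1 := by
  obtain ⟨s, hs, rfl⟩ := exists_e16 hg
  exact (e16_mem hs).2.2

/-- The pointwise stabiliser of the base octad is self-centralizing in `M24`. -/
theorem cent_ptStab_O0 {g : Equiv.Perm GolayPt} (hg : g ∈ M24)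
    (hc : ∀ e ∈ ptStab O0, e * g = g * e) : g ∈ ptStab O0 := by
  have he1 := e16_mem e1_mem
  have hp1 := he1.1
  have hc1 := hc _ he1.2.1
  -- the image of the point 4 is moved by `e1`
  obtain ⟨c, hcdef⟩ : ∃ c, c = idx (g (pt 4)) := ⟨_, rfl⟩
  have hclt : c < 24 := by rw [hcdef]; exact idx_lt _
  have hg4 : g (pt 4) = pt c := by rw [hcdef, pt_idx]
  have hmoved : e1T.getD c 0 ≠ c := by
    intro hfix
    have h1 : tperm e1T (g (pt 4)) = g (pt 4) := by
      rw [hg4, (hasTable_tperm hp1).apply_pt hclt, hfix]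
    have h2 : (tperm e1T * g) (pt 4) = (g * tperm e1T) (pt 4) := by rw [hc1]
    rw [Equiv.Perm.mul_apply, Equiv.Perm.mul_apply, h1] at h2
    have h3 := g.injective h2
    rw [(hasTable_tperm hp1).apply_pt (by norm_num)] at h3
    have h4 := congrArg idx h3
    rw [idx_pt (by norm_num), idx_pt ((hasTable_tperm hp1).getD_lt _)] at h4
    have h5 := (e1_fix 4 (by norm_num)).mp h4.symm
    simp at h5
  have hr := List.all_eq_true.mp e16_reg c (List.mem_range.mpr hclt)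
  rw [Bool.or_eq_true, beq_iff_eq] at hr
  rcases hr with hr | hr
  · exact absurd hr hmoved
  rw [List.any_eq_true] at hr
  obtain ⟨s, hs, hs4⟩ := hr
  rw [beq_iff_eq] at hs4
  have hsm := e16_mem hs
  obtain ⟨h', hh'⟩ : ∃ h', h' = (tperm s)⁻¹ * g := ⟨_, rfl⟩
  have hh'M : h' ∈ M24 := by rw [hh']; exact M24.mul_mem (M24.inv_mem hsm.2.1.1) hg
  have hh'4 : h' (pt 4) = pt 4 := by
    rw [hh', Equiv.Perm.mul_apply, Equiv.Perm.inv_eq_iff_eq,
      (hasTable_tperm hsm.1).apply_pt (by norm_num), hs4, hg4]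
  have hcomm : ∀ s' ∈ e16L, tperm s' * h' = h' * tperm s' := by
    intro s' hs'
    have hs'm := e16_mem hs'
    have e : tperm s' * (tperm s)⁻¹ = (tperm s)⁻¹ * tperm s' :=
      comm_of_sq (ptStab O0) (fun x hx => ptStab_O0_sq hx) hs'm.2.1
        ((ptStab O0).inv_mem hsm.2.1)
    rw [hh', ← mul_assoc, e, mul_assoc, hc _ hs'm.2.1, mul_assoc]
  have hfixc : ∀ c', c' < 24 → e1T.getD c' 0 ≠ c' → h' (pt c') = pt c' := by
    intro c' hc'lt hc'
    have hr := List.all_eq_true.mp e16_reg c' (List.mem_range.mpr hc'lt)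
    rw [Bool.or_eq_true, beq_iff_eq] at hr
    rcases hr with hr | hr
    · exact absurd hr hc'
    rw [List.any_eq_true] at hr
    obtain ⟨s', hs', hs'4⟩ := hr
    rw [beq_iff_eq] at hs'4
    have hs'm := e16_mem hs'
    have h2 : (h' * tperm s') (pt 4) = (tperm s' * h') (pt 4) := by rw [hcomm s' hs']
    rw [Equiv.Perm.mul_apply, Equiv.Perm.mul_apply, hh'4,
      (hasTable_tperm hs'm.1).apply_pt (by norm_num), hs'4] at h2
    exact h2
  -- conjugate to the base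
  obtain ⟨w, hw⟩ : ∃ w, w = tperm wT := ⟨_, rfl⟩
  have hwM : w ∈ M24 := by rw [hw]; exact tperm_mem_M24 wT_ok.1 wT_ok.2
  have hWt : HasTable w wT := by rw [hw]; exact hasTable_tperm wT_ok.1
  have hfix : w * h' * w⁻¹ ∈ M24 ⊓ fixing [4, 5, 3, 2, 1, 0, 23] := by
    refine ⟨M24.mul_mem (M24.mul_mem hwM hh'M) (M24.inv_mem hwM), ?_⟩
    intro i hi
    have h1 := List.all_eq_true.mp wT_pre i hi
    simp only [Bool.and_eq_true, beq_iff_eq, Bool.not_eq_true', beq_eq_false_iff_ne, ne_eq,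
      decide_eq_true_eq] at h1
    obtain ⟨⟨h1a, h1b⟩, h1c⟩ := h1
    have h2 : w (pt ((invT wT).getD i 0)) = pt i := by rw [hWt.apply_pt h1c, h1a]
    have h3 : w⁻¹ (pt i) = pt ((invT wT).getD i 0) := by
      rw [Equiv.Perm.inv_eq_iff_eq, h2]
    rw [Equiv.Perm.mul_apply, Equiv.Perm.mul_apply, h3, hfixc _ h1c h1b, h2]
  rw [fix7 le_rfl, Subgroup.mem_bot] at hfix
  have hh'1 : h' = 1 := by
    have e : h' = w⁻¹ * (w * h' * w⁻¹) * w := by group
    rw [e, hfix]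
    group
  have hgs : g = tperm s := by
    rw [hh'] at hh'1
    exact (inv_mul_eq_one.mp hh'1).symm
  rw [hgs]
  exact hsm.2.1

/-! ### Arbitrary octads -/

theorem ptStab_conj {k : Equiv.Perm GolayPt} (hk : k ∈ M24) (O : Finset GolayPt)
    {g : Equiv.Perm GolayPt} : g ∈ ptStab (k • O) ↔ k⁻¹ * g * k ∈ ptStab O := by
  rw [mem_ptStab, mem_ptStab]
  constructor
  · rintro ⟨hM, hfix⟩
    refine ⟨M24.mul_mem (M24.mul_mem (M24.inv_mem hk) hM) hk, fun q hq => ?_⟩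
    have h1 := hfix (k q) (Finset.mem_smul_finset.mpr ⟨q, hq, rfl⟩)
    rw [Equiv.Perm.mul_apply, Equiv.Perm.mul_apply, h1]
    simp
  · rintro ⟨hM, hfix⟩
    refine ⟨?_, fun q hq => ?_⟩
    · have e : g = k * (k⁻¹ * g * k) * k⁻¹ := by group
      rw [e]
      exact M24.mul_mem (M24.mul_mem hk hM) (M24.inv_mem hk)
    · obtain ⟨q0, hq0, rfl⟩ := Finset.mem_smul_finset.mp hq
      have h1 := hfix q0 hq0
      rw [Equiv.Perm.mul_apply, Equiv.Perm.mul_apply] at h1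
      have h2 := congrArg k h1
      simpa using h2

theorem ptStab_sq {O : Finset GolayPt} (hO : O ∈ octads) {g : Equiv.Perm GolayPt}
    (hg : g ∈ ptStab O) : g * g = 1 := by
  obtain ⟨k, hk, rfl⟩ := exists_smul_octad hO
  have h1 := ptStab_O0_sq ((ptStab_conj hk O0).mp hg)
  have e : g * g = k * ((k⁻¹ * g * k) * (k⁻¹ * g * k)) * k⁻¹ := by group
  rw [e, h1]
  group

theorem cent_ptStab {O : Finset GolayPt} (hO : O ∈ octads) {g : Equiv.Perm GolayPt}
    (hg : g ∈ M24) (hc : ∀ e ∈ ptStab O, e * g = g * e) : g ∈ ptStab O := by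
  obtain ⟨k, hk, rfl⟩ := exists_smul_octad hO
  rw [ptStab_conj hk]
  apply cent_ptStab_O0 (M24.mul_mem (M24.mul_mem (M24.inv_mem hk) hg) hk)
  intro e0 he0
  have he : k * e0 * k⁻¹ ∈ ptStab (k • O0) := by
    rw [ptStab_conj hk]
    have e : k⁻¹ * (k * e0 * k⁻¹) * k = e0 := by group
    rw [e]
    exact he0
  have h1 := hc _ he
  calc e0 * (k⁻¹ * g * k) = k⁻¹ * ((k * e0 * k⁻¹) * g) * k := by group
    _ = k⁻¹ * (g * (k * e0 * k⁻¹)) * k := by rw [h1]
    _ = k⁻¹ * g * k * e0 := by group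

/-! ### Involutions of `M22` -/

theorem m22_invol_Q (z : ↥Spor.M22) (hz : orderOf z = 2) :
    ∃ Q : Subgroup ↥Spor.M22, IsPGroup 2 Q ∧
      Subgroup.centralizer ({z} : Set ↥Spor.M22) ≤ Subgroup.normalizer (Q : Set ↥Spor.M22) ∧
      Subgroup.centralizer (Q : Set ↥Spor.M22) ≤ Q := by
  obtain ⟨hzM, hz23, hz0⟩ := sporM22_fix z.2
  have hz' : orderOf (z : Equiv.Perm GolayPt) = 2 := by
    rw [Subgroup.orderOf_coe]
    exact hz
  obtain ⟨O, hOdef⟩ : ∃ O : Finset GolayPt,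
      O = Finset.univ.filter fun p : GolayPt => (z : Equiv.Perm GolayPt) p = p := ⟨_, rfl⟩
  have hmemO : ∀ q, q ∈ O ↔ (z : Equiv.Perm GolayPt) q = q := by
    intro q
    rw [hOdef, Finset.mem_filter]
    simp
  have hO : O ∈ octads := by
    rcases Cfsg.Agent.Lib.Helper96.m24_involution_classes.1 _ hzM hz' with h | h
    · rw [hOdef]; exact h
    · exact absurd hz23 (h _)
  have h23O : pt 23 ∈ O := (hmemO _).mpr hz23
  have h0O : pt 0 ∈ O := (hmemO _).mpr hz0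
  have hEle : ∀ e ∈ ptStab O, e ∈ Spor.M22 := by
    intro e he
    rw [sporM22_eq]
    refine ⟨he.1, fun i hi => ?_⟩
    rw [List.mem_cons, List.mem_singleton] at hi
    rcases hi with rfl | rfl
    · exact he.2 _ h0O
    · exact he.2 _ h23O
  have hstab : ∀ c : ↥Spor.M22, c ∈ Subgroup.centralizer ({z} : Set ↥Spor.M22) →
      ∀ q ∈ O, (c : Equiv.Perm GolayPt) q ∈ O := by
    intro c hc q hq
    have h1 := Subgroup.mem_centralizer_iff.mp hc z (Set.mem_singleton _)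
    have h2 : (z : Equiv.Perm GolayPt) * c = c * z := congrArg Subtype.val h1
    rw [hmemO] at hq ⊢
    have h3 : ((z : Equiv.Perm GolayPt) * c) q = ((c : Equiv.Perm GolayPt) * z) q := by rw [h2]
    rw [Equiv.Perm.mul_apply, Equiv.Perm.mul_apply, hq] at h3
    exact h3
  have hconj : ∀ c : ↥Spor.M22, c ∈ Subgroup.centralizer ({z} : Set ↥Spor.M22) →
      ∀ x : Equiv.Perm GolayPt, x ∈ ptStab O →
        (c : Equiv.Perm GolayPt) * x * (c : Equiv.Perm GolayPt)⁻¹ ∈ ptStab O := by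
    intro c hc x hx
    have hcM := (sporM22_fix c.2).1
    refine ⟨M24.mul_mem (M24.mul_mem hcM hx.1) (M24.inv_mem hcM), fun q hq => ?_⟩
    have h1 := hstab c⁻¹ (Subgroup.inv_mem _ hc) q hq
    have h2 : ((c⁻¹ : ↥Spor.M22) : Equiv.Perm GolayPt) = (c : Equiv.Perm GolayPt)⁻¹ := rfl
    rw [h2] at h1
    rw [Equiv.Perm.mul_apply, Equiv.Perm.mul_apply, hx.2 _ h1]
    simp
  refine ⟨(ptStab O).subgroupOf Spor.M22, ?_, ?_, ?_⟩
  · intro g
    refine ⟨1, ?_⟩
    have h1 := ptStab_sq hO (Subgroup.mem_subgroupOf.mp g.2)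
    apply Subtype.ext
    apply Subtype.ext
    rw [pow_one, pow_two]
    exact h1
  · intro c hc
    rw [Subgroup.mem_normalizer_iff]
    intro x
    rw [Subgroup.mem_subgroupOf, Subgroup.mem_subgroupOf]
    constructor
    · intro hx
      exact hconj c hc _ hx
    · intro hx
      have h1 := hconj c⁻¹ (Subgroup.inv_mem _ hc) _ hx
      have e : ((c⁻¹ : ↥Spor.M22) : Equiv.Perm GolayPt) *
          ((c * x * c⁻¹ : ↥Spor.M22) : Equiv.Perm GolayPt) *
          ((c⁻¹ : ↥Spor.M22) : Equiv.Perm GolayPt)⁻¹ = (x : Equiv.Perm GolayPt) := by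
        push_cast
        group
      rw [e] at h1
      exact h1
  · intro y hy
    rw [Subgroup.mem_subgroupOf]
    apply cent_ptStab hO (sporM22_fix y.2).1
    intro e he
    have h1 := Subgroup.mem_centralizer_iff.mp hy ⟨e, hEle e he⟩
      (Subgroup.mem_subgroupOf.mpr he)
    exact congrArg Subtype.val h1

/-- **Radical 2-subgroups of `M22`**: a non-trivial 2-subgroup `D` of `M22` with
`O_2(N(D)) = D` contains its centralizer. -/
theorem m22_radical_cent_le (D : Subgroup ↥Spor.M22) (hD : IsPGroup 2 D) (hne : D ≠ ⊥)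
    (hrad : (Cfsg.pCore 2 ↥(Subgroup.normalizer (D : Set ↥Spor.M22))).map
      (Subgroup.normalizer (D : Set ↥Spor.M22)).subtype = D) :
    Subgroup.centralizer (D : Set ↥Spor.M22) ≤ D :=
  radical_cent_le m22_invol_Q D hD hne hrad

end Cfsg.Agent.Lib.Helper95
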