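import Mathlib
import Cfsg.Agent.Lib.Helper95.M22BlockA
import Cfsg.Agent.Lib.Helper95.M22BlockB

/-!
# Group-theoretic facts on `M22` used for its 2-blocks

* `card`: the order of `M22`;
* `factI`: a non-trivial 2-subgroup `D` with `O_2(N(D)) = D` contains its centralizer;
* `fact11`, `fact7`, `fact5`: elements of order 11, 7, 5 whose cyclic subgroups have normalizers
  of order at most 55, 21, 20; the element of order 5 is conjugate to its square.
-/

set_option autoImplicit false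

namespace Cfsg.Agent.Lib.Helper95.M22Block

open Cfsg

theorem card : Nat.card ↥Cfsg.Spor.M22 = 443520 := Cfsg.Agent.Lib.Helper95.card_sporM22

theorem factI : ∀ D : Subgroup ↥Cfsg.Spor.M22, IsPGroup 2 D → D ≠ ⊥ →
    (Cfsg.pCore 2 ↥(Subgroup.normalizer (D : Set ↥Cfsg.Spor.M22))).map
      (Subgroup.normalizer (D : Set ↥Cfsg.Spor.M22)).subtype = D →
    Subgroup.centralizer (D : Set ↥Cfsg.Spor.M22) ≤ D :=
  Cfsg.Agent.Lib.Helper95.m22_radical_cent_le

theorem fact11 : ∃ x : ↥Cfsg.Spor.M22, orderOf x = 11 ∧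
    Nat.card ↥(Subgroup.normalizer ((Subgroup.zpowers x : Subgroup ↥Cfsg.Spor.M22) :
      Set ↥Cfsg.Spor.M22)) ≤ 55 :=
  Cfsg.Agent.Lib.Helper95.C11.main

theorem fact7 : ∃ x : ↥Cfsg.Spor.M22, orderOf x = 7 ∧
    Nat.card ↥(Subgroup.normalizer ((Subgroup.zpowers x : Subgroup ↥Cfsg.Spor.M22) :
      Set ↥Cfsg.Spor.M22)) ≤ 21 :=
  Cfsg.Agent.Lib.Helper95.C7.main

theorem fact5 : ∃ x g : ↥Cfsg.Spor.M22, orderOf x = 5 ∧
    Nat.card ↥(Subgroup.normalizer ((Subgroup.zpowers x : Subgroup ↥Cfsg.Spor.M22) :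
      Set ↥Cfsg.Spor.M22)) ≤ 20 ∧ g * x * g⁻¹ = x ^ 2 :=
  Cfsg.Agent.Lib.Helper95.C5.main

end Cfsg.Agent.Lib.Helper95.M22Block
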