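import Mathlib

/-!
# Sylow counting with a bound on the normaliser of a subgroup of prime order
-/

set_option autoImplicit false

namespace Cfsg.Agent.Lib.Helper95

/-- If `p` divides `|G|` exactly once and some element `x` of order `p` has
`|N_G(⟨x⟩)| ≤ B`, then every subgroup `H` of order divisible by `p` has a subgroup (the
normaliser of a Sylow `p`-subgroup) whose order `m` is a multiple of `p`, at most `B`, with
`|H| / m ≡ 1 (mod p)`. -/
theorem sylow_norm_bound {G : Type*} [Group G] [Finite G] (p : ℕ) [hp : Fact p.Prime] (x : G)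
    (hx : orderOf x = p) (hG : ¬ p ^ 2 ∣ Nat.card G) (B : ℕ)
    (hB : Nat.card ↥(Subgroup.normalizer ((Subgroup.zpowers x : Subgroup G) : Set G)) ≤ B)
    (H : Subgroup G) (hpH : p ∣ Nat.card H) :
    ∃ m, m ∣ Nat.card H ∧ p ∣ m ∧ m ≤ B ∧ Nat.card H / m ≡ 1 [MOD p] := by
  have hfac : ∀ n : ℕ, n ≠ 0 → p ∣ n → ¬ p ^ 2 ∣ n → n.factorization p = 1 := by
    intro n hn h1 h2
    have hge : 0 < n.factorization p := hp.out.factorization_pos_of_dvd hn h1
    have hlt : n.factorization p < 2 := by
      by_contra hcon
      exact h2 ((hp.out.pow_dvd_iff_le_factorization hn).2 (not_lt.1 hcon))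
    omega
  have hHG : Nat.card H ∣ Nat.card G := Subgroup.card_subgroup_dvd_card H
  have hfG : (Nat.card G).factorization p = 1 :=
    hfac _ Nat.card_pos.ne' (hpH.trans hHG) hG
  have hfH : (Nat.card H).factorization p = 1 :=
    hfac _ Nat.card_pos.ne' hpH (fun h => hG (h.trans hHG))
  let P : Sylow p H := default
  have hPc : Nat.card P = p := by
    rw [Sylow.card_eq_multiplicity, hfH, pow_one]
  set P' : Subgroup G := (P : Subgroup H).map H.subtype with hP'
  have hP'c : Nat.card P' = p := by
    rw [hP', Subgroup.card_map_of_injective H.subtype_injective]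
    exact hPc
  let Q1 : Sylow p G := Sylow.ofCard P' (by rw [hP'c, hfG, pow_one])
  let Q2 : Sylow p G := Sylow.ofCard (Subgroup.zpowers x) (by
    rw [Nat.card_zpowers, hx, hfG, pow_one])
  obtain ⟨g, hg⟩ := MulAction.exists_smul_eq G Q2 Q1
  have e : P' = (Subgroup.zpowers x).map (MulAut.conj g).toMonoidHom := by
    have h1 : ((g • Q2 : Sylow p G) : Subgroup G) = (Q1 : Subgroup G) := by rw [hg]
    rw [Sylow.coe_subgroup_smul] at h1
    exact h1.symm
  have hN : Nat.card ↥(Subgroup.normalizer (P' : Set G)) =
      Nat.card ↥(Subgroup.normalizer ((Subgroup.zpowers x : Subgroup G) : Set G)) := by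
    rw [e, ← Subgroup.map_equiv_normalizer_eq,
      Subgroup.card_map_of_injective (MulAut.conj g).injective]
  refine ⟨Nat.card ↥(Subgroup.normalizer ((P : Subgroup H) : Set H)),
    Subgroup.card_subgroup_dvd_card _, ?_, ?_, ?_⟩
  · have h1 : Nat.card ↥(P : Subgroup H) ∣
        Nat.card ↥(Subgroup.normalizer ((P : Subgroup H) : Set H)) :=
      Subgroup.card_dvd_of_le Subgroup.le_normalizer
    rwa [hPc] at h1
  · have h1 : (Subgroup.normalizer ((P : Subgroup H) : Set H)).map H.subtype ≤
        Subgroup.normalizer (P' : Set G) := Subgroup.le_normalizer_map _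
    have h2 := Subgroup.card_le_of_le h1
    rw [Subgroup.card_map_of_injective H.subtype_injective, hN] at h2
    exact h2.trans hB
  · have h1 : Nat.card (Sylow p H) = (Subgroup.normalizer ((P : Subgroup H) : Set H)).index :=
      Sylow.card_eq_index_normalizer P
    have h2 := card_sylow_modEq_one p H
    have h3 : Nat.card H / Nat.card ↥(Subgroup.normalizer ((P : Subgroup H) : Set H)) =
        (Subgroup.normalizer ((P : Subgroup H) : Set H)).index := by
      rw [← Subgroup.card_mul_index (Subgroup.normalizer ((P : Subgroup H) : Set H)),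
        Nat.mul_div_cancel_left _ Nat.card_pos]
    rw [h3, ← h1]
    exact h2

end Cfsg.Agent.Lib.Helper95
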