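import Mathlib
import Cfsg.Prelude.Def_Spor_Mathieu
import Cfsg.Agent.Lib.Helper9.M22Simple
import Cfsg.Agent.Lib.Helper95.NormBound2
import Cfsg.Agent.Lib.Helper95.M22BlockB
import Cfsg.Agent.Lib.Helper95.Rank3Core
import Cfsg.Agent.Lib.Helper95.SylowNorm

/-!
# The two-point stabiliser of `M24` has no subgroup of index 56 or 210
-/

set_option autoImplicit false
set_option linter.style.haveILetI false

namespace Cfsg.Agent.Lib.Helper95.M22Idx

open Cfsg MulAction Cfsg.Agent.Lib.Helper9 Cfsg.Agent.Lib.Helper95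

/-- Orders of pointwise stabilisers of at most five points in `M24`. -/
theorem card_fixing_list (L : List GolayPt) (hL : L.Nodup) (hk : L.length ≤ 5) :
    Nat.card ↥(fixingSubgroup ↥M24 {x : GolayPt | x ∈ L}) *
      (Nat.choose 24 L.length * L.length.factorial) = 244823040 := by
  have hs : ({x : GolayPt | x ∈ L} : Set GolayPt).ncard = L.length := by
    have : ({x : GolayPt | x ∈ L} : Set GolayPt) = ↑L.toFinset := by
      ext x
      simp
    rw [this, Set.ncard_coe_finset, List.toFinset_card_of_nodup hL]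
  have h5 := m24_five_transitive
  have h1 : IsMultiplyPretransitive ↥M24 GolayPt ({x : GolayPt | x ∈ L} : Set GolayPt).ncard := by
    rw [hs]
    exact isMultiplyPretransitive_of_le (n := 5) hk (by rw [card_golayPt]; norm_num)
  have h2 := IsMultiplyPretransitive.index_of_fixingSubgroup_eq (G := ↥M24)
    ({x : GolayPt | x ∈ L} : Set GolayPt) h1
  have h3 := Subgroup.card_mul_index (fixingSubgroup ↥M24 {x : GolayPt | x ∈ L})
  rw [h2, card_golayPt, hs, card_M24] at h3
  exact h3

section TwoPoint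

variable (p q : GolayPt)

/-- The two-point stabiliser. -/
abbrev Kpq : Subgroup ↥M24 := stabilizer ↥M24 p ⊓ stabilizer ↥M24 q

theorem card_fixK (L : List GolayPt) :
    Nat.card ↥(fixingSubgroup ↥(Kpq p q) {x : GolayPt | x ∈ L}) =
      Nat.card ↥(fixingSubgroup ↥M24 {x : GolayPt | x ∈ p :: q :: L}) := by
  rw [← Subgroup.card_map_of_injective (Kpq p q).subtype_injective]
  congr 2
  ext g
  simp only [Subgroup.mem_map, mem_fixingSubgroup_iff, Set.mem_ofPred_eq, List.mem_cons]
  constructor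
  · rintro ⟨x, hx, rfl⟩ y hy
    rcases hy with rfl | rfl | hy
    · exact x.2.1
    · exact x.2.2
    · exact hx y hy
  · intro h
    exact ⟨⟨g, ⟨h p (Or.inl rfl), h q (Or.inr (Or.inl rfl))⟩⟩,
      fun y hy => h y (Or.inr (Or.inr hy)), rfl⟩

/-- The 22 remaining points, as an invariant subset. -/
def omegaSub : SubMulAction ↥(Kpq p q) GolayPt where
  carrier := {x | x ≠ p ∧ x ≠ q}
  smul_mem' := by
    intro g x hx
    have hp : g • p = p := g.2.1
    have hq : g • q = q := g.2.2
    refine ⟨fun h => hx.1 ?_, fun h => hx.2 ?_⟩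
    · exact smul_left_cancel g (h.trans hp.symm)
    · exact smul_left_cancel g (h.trans hq.symm)

variable {p q}

theorem card_omega (hpq : p ≠ q) : Nat.card ↥(omegaSub p q) = 22 := by
  show Nat.card ↥({x : GolayPt | x ≠ p ∧ x ≠ q} : Set GolayPt) = 22
  rw [_root_.Nat.card_coe_set_eq]
  have e : ({x : GolayPt | x ≠ p ∧ x ≠ q} : Set GolayPt) =
      ↑((Finset.univ.erase p).erase q) := by
    ext x
    simp [and_comm]
  rw [e, Set.ncard_coe_finset, Finset.card_erase_of_mem, Finset.card_erase_of_mem,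
    Finset.card_univ]
  · rfl
  · exact Finset.mem_univ _
  · exact Finset.mem_erase.2 ⟨hpq.symm, Finset.mem_univ _⟩

theorem stab_eq_fix1 (a : GolayPt) :
    stabilizer ↥(Kpq p q) a = fixingSubgroup ↥(Kpq p q) {x : GolayPt | x ∈ [a]} := by
  ext g
  simp [mem_fixingSubgroup_iff]

theorem stab_eq_fix2 (a c : GolayPt) :
    stabilizer ↥(Kpq p q) a ⊓ stabilizer ↥(Kpq p q) c =
      fixingSubgroup ↥(Kpq p q) {x : GolayPt | x ∈ [a, c]} := by
  ext g
  simp [mem_fixingSubgroup_iff]

theorem stab_eq_fix3 (a c d : GolayPt) :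
    stabilizer ↥(Kpq p q) a ⊓ stabilizer ↥(Kpq p q) c ⊓ stabilizer ↥(Kpq p q) d =
      fixingSubgroup ↥(Kpq p q) {x : GolayPt | x ∈ [a, c, d]} := by
  ext g
  simp [mem_fixingSubgroup_iff, and_assoc]

theorem card3 (hpq : p ≠ q) {a : GolayPt} (hap : a ≠ p) (haq : a ≠ q) :
    Nat.card ↥(stabilizer ↥(Kpq p q) a) = 20160 := by
  rw [stab_eq_fix1, card_fixK]
  have h := card_fixing_list [p, q, a] (by simp [hpq, hap.symm, haq.symm]) (by simp)
  have e : Nat.choose 24 3 * Nat.factorial 3 = 12144 := by decide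
  simp only [List.length_cons, List.length_nil] at h
  rw [e] at h
  omega

theorem card4 (hpq : p ≠ q) {a c : GolayPt} (hap : a ≠ p) (haq : a ≠ q) (hcp : c ≠ p)
    (hcq : c ≠ q) (hac : a ≠ c) :
    Nat.card ↥(stabilizer ↥(Kpq p q) a ⊓ stabilizer ↥(Kpq p q) c) = 960 := by
  rw [stab_eq_fix2, card_fixK]
  have h := card_fixing_list [p, q, a, c]
    (by simp [hpq, hap.symm, haq.symm, hcp.symm, hcq.symm, hac]) (by simp)
  have e : Nat.choose 24 4 * Nat.factorial 4 = 255024 := by decide
  simp only [List.length_cons, List.length_nil] at h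
  rw [e] at h
  omega

theorem card5 (hpq : p ≠ q) {a c d : GolayPt} (hap : a ≠ p) (haq : a ≠ q) (hcp : c ≠ p)
    (hcq : c ≠ q) (hdp : d ≠ p) (hdq : d ≠ q) (hac : a ≠ c) (had : a ≠ d) (hcd : c ≠ d) :
    Nat.card ↥(stabilizer ↥(Kpq p q) a ⊓ stabilizer ↥(Kpq p q) c ⊓
      stabilizer ↥(Kpq p q) d) = 48 := by
  rw [stab_eq_fix3, card_fixK]
  have h := card_fixing_list [p, q, a, c, d]
    (by simp [hpq, hap.symm, haq.symm, hcp.symm, hcq.symm, hdp.symm, hdq.symm, hac, had, hcd])
    (by simp)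
  have e : Nat.choose 24 5 * Nat.factorial 5 = 5100480 := by decide
  simp only [List.length_cons, List.length_nil] at h
  rw [e] at h
  omega

/-- No subgroup of order 7920. -/
theorem card_ne_7920 (hpq : p ≠ q) (H : Subgroup ↥(Kpq p q)) : Nat.card H ≠ 7920 := by
  intro hH
  classical
  haveI : Fintype ↥(omegaSub p q) := Fintype.ofFinite _
  have hne : ∀ a c : ↥(omegaSub p q), a ≠ c → (a : GolayPt) ≠ (c : GolayPt) :=
    fun a c h h' => h (Subtype.ext h')
  have hy : R3.Hyp ↥(omegaSub p q) H := by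
    refine ⟨?_, ?_, ?_, ?_, hH⟩
    · rw [← Nat.card_eq_fintype_card, card_omega hpq]
    · intro a
      rw [SubMulAction.stabilizer_of_subMul]
      exact card3 hpq a.2.1 a.2.2
    · intro a c hac
      rw [SubMulAction.stabilizer_of_subMul, SubMulAction.stabilizer_of_subMul]
      exact card4 hpq a.2.1 a.2.2 c.2.1 c.2.2 (hne a c hac)
    · intro a c d hac had hcd
      rw [SubMulAction.stabilizer_of_subMul, SubMulAction.stabilizer_of_subMul,
        SubMulAction.stabilizer_of_subMul]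
      exact card5 hpq a.2.1 a.2.2 c.2.1 c.2.2 d.2.1 d.2.2 (hne a c hac) (hne a d had)
        (hne c d hcd)
  exact hy.false

/-- No subgroup of order 2112. -/
theorem card_ne_2112 (hpq : p ≠ q) (H : Subgroup ↥(Kpq p q)) : Nat.card H ≠ 2112 := by
  intro hH
  obtain ⟨g, hg, hp, hq⟩ := exists_map_two hpq
  let e1 : ↥(Kpq p q) ≃* ↥(M24 ⊓ fixing [0, 23]) :=
    ((Kpq p q).equivMapOfInjective _ (conj_comp_subtype_injective g)).trans
      (MulEquiv.subgroupCongr (map_conj_stabilizer_two hg hp hq))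
  let e : ↥(Kpq p q) ≃* ↥Spor.M22 := e1.trans (MulEquiv.subgroupCongr sporM22_eq.symm)
  obtain ⟨x, hx, hN⟩ := C11.main
  haveI : Fact (Nat.Prime 11) := ⟨by norm_num⟩
  have hcard : Nat.card ↥(Kpq p q) = 443520 := card_stabilizer_two_M24 hpq
  have hx' : orderOf (e.symm x) = 11 := by
    rw [MulEquiv.orderOf_eq]
    exact hx
  have hN' : Nat.card ↥(Subgroup.normalizer
      ((Subgroup.zpowers (e.symm x) : Subgroup ↥(Kpq p q)) : Set ↥(Kpq p q))) ≤ 55 := by
    have h1 : (Subgroup.zpowers (e.symm x) : Subgroup ↥(Kpq p q)) =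
        (Subgroup.zpowers x).map e.symm.toMonoidHom := by
      rw [MonoidHom.map_zpowers]
      rfl
    rw [h1, ← Subgroup.map_equiv_normalizer_eq,
      Subgroup.card_map_of_injective e.symm.injective]
    exact hN
  obtain ⟨m, hm1, hm2, hm3, hm4⟩ := sylow_norm_bound 11 (e.symm x) hx'
    (by rw [hcard]; norm_num) 55 hN' H (by rw [hH]; norm_num)
  rw [hH] at hm1 hm4
  have key : ∀ m ≤ 55, m ∣ 2112 → 11 ∣ m → ¬ (2112 / m ≡ 1 [MOD 11]) := by
    unfold Nat.ModEq
    decide
  exact key m hm3 hm1 hm2 hm4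

/-- The two-point stabiliser has no subgroups of index 56 or 210. -/
theorem index_ne (hpq : p ≠ q) (H : Subgroup ↥(Kpq p q)) : H.index ≠ 56 ∧ H.index ≠ 210 := by
  have hcard : Nat.card ↥(Kpq p q) = 443520 := card_stabilizer_two_M24 hpq
  have h1 := Subgroup.card_mul_index H
  rw [hcard] at h1
  constructor
  · intro h
    rw [h] at h1
    exact card_ne_7920 hpq H (by omega)
  · intro h
    rw [h] at h1
    exact card_ne_2112 hpq H (by omega)

end TwoPoint

end Cfsg.Agent.Lib.Helper95.M22Idx
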