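import Cfsg.Agent.Lib.Helper95.FamStab

/-!
# The stabiliser of a sextet

Transitivity of the group of the code on sextets, the number of sextets and the order of a
sextet stabiliser.
-/

set_option autoImplicit false
open scoped Pointwise
open Cfsg

namespace Cfsg.Agent.Lib.Helper95

open Cfsg.Agent.Lib.Helper9

/-- The base sextet, through the tetrad `{∞, 0, 1, 2}`. -/
def sx0L : List ℕ := [8388615, 147496, 268544, 1082880, 2621632, 4268048]

theorem sx0L_mem : sx0L ∈ sxL := by decide +kernel

theorem sx0L_ok : sxOK sx0L = true := sxL_mem_ok sx0L_mem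

theorem sx0_mem_sextets : sxSet sx0L ∈ sextets := sxSet_mem_sextets sx0L_ok

/-- The group of the code is transitive on sextets. -/
theorem exists_smul_sextet {S : Finset (Finset GolayPt)} (hS : S ∈ sextets) :
    ∃ x ∈ M24, x • sxSet sx0L = S := by
  have hne : S.Nonempty := by
    rw [← Finset.card_pos, hS.1]
    norm_num
  obtain ⟨t, ht⟩ := hne
  obtain ⟨σ, hσ, hσt⟩ := exists_smul_of_tchain (bs := [23, 0, 1, 2]) (by decide) m24_tchain4
    (Y := t) (hS.2.1 t ht)
  refine ⟨σ, hσ, sextet_eq_of_common (smul_sextet_mem hσ sx0_mem_sextets) hS (t := t) ?_ ht⟩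
  rw [← hσt]
  exact Finset.smul_mem_smul_finset (mem_sxSet.mpr ⟨8388615, by decide, rfl⟩)

theorem orbit_sextet {S : Finset (Finset GolayPt)} (hS : S ∈ sextets) :
    MulAction.orbit ↥M24 S = sextets := by
  ext X
  constructor
  · rintro ⟨g, rfl⟩
    exact smul_sextet_mem g.2 hS
  · intro hX
    obtain ⟨x, hx, hxS⟩ := exists_smul_sextet hS
    obtain ⟨y, hy, hyX⟩ := exists_smul_sextet hX
    refine ⟨⟨y * x⁻¹, M24.mul_mem hy (M24.inv_mem hx)⟩, ?_⟩
    show (y * x⁻¹) • S = X
    rw [mul_smul, ← hxS, inv_smul_smul, hyX]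

theorem ncard_sextets : sextets.ncard = 1771 := by
  have h := ncard_sextets_filter (fun _ => True) (fun _ => true) (fun _ _ => by simp)
  have e : {S | S ∈ sextets ∧ True} = sextets := by
    ext S
    simp
  rw [e, List.filter_true, sxL_length] at h
  exact h

theorem card_sextet_stab {S : Finset (Finset GolayPt)} (hS : S ∈ sextets) :
    Nat.card ↥(MulAction.stabilizer ↥M24 S) = 138240 := by
  have h := card_stabilizer_mul_orbit S
  rw [orbit_sextet hS, ncard_sextets] at h
  omega

end Cfsg.Agent.Lib.Helper95
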