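import Cfsg.Agent.Lib.Helper95.OctInvData
import Cfsg.Agent.Lib.Helper95.GL32

/-!
# Checks for the centraliser of an involution of `M₂₄` fixing an octad
-/

set_option autoImplicit false
open Cfsg

namespace Cfsg.Agent.Lib.Helper95

open Cfsg.Agent.Lib.Helper9

theorem oq_span : spanOK2 oqGens oqL = true := by decide +kernel

theorem oq_nodup : oqL.Nodup := by decide +kernel

theorem oq_length : oqL.length = 128 := by decide +kernel

theorem oz_ok : permOK ozT = true ∧ tableOK ozT = true ∧ compT ozT ozT = idT ∧ ozT ≠ idT ∧
    ozT ∈ oqL := by decide +kernel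

theorem oz_fix : ∀ i < 24, (Nat.testBit 8536111 i = true ↔ ozT.getD i 0 = i) := by
  decide +kernel

theorem oq_gens_ok : oqGens.all (fun g => tableOK g && compT g ozT == compT ozT g &&
    oqL.contains g) = true := by decide +kernel

theorem oq_sq : oqL.all (fun S => compT S S == idT || compT S S == ozT) = true := by
  decide +kernel

theorem oq_center : oqL.all (fun S => S == idT || S == ozT ||
    oqGens.any (fun g => compT S g != compT g S)) = true := by decide +kernel

theorem oq_na : (oqL.contains (oqGens.getD 0 idT) && oqL.contains (oqGens.getD 1 idT) &&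
    tableOK (oqGens.getD 0 idT) && tableOK (oqGens.getD 1 idT) &&
    compT (oqGens.getD 0 idT) (oqGens.getD 1 idT) !=
      compT (oqGens.getD 1 idT) (oqGens.getD 0 idT)) = true := by decide +kernel

theorem ogl_perm : glKeys.all (fun k => permOK (gl3Tab oGl k)) = true := by decide +kernel

theorem ogl_one : gl3Tab oGl 273 = idT := by decide +kernel

theorem ogl_mulgen : glKeys.all (fun k =>
    compT (gl3Tab oGl k) (gl3Tab oGl glGen1) == gl3Tab oGl (mulKey k glGen1) &&
    compT (gl3Tab oGl k) (gl3Tab oGl glGen2) == gl3Tab oGl (mulKey k glGen2)) = true := by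
  decide +kernel

theorem ogl_gen_ok : ([glGen1, glGen2].all (fun k => tableOK (gl3Tab oGl k) &&
    compT (gl3Tab oGl k) ozT == compT ozT (gl3Tab oGl k))) = true := by decide +kernel

theorem ogl_inj : glKeys.all (fun k => k == 273 || !oqL.contains (gl3Tab oGl k)) = true := by
  decide +kernel

theorem ogl_conj :
    oqGens.all (fun g => oqL.contains
      (compT (compT (gl3Tab oGl glGen1) g) (invT (gl3Tab oGl glGen1)))) = true ∧
    oqGens.all (fun g => oqL.contains
      (compT (compT (gl3Tab oGl glGen2) g) (invT (gl3Tab oGl glGen2)))) = true := by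
  decide +kernel

theorem ogl_faith : glKeys.all (fun k => k == 273 || oqGens.any (fun g =>
    compT (compT (gl3Tab oGl k) g) (invT (gl3Tab oGl k)) != g &&
    compT (compT (gl3Tab oGl k) g) (invT (gl3Tab oGl k)) != compT ozT g)) = true := by
  decide +kernel

theorem otr_ok : oTr.all (fun T => permOK T && tableOK T && push T 8536111 == 8536111) = true := by
  decide +kernel

theorem otr_nodup : (oTr.map (fun T => compT (compT T ozT) (invT T))).Nodup := by
  decide +kernel

theorem otr_length : oTr.length = 15 := by decide +kernel

theorem ob_ok : (permOK ohT && tableOK ohT && permOK obT && tableOK obT && oqL.contains obT &&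
    compT obT obT == idT && obT != idT && obT != ozT &&
    compT (compT ohT ozT) (invT ohT) == obT && compT (compT ohT obT) (invT ohT) == ozT) = true := by
  decide +kernel

theorem oe_span : spanOK oeGens oeL = true := by decide +kernel

theorem oe_nodup : oeL.Nodup := by decide +kernel

theorem oe_length : oeL.length = 16 := by decide +kernel

theorem oe_sub : oeL.all (fun S => oqL.contains S) = true := by decide +kernel

end Cfsg.Agent.Lib.Helper95
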