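import Mathlib
import Cfsg.Agent.S1551
import Cfsg.Agent.S5425
import Cfsg.Agent.Lib.Helper94.M24Tools
import Cfsg.Agent.Lib.Helper95.RadCent

/-!
# Radical 2-subgroups of `M24` contain their centralizers

Every involution `z` of `M24` has a 2-subgroup `Q` normalized by `C(z)` with `C(Q) ≤ Q`: for an
involution fixing an octad, `Q = O_2(C(z))` (extraspecial of order `2^7`); for a fixed-point-free
involution, `Q` is the elementary abelian subgroup of order 64 of the sextet stabiliser of the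
unique sextet all of whose tetrads are invariant.  Hence (radical lemma) every non-trivial
2-subgroup `D` with `O_2(N(D)) = D` satisfies `C(D) ≤ D`.
-/

set_option autoImplicit false
set_option linter.style.haveILetI false

open scoped Pointwise

namespace Cfsg.Agent.Lib.Helper95

open Cfsg Cfsg.Agent.Lib.Helper9 Cfsg.Agent.S1551

/-! ### Transport along conjugation -/

theorem invol_Q_conj {G : Type*} [Group G] {z : G} (k : G) (Q0 : Subgroup G)
    (h2 : IsPGroup 2 Q0)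
    (hn : Subgroup.centralizer ({k * z * k⁻¹} : Set G) ≤ Subgroup.normalizer (Q0 : Set G))
    (hc : Subgroup.centralizer (Q0 : Set G) ≤ Q0) :
    ∃ Q : Subgroup G, IsPGroup 2 Q ∧
      Subgroup.centralizer ({z} : Set G) ≤ Subgroup.normalizer (Q : Set G) ∧
      Subgroup.centralizer (Q : Set G) ≤ Q := by
  refine ⟨Q0.comap (MulAut.conj k).toMonoidHom, ?_, ?_, ?_⟩
  · exact h2.comap_of_injective _ (MulAut.conj k).injective
  · intro c hc'
    have hc2 : k * c * k⁻¹ ∈ Subgroup.centralizer ({k * z * k⁻¹} : Set G) := by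
      rw [Subgroup.mem_centralizer_iff]
      intro w hw
      rw [Set.mem_singleton_iff] at hw
      subst hw
      have h1 : z * c = c * z := Subgroup.mem_centralizer_iff.mp hc' z (Set.mem_singleton _)
      calc k * z * k⁻¹ * (k * c * k⁻¹) = k * (z * c) * k⁻¹ := by group
        _ = k * (c * z) * k⁻¹ := by rw [h1]
        _ = k * c * k⁻¹ * (k * z * k⁻¹) := by group
    have h3 := Subgroup.mem_normalizer_iff.mp (hn hc2)
    rw [Subgroup.mem_normalizer_iff]
    intro x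
    rw [Subgroup.mem_comap, Subgroup.mem_comap]
    simp only [MulEquiv.coe_toMonoidHom, MulAut.conj_apply]
    rw [h3 (k * x * k⁻¹)]
    have e : k * c * k⁻¹ * (k * x * k⁻¹) * (k * c * k⁻¹)⁻¹ = k * (c * x * c⁻¹) * k⁻¹ := by group
    rw [e]
  · intro y hy
    rw [Subgroup.mem_comap]
    simp only [MulEquiv.coe_toMonoidHom, MulAut.conj_apply]
    apply hc
    rw [Subgroup.mem_centralizer_iff]
    intro q hq
    have hq' : k⁻¹ * q * k ∈ Q0.comap (MulAut.conj k).toMonoidHom := by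
      rw [Subgroup.mem_comap]
      simp only [MulEquiv.coe_toMonoidHom, MulAut.conj_apply]
      have e : k * (k⁻¹ * q * k) * k⁻¹ = q := by group
      rw [e]
      exact hq
    have h1 := Subgroup.mem_centralizer_iff.mp hy _ hq'
    calc q * (k * y * k⁻¹) = k * ((k⁻¹ * q * k) * y) * k⁻¹ := by group
      _ = k * (y * (k⁻¹ * q * k)) * k⁻¹ := by rw [h1]
      _ = k * y * k⁻¹ * q := by group

/-! ### The fixed-point-free involution in the base sextet group -/

/-- A fixed-point-free element of the normal subgroup of order 64 of the base sextet group. -/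
def zBT : List ℕ :=
  [1, 0, 23, 5, 13, 3, 19, 21, 18, 10, 9, 12, 11, 4, 17, 20, 22, 14, 8, 6, 15, 7, 16, 2]

theorem zBT_mem : zBT ∈ S1551.n64 := by decide +kernel

theorem zBT_fpf : ∀ i < 24, zBT.getD i 0 ≠ i := by decide +kernel

theorem sx_unique :
    sxL.all (fun L => !(L.all (fun m => pull zBT m == m)) || L == sx0L) = true := by
  decide +kernel

theorem zB_fix_S0 : ∀ t ∈ S0, tperm zBT • t = t := (mem_K0_iff.mp (n64_mem zBT_mem).2).2

theorem zB_fpf (p : GolayPt) : tperm zBT p ≠ p := by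
  intro h
  have hp := (n64_mem zBT_mem).1
  rw [tperm_apply hp] at h
  have h1 := congrArg idx h
  rw [idx_pt (getD_lt_of_valid ((permOK_iff zBT).mp hp).1 _)] at h1
  exact zBT_fpf (idx p) (idx_lt p) h1

theorem zB_mem : tperm zBT ∈ M24 := (mem_K0_iff.mp (n64_mem zBT_mem).2).1

theorem orderOf_zB : orderOf (tperm zBT) = 2 := by
  have hp := (n64_mem zBT_mem).1
  apply orderOf_eq_prime
  · have h2 := List.all_eq_true.mp n64_sq zBT zBT_mem
    rw [beq_iff_eq] at h2
    rw [pow_two, tperm_mul hp hp, h2, tperm_idT]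
  · intro h
    apply zB_fpf (pt 0)
    rw [h]
    rfl

/-- An element of `M24` commuting with the fixed-point-free involution stabilises the base
sextet. -/
theorem smul_S0_of_comm {g : Equiv.Perm GolayPt} (hg : g ∈ M24)
    (hc : g * tperm zBT = tperm zBT * g) : g • S0 = S0 := by
  have hS' : g • S0 ∈ sextets := smul_sextet_mem hg sx0_mem_sextets
  obtain ⟨L, hL, hLS⟩ := exists_sxL hS'
  have hall : L.all (fun m => pull zBT m == m) = true := by
    rw [List.all_eq_true]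
    intro m hm
    rw [beq_iff_eq]
    have hmlt := (sxOK_mem (sxL_mem_ok hL) hm).1
    have hmem : support₂ (dec m) ∈ g • S0 := by
      rw [hLS]
      exact mem_sxSet.mpr ⟨m, hm, rfl⟩
    obtain ⟨t, ht, hgt⟩ := Finset.mem_smul_finset.mp hmem
    have hfix : tperm zBT • support₂ (dec m) = support₂ (dec m) := by
      rw [← hgt, ← mul_smul, ← hc, mul_smul, zB_fix_S0 t ht]
    exact (Cfsg.Agent.Lib.Helper94.smul_eq_iff_pull
      (hasTable_tperm (n64_mem zBT_mem).1) hmlt).mp hfix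
  have h1 := List.all_eq_true.mp sx_unique L hL
  rw [hall] at h1
  simp only [Bool.not_true, Bool.false_or, beq_iff_eq] at h1
  rw [hLS, h1]

theorem conj_mem_nSub {g σ : Equiv.Perm GolayPt} (hg : g ∈ M24) (hgS : g • S0 = S0)
    (hσ : σ ∈ nSub) : g * σ * g⁻¹ ∈ nSub := by
  obtain ⟨hK, hsq⟩ := mem_nSub_iff.mp hσ
  obtain ⟨hM, hfix⟩ := mem_K0_iff.mp hK
  rw [mem_nSub_iff, mem_K0_iff]
  refine ⟨⟨M24.mul_mem (M24.mul_mem hg hM) (M24.inv_mem hg), ?_⟩, conj_sq _ _ hsq⟩
  intro t ht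
  rw [mul_smul, mul_smul, hfix _ (inv_smul_mem_of_stab hgS ht), smul_inv_smul]

theorem nSub_comm {σ τ : Equiv.Perm GolayPt} (hσ : σ ∈ nSub) (hτ : τ ∈ nSub) :
    σ * τ = τ * σ := by
  have h1 := (mem_nSub_iff.mp hσ).2
  have h2 := (mem_nSub_iff.mp hτ).2
  have h3 := (mem_nSub_iff.mp (nSub.mul_mem hσ hτ)).2
  have e1 : σ = σ⁻¹ := eq_inv_of_mul_eq_one_left h1
  have e2 : τ = τ⁻¹ := eq_inv_of_mul_eq_one_left h2
  have e3 : σ * τ = (σ * τ)⁻¹ := eq_inv_of_mul_eq_one_left h3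
  rw [e3, mul_inv_rev, ← e1, ← e2]

/-! ### The centralizer of the subgroup of order 64 -/

def qaT : List ℕ :=
  [0, 1, 2, 3, 22, 5, 7, 6, 18, 10, 9, 12, 11, 16, 14, 20, 13, 17, 8, 21, 15, 19, 4, 23]
def qbT : List ℕ :=
  [0, 1, 2, 14, 4, 17, 7, 6, 12, 15, 20, 18, 8, 13, 3, 9, 16, 5, 11, 21, 10, 19, 22, 23]
def qcT : List ℕ :=
  [1, 0, 23, 3, 4, 5, 21, 19, 18, 15, 20, 12, 11, 13, 14, 9, 16, 17, 8, 7, 10, 6, 22, 2]
def s0T : List ℕ :=
  [23, 2, 1, 14, 16, 17, 21, 19, 11, 15, 20, 8, 18, 22, 3, 9, 4, 5, 12, 7, 10, 6, 13, 0]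
def s1T : List ℕ :=
  [2, 23, 0, 17, 22, 14, 7, 6, 12, 20, 15, 18, 8, 16, 5, 10, 13, 3, 11, 21, 9, 19, 4, 1]
def s5T : List ℕ :=
  [0, 1, 2, 5, 13, 3, 7, 6, 8, 20, 15, 11, 12, 4, 17, 10, 22, 14, 18, 21, 9, 19, 16, 23]

theorem q_mem : qaT ∈ S1551.n64 ∧ qbT ∈ S1551.n64 ∧ qcT ∈ S1551.n64 ∧ s0T ∈ S1551.n64 ∧ s1T ∈ S1551.n64 ∧ s5T ∈ S1551.n64 := by
  decide +kernel

theorem tri_dec : (List.range 24).all (fun i1 => (List.range 24).all (fun i2 =>
    (List.range 24).all (fun i3 =>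
      !(qaT.getD i1 0 == i1 && qbT.getD i1 0 == i1 && qaT.getD i2 0 == i2 && qcT.getD i2 0 == i2
        && qbT.getD i3 0 == i3 && qcT.getD i3 0 == i3) ||
      S1551.n64.any (fun T => T.getD 23 0 == i1 && T.getD 3 0 == i2 && T.getD 4 0 == i3)))) = true := by
  decide +kernel

theorem tperm_pt {T : List ℕ} (h : permOK T = true) {j : ℕ} (hj : j < 24) :
    tperm T (pt j) = pt (T.getD j 0) := by
  rw [tperm_apply h, idx_pt hj]

/-- If `g` commutes with `tperm T` and `T` fixes `j`, then `T` fixes the index of `g j`. -/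
theorem fix_of_comm {g : Equiv.Perm GolayPt} {T : List ℕ} (hT : permOK T = true)
    (hcomm : tperm T * g = g * tperm T) {j : ℕ} (hj : j < 24) (hfix : T.getD j 0 = j) :
    T.getD (idx (g (pt j))) 0 = idx (g (pt j)) := by
  have h1 : tperm T (g (pt j)) = g (pt j) := by
    have h2 : (tperm T * g) (pt j) = (g * tperm T) (pt j) := by rw [hcomm]
    rw [Equiv.Perm.mul_apply, Equiv.Perm.mul_apply, tperm_pt hT hj, hfix] at h2
    exact h2
  rw [tperm_apply hT] at h1
  have h3 := congrArg idx h1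
  rw [idx_pt (getD_lt_of_valid ((permOK_iff T).mp hT).1 _)] at h3
  exact h3

theorem comm_apply {g : Equiv.Perm GolayPt} {T : List ℕ} (hT : permOK T = true)
    (hcomm : tperm T * g = g * tperm T) {j : ℕ} (hj : j < 24) (hg : g (pt j) = pt j) :
    g (pt (T.getD j 0)) = pt (T.getD j 0) := by
  have h2 : (g * tperm T) (pt j) = (tperm T * g) (pt j) := by rw [hcomm]
  rw [Equiv.Perm.mul_apply, Equiv.Perm.mul_apply, tperm_pt hT hj, hg, tperm_pt hT hj] at h2
  exact h2

theorem cent_nSub_le {g : Equiv.Perm GolayPt} (hg : g ∈ M24)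
    (hc : ∀ σ ∈ nSub, σ * g = g * σ) : g ∈ nSub := by
  obtain ⟨ha, hb, hcm, hs0, hs1, hs5⟩ := q_mem
  have hcT : ∀ T ∈ S1551.n64, tperm T * g = g * tperm T := fun T hT => hc _ ⟨T, hT, rfl⟩
  have pa := (n64_mem ha).1
  have pb := (n64_mem hb).1
  have pc := (n64_mem hcm).1
  have f1a := fix_of_comm pa (hcT _ ha) (j := 23) (by norm_num) (by decide)
  have f1b := fix_of_comm pb (hcT _ hb) (j := 23) (by norm_num) (by decide)
  have f2a := fix_of_comm pa (hcT _ ha) (j := 3) (by norm_num) (by decide)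
  have f2c := fix_of_comm pc (hcT _ hcm) (j := 3) (by norm_num) (by decide)
  have f3b := fix_of_comm pb (hcT _ hb) (j := 4) (by norm_num) (by decide)
  have f3c := fix_of_comm pc (hcT _ hcm) (j := 4) (by norm_num) (by decide)
  have hd := List.all_eq_true.mp (List.all_eq_true.mp (List.all_eq_true.mp tri_dec
    (idx (g (pt 23))) (List.mem_range.mpr (idx_lt _)))
    (idx (g (pt 3))) (List.mem_range.mpr (idx_lt _)))
    (idx (g (pt 4))) (List.mem_range.mpr (idx_lt _))
  rw [f1a, f1b, f2a, f2c, f3b, f3c] at hd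
  simp only [beq_self_eq_true, Bool.and_self, Bool.not_true, Bool.false_or, List.any_eq_true,
    Bool.and_eq_true, beq_iff_eq] at hd
  obtain ⟨T, hT, ⟨e1, e2⟩, e3⟩ := hd
  have pT := (n64_mem hT).1
  have hTn : tperm T ∈ nSub := ⟨T, hT, rfl⟩
  -- the corrected element
  set h : Equiv.Perm GolayPt := (tperm T)⁻¹ * g with hh
  have hhM : h ∈ M24 := M24.mul_mem (M24.inv_mem (mem_K0_iff.mp (n64_mem hT).2).1) hg
  have hfixpt : ∀ j, j < 24 → T.getD j 0 = idx (g (pt j)) → h (pt j) = pt j := by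
    intro j hj hTj
    rw [hh, Equiv.Perm.mul_apply, Equiv.Perm.inv_eq_iff_eq, tperm_pt pT hj, hTj, pt_idx]
  have h23 := hfixpt 23 (by norm_num) e1
  have h3 := hfixpt 3 (by norm_num) e2
  have h4 := hfixpt 4 (by norm_num) e3
  have hcomm : ∀ S ∈ S1551.n64, tperm S * h = h * tperm S := by
    intro S hS
    have hSn : tperm S ∈ nSub := ⟨S, hS, rfl⟩
    have e : tperm S * (tperm T)⁻¹ = (tperm T)⁻¹ * tperm S :=
      nSub_comm hSn (nSub.inv_mem hTn)
    rw [hh, ← mul_assoc, e, mul_assoc, hcT S hS, mul_assoc]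
  have h0 := comm_apply (n64_mem hs0).1 (hcomm _ hs0) (j := 23) (by norm_num) h23
  have h1 := comm_apply (n64_mem hs1).1 (hcomm _ hs1) (j := 23) (by norm_num) h23
  have h2 := comm_apply (n64_mem zBT_mem).1 (hcomm _ zBT_mem) (j := 23) (by norm_num) h23
  have h5 := comm_apply (n64_mem hs5).1 (hcomm _ hs5) (j := 3) (by norm_num) h3
  have hfix : h ∈ M24 ⊓ fixing [4, 5, 3, 2, 1, 0, 23] := by
    refine ⟨hhM, ?_⟩
    intro i hi
    simp only [List.mem_cons, List.not_mem_nil, or_false] at hi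
    rcases hi with rfl | rfl | rfl | rfl | rfl | rfl | rfl
    · exact h4
    · exact h5
    · exact h3
    · exact h2
    · exact h1
    · exact h0
    · exact h23
  rw [fix7 le_rfl, Subgroup.mem_bot] at hfix
  have hgT : g = tperm T := by
    rw [hh] at hfix
    exact (inv_mul_eq_one.mp hfix).symm
  rw [hgT]
  exact hTn

/-! ### The two classes of involutions -/

theorem invol_Q_base_fpf (z0 : ↥M24) (hz0 : (z0 : Equiv.Perm GolayPt) = tperm zBT) :
    ∃ Q : Subgroup ↥M24, IsPGroup 2 Q ∧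
      Subgroup.centralizer ({z0} : Set ↥M24) ≤ Subgroup.normalizer (Q : Set ↥M24) ∧
      Subgroup.centralizer (Q : Set ↥M24) ≤ Q := by
  have hstab : ∀ c : ↥M24, c ∈ Subgroup.centralizer ({z0} : Set ↥M24) →
      (c : Equiv.Perm GolayPt) • S0 = S0 := by
    intro c hc
    have h1 := Subgroup.mem_centralizer_iff.mp hc z0 (Set.mem_singleton _)
    have h2 : (z0 : Equiv.Perm GolayPt) * c = c * z0 := congrArg Subtype.val h1
    rw [hz0] at h2
    exact smul_S0_of_comm c.2 h2.symm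
  refine ⟨nSub.subgroupOf M24, ?_, ?_, ?_⟩
  · intro g
    refine ⟨1, ?_⟩
    have h1 := (mem_nSub_iff.mp (Subgroup.mem_subgroupOf.mp g.2)).2
    apply Subtype.ext
    apply Subtype.ext
    rw [pow_one, pow_two]
    exact h1
  · intro c hc
    have hS := hstab c hc
    have hS' := hstab c⁻¹ (Subgroup.inv_mem _ hc)
    rw [Subgroup.mem_normalizer_iff]
    intro x
    rw [Subgroup.mem_subgroupOf, Subgroup.mem_subgroupOf]
    constructor
    · intro hx
      exact conj_mem_nSub c.2 hS hx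
    · intro hx
      have h1 := conj_mem_nSub (c⁻¹).2 hS' hx
      have e : ((c⁻¹ : ↥M24) : Equiv.Perm GolayPt) * ((c * x * c⁻¹ : ↥M24) : Equiv.Perm GolayPt) *
          ((c⁻¹ : ↥M24) : Equiv.Perm GolayPt)⁻¹ = (x : Equiv.Perm GolayPt) := by
        push_cast
        group
      rw [e] at h1
      exact h1
  · intro y hy
    rw [Subgroup.mem_subgroupOf]
    apply cent_nSub_le y.2
    intro σ hσ
    have hσM : σ ∈ M24 := (mem_K0_iff.mp (mem_nSub_iff.mp hσ).1).1
    have h1 := Subgroup.mem_centralizer_iff.mp hy ⟨σ, hσM⟩ (Subgroup.mem_subgroupOf.mpr hσ)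
    exact congrArg Subtype.val h1

theorem invol_Q_oct (z : ↥M24) (hz : orderOf z = 2)
    (hfix : (Finset.univ.filter fun p : GolayPt => (z : Equiv.Perm GolayPt) p = p) ∈ octads) :
    ∃ Q : Subgroup ↥M24, IsPGroup 2 Q ∧
      Subgroup.centralizer ({z} : Set ↥M24) ≤ Subgroup.normalizer (Q : Set ↥M24) ∧
      Subgroup.centralizer (Q : Set ↥M24) ≤ Q := by
  haveI : Fact (Nat.Prime 2) := ⟨Nat.prime_two⟩
  have h := Cfsg.Agent.S5425.result z hz hfix _ rfl
  have hnorm : (pCore 2 ↥(Subgroup.centralizer ({z} : Set ↥M24))).Normal := inferInstance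
  refine ⟨(pCore 2 ↥(Subgroup.centralizer ({z} : Set ↥M24))).map
    (Subgroup.centralizer ({z} : Set ↥M24)).subtype, ?_, ?_, ?_⟩
  · exact (Cfsg.Agent.Lib.Helper66.isPGroup_pCore 2).map _
  · intro c hc
    rw [Subgroup.mem_normalizer_iff]
    intro x
    constructor
    · rintro ⟨q, hq, rfl⟩
      exact ⟨⟨c, hc⟩ * q * ⟨c, hc⟩⁻¹, hnorm.conj_mem q hq ⟨c, hc⟩, rfl⟩
    · rintro ⟨q, hq, hqe⟩
      refine ⟨⟨c, hc⟩⁻¹ * q * ⟨c, hc⟩, ?_, ?_⟩
      · have := hnorm.conj_mem q hq ⟨c, hc⟩⁻¹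
        rwa [inv_inv] at this
      · show c⁻¹ * (q : ↥M24) * c = x
        have hqe' : (q : ↥M24) = c * x * c⁻¹ := hqe
        rw [hqe']
        group
  · rw [h.2.2.2.1.2.1]
    exact Subgroup.map_subtype_le _

/-- Every involution of `M24` has a 2-subgroup `Q`, normalized by its centralizer, with
`C(Q) ≤ Q`. -/
theorem m24_invol_Q (z : ↥M24) (hz : orderOf z = 2) :
    ∃ Q : Subgroup ↥M24, IsPGroup 2 Q ∧
      Subgroup.centralizer ({z} : Set ↥M24) ≤ Subgroup.normalizer (Q : Set ↥M24) ∧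
      Subgroup.centralizer (Q : Set ↥M24) ≤ Q := by
  have hz' : orderOf (z : Equiv.Perm GolayPt) = 2 := by
    rw [Subgroup.orderOf_coe]
    exact hz
  rcases Cfsg.Agent.Lib.Helper96.m24_involution_classes.1 z.1 z.2 hz' with hoct | hfpf
  · exact invol_Q_oct z hz hoct
  · obtain ⟨k, hk, hkz⟩ := Cfsg.Agent.Lib.Helper96.m24_involution_classes.2.2.2 z.1 z.2
      (tperm zBT) zB_mem hz' orderOf_zB ⟨fun _ => zB_fpf, fun _ => hfpf⟩
    obtain ⟨Q0, h1, h2, h3⟩ := invol_Q_base_fpf ((⟨k, hk⟩ : ↥M24) * z * (⟨k, hk⟩ : ↥M24)⁻¹) hkz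
    exact invol_Q_conj ⟨k, hk⟩ Q0 h1 h2 h3

/-- **Radical 2-subgroups of `M24`**: a non-trivial 2-subgroup `D` of `M24` with
`O_2(N(D)) = D` contains its centralizer. -/
theorem m24_radical_cent_le (D : Subgroup ↥M24) (hD : IsPGroup 2 D) (hne : D ≠ ⊥)
    (hrad : (Cfsg.pCore 2 ↥(Subgroup.normalizer (D : Set ↥M24))).map
      (Subgroup.normalizer (D : Set ↥M24)).subtype = D) :
    Subgroup.centralizer (D : Set ↥M24) ≤ D :=
  radical_cent_le m24_invol_Q D hD hne hrad

end Cfsg.Agent.Lib.Helper95
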