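import Cfsg.Agent.Lib.Helper95.M12Gen
import Cfsg.Agent.Lib.Helper95.Sextet

/-!
# Quartets of the dodecad of squares

The dodecad of squares is `support₂ (dec 340831)`; its quartets are listed explicitly, the
dodecad stabiliser is transitive on them, and two triples determine a quartet.
-/

set_option autoImplicit false
open scoped Pointwise
open Cfsg

namespace Cfsg.Agent.Lib.Helper95

open Cfsg.Agent.Lib.Helper9

/-! ### Hexads and quartets under the group -/

theorem smul_hexad_mem {x : Equiv.Perm GolayPt} (hx : x ∈ M24) {d h : Finset GolayPt}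
    (hh : h ∈ hexadsOn d) : x • h ∈ hexadsOn (x • d) := by
  obtain ⟨h6, o, ho, rfl⟩ := hh
  refine ⟨?_, x • o, smul_octad_mem hx ho, Finset.smul_finset_inter.symm⟩
  rw [Finset.card_smul_finset]
  exact h6

theorem smul_quartet_mem {x : Equiv.Perm GolayPt} (hx : x ∈ M24) {d : Finset GolayPt}
    {Q : Finset (Finset GolayPt)} (hQ : Q ∈ quartets d) : x • Q ∈ quartets (x • d) := by
  obtain ⟨h4, h3, hp⟩ := hQ
  refine ⟨?_, ?_, ?_⟩
  · rw [Finset.card_smul_finset]
    exact h4
  · intro t ht
    obtain ⟨t0, ht0, rfl⟩ := Finset.mem_smul_finset.mp ht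
    refine ⟨?_, Finset.smul_finset_subset_smul_finset (h3 t0 ht0).2⟩
    rw [Finset.card_smul_finset]
    exact (h3 t0 ht0).1
  · intro t ht u hu hne
    obtain ⟨t0, ht0, rfl⟩ := Finset.mem_smul_finset.mp ht
    obtain ⟨u0, hu0, rfl⟩ := Finset.mem_smul_finset.mp hu
    have hne0 : t0 ≠ u0 := fun h => hne (by rw [h])
    rw [← Finset.smul_finset_union]
    exact smul_hexad_mem hx (hp t0 ht0 u0 hu0 hne0)

/-! ### Masks -/

theorem support₂_dec_subset {a b : ℕ} (ha : a < 2 ^ 24) :
    support₂ (dec a) ⊆ support₂ (dec b) ↔ a &&& b = a := by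
  rw [← Finset.inter_eq_left, support₂_dec_inter]
  constructor
  · intro h
    exact support₂_dec_injective (lt_of_le_of_lt Nat.and_le_left ha) ha h
  · intro h
    rw [h]

theorem support₂_dec_sdiff (a b : ℕ) :
    support₂ (dec a) \ support₂ (dec b) = support₂ (dec (a &&& (16777215 ^^^ b))) := by
  rw [← support₂_dec_inter, ← compl_support₂_dec]
  ext p
  simp

theorem hexad_mask {D : ℕ} (hD : D < 2 ^ 24) {h : Finset GolayPt}
    (hh : h ∈ hexadsOn (support₂ (dec D))) :
    ∃ m ∈ octL, popcF (m &&& D) = 6 ∧ h = support₂ (dec (m &&& D)) := by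
  obtain ⟨h6, o, ho, rfl⟩ := hh
  obtain ⟨m, hm, rfl⟩ := exists_octL_of_mem_octads ho
  rw [support₂_dec_inter] at h6 ⊢
  refine ⟨m, hm, ?_, rfl⟩
  rw [popcF_eq_card (lt_of_le_of_lt Nat.and_le_right hD)]
  exact h6

/-- A triple completing a given triple to a hexad, as a mask. -/
theorem partner_mask {D a : ℕ} (hD : D < 2 ^ 24) (ha : a < 2 ^ 24) (ha3 : popcF a = 3)
    {v : Finset GolayPt} (hv : v.card = 3)
    (hh : support₂ (dec a) ∪ v ∈ hexadsOn (support₂ (dec D))) :
    ∃ m ∈ octL, popcF (m &&& D) = 6 ∧ a &&& (m &&& D) = a ∧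
      v = support₂ (dec ((m &&& D) &&& (16777215 ^^^ a))) := by
  have hdisj : Disjoint (support₂ (dec a)) v := by
    rw [← Finset.card_union_eq_card_add_card, hh.1, hv, ← popcF_eq_card ha, ha3]
  obtain ⟨m, hm, h6, he⟩ := hexad_mask hD hh
  refine ⟨m, hm, h6, ?_, ?_⟩
  · rw [← support₂_dec_subset ha, ← he]
    exact Finset.subset_union_left
  · rw [← support₂_dec_sdiff, ← he, Finset.union_sdiff_cancel_left hdisj]

/-! ### The base quartet -/

/-- The base quartet `{0,1,2}, {3,4,12}, {8,9,13}, {6,16,18}` of the dodecad of squares. -/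
def q0L : List ℕ := [7, 4120, 8960, 327744]

theorem lemU_dec :
    (octL.filter (fun m => 7 &&& (m &&& 340831) == 7 && popcF (m &&& 340831) == 6)).all (fun m =>
      (octL.filter (fun m' => 4120 &&& (m' &&& 340831) == 4120 &&
        popcF (m' &&& 340831) == 6)).all (fun m' =>
        !((m &&& 340831) &&& (16777215 ^^^ 7) == (m' &&& 340831) &&& (16777215 ^^^ 4120)) ||
          q0L.contains ((m &&& 340831) &&& (16777215 ^^^ 7)))) = true := by decide +kernel

/-- A quartet of the dodecad of squares containing the first two base triples is the base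
quartet. -/
theorem quartet_eq_q0 {Q : Finset (Finset GolayPt)} (hQ : Q ∈ quartets (support₂ (dec 340831)))
    (h1 : support₂ (dec 7) ∈ Q) (h2 : support₂ (dec 4120) ∈ Q) : Q = sxSet q0L := by
  have hsub : Q ⊆ sxSet q0L := by
    intro v hv
    by_cases e1 : v = support₂ (dec 7)
    · rw [e1]
      exact mem_sxSet.mpr ⟨7, by decide, rfl⟩
    by_cases e2 : v = support₂ (dec 4120)
    · rw [e2]
      exact mem_sxSet.mpr ⟨4120, by decide, rfl⟩
    have hv3 := (hQ.2.1 v hv).1
    obtain ⟨m, hm, h6, hs, he⟩ := partner_mask (D := 340831) (a := 7) (by norm_num)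
      (by norm_num) (by decide) hv3 (hQ.2.2 _ h1 v hv (Ne.symm e1))
    obtain ⟨m', hm', h6', hs', he'⟩ := partner_mask (D := 340831) (a := 4120) (by norm_num)
      (by norm_num) (by decide) hv3 (hQ.2.2 _ h2 v hv (Ne.symm e2))
    have hlt : ∀ x y : ℕ, (x &&& 340831) &&& y < 2 ^ 24 := fun x y =>
      lt_of_le_of_lt Nat.and_le_left (lt_of_le_of_lt Nat.and_le_right (by norm_num))
    have heq : (m &&& 340831) &&& (16777215 ^^^ 7) = (m' &&& 340831) &&& (16777215 ^^^ 4120) :=
      support₂_dec_injective (hlt _ _) (hlt _ _) (he.symm.trans he')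
    have hm1 : m ∈ octL.filter
        (fun m => 7 &&& (m &&& 340831) == 7 && popcF (m &&& 340831) == 6) := by
      rw [List.mem_filter, Bool.and_eq_true, beq_iff_eq, beq_iff_eq]
      exact ⟨hm, hs, h6⟩
    have hm2 : m' ∈ octL.filter
        (fun m' => 4120 &&& (m' &&& 340831) == 4120 && popcF (m' &&& 340831) == 6) := by
      rw [List.mem_filter, Bool.and_eq_true, beq_iff_eq, beq_iff_eq]
      exact ⟨hm', hs', h6'⟩
    have hd := List.all_eq_true.mp (List.all_eq_true.mp lemU_dec m hm1) m' hm2
    rw [Bool.or_eq_true, Bool.not_eq_true', beq_eq_false_iff_ne, List.contains_iff_mem] at hd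
    rcases hd with hd | hd
    · exact absurd heq hd
    · rw [he]
      exact mem_sxSet.mpr ⟨_, hd, rfl⟩
  refine Finset.eq_of_subset_of_card_le hsub ?_
  rw [hQ.1]
  exact List.toFinset_card_le _

theorem oct5 : octL.all (fun m => !(m.testBit 0 && m.testBit 1 && m.testBit 2 && m.testBit 3 &&
    m.testBit 4) || m == 5279) = true := by decide +kernel

theorem support_seven : support₂ (dec 7) = ({pt 0, pt 1, pt 2} : Finset GolayPt) := by
  have h := support₂_maskOf [0, 1, 2] (by decide)
  have e : maskOf [0, 1, 2] = 7 := by decide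
  rw [e] at h
  rw [h]
  rfl

theorem m12_inv_smul_D0 {σ : Equiv.Perm GolayPt} (hσ : σ ∈ M24 ⊓ setStab [340831]) :
    σ⁻¹ • support₂ (dec 340831) = support₂ (dec 340831) :=
  inv_smul_eq_iff.mpr (m12_smul_D0 σ hσ).symm

/-- The dodecad stabiliser is transitive on ordered pairs of disjoint triples whose union is a
hexad. -/
theorem exists_pair_perm {t u : Finset GolayPt} (ht : t.card = 3) (hu : u.card = 3)
    (htu : Disjoint t u) (hh : t ∪ u ∈ hexadsOn (support₂ (dec 340831))) :
    ∃ σ ∈ M24 ⊓ setStab [340831], σ • support₂ (dec 7) = t ∧ σ • support₂ (dec 4120) = u := by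
  obtain ⟨x, y, z, hxy, hxz, hyz, rfl⟩ := Finset.card_eq_three.mp ht
  obtain ⟨a, b, c, hab, hac, hbc, rfl⟩ := Finset.card_eq_three.mp hu
  have hsub : (({x, y, z} : Finset GolayPt) ∪ {a, b, c}) ⊆ support₂ (dec 340831) := by
    obtain ⟨_, o, _, ho⟩ := hh
    rw [← ho]
    exact Finset.inter_subset_right
  have hxD : x ∈ support₂ (dec 340831) := hsub (by simp)
  have hyD : y ∈ support₂ (dec 340831) := hsub (by simp)
  have hzD : z ∈ support₂ (dec 340831) := hsub (by simp)
  have haD : a ∈ support₂ (dec 340831) := hsub (by simp)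
  have hbD : b ∈ support₂ (dec 340831) := hsub (by simp)
  have hd : ∀ p ∈ ({x, y, z} : Finset GolayPt), ∀ q ∈ ({a, b, c} : Finset GolayPt), p ≠ q :=
    fun p hp q hq hpq => Finset.disjoint_left.mp htu hp (hpq ▸ hq)
  have hxa : x ≠ a := hd x (by simp) a (by simp)
  have hxb : x ≠ b := hd x (by simp) b (by simp)
  have hya : y ≠ a := hd y (by simp) a (by simp)
  have hyb : y ≠ b := hd y (by simp) b (by simp)
  have hza : z ≠ a := hd z (by simp) a (by simp)
  have hzb : z ≠ b := hd z (by simp) b (by simp)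
  obtain ⟨σ, hσ, hF⟩ := TChain.exists_perm m12_smul_D0 [0, 1, 2, 3, 4] [] m12_tchain5
    [x, y, z, a, b] rfl (by simp [*]) (fun c hc => by
      simp only [List.mem_cons, List.not_mem_nil, or_false] at hc
      refine ⟨?_, fun i hi => absurd hi List.not_mem_nil⟩
      rcases hc with rfl | rfl | rfl | rfl | rfl <;> assumption)
  simp only [List.forall₂_cons, List.Forall₂.nil, and_true] at hF
  obtain ⟨h0, h1, h2, h3, h4⟩ := hF
  have hσM : σ ∈ M24 ⊓ setStab [340831] := hσ.1
  have e7 : σ • support₂ (dec 7) = ({x, y, z} : Finset GolayPt) := by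
    rw [support_seven, Finset.smul_finset_insert, Finset.smul_finset_insert,
      Finset.smul_finset_singleton]
    show ({σ (pt 0), σ (pt 1), σ (pt 2)} : Finset GolayPt) = _
    rw [h0, h1, h2]
  have hh' : σ⁻¹ • (({x, y, z} : Finset GolayPt) ∪ {a, b, c}) ∈
      hexadsOn (support₂ (dec 340831)) := by
    have := smul_hexad_mem (M24.inv_mem hσM.1) hh
    rwa [m12_inv_smul_D0 hσM] at this
  obtain ⟨m, hm, h6, he⟩ := hexad_mask (by norm_num) hh'
  have hbit : ∀ i : ℕ, i < 24 → σ (pt i) ∈ (({x, y, z} : Finset GolayPt) ∪ {a, b, c}) →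
      m.testBit i = true := by
    intro i hi hmem
    have h5 : pt i ∈ σ⁻¹ • (({x, y, z} : Finset GolayPt) ∪ {a, b, c}) :=
      Finset.mem_inv_smul_finset_iff.mpr hmem
    rw [he, mem_support₂_dec, idx_pt hi, Nat.testBit_and, Bool.and_eq_true] at h5
    exact h5.1
  have hb0 := hbit 0 (by norm_num) (by rw [h0]; simp)
  have hb1 := hbit 1 (by norm_num) (by rw [h1]; simp)
  have hb2 := hbit 2 (by norm_num) (by rw [h2]; simp)
  have hb3 := hbit 3 (by norm_num) (by rw [h3]; simp)
  have hb4 := hbit 4 (by norm_num) (by rw [h4]; simp)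
  have hm5 := List.all_eq_true.mp oct5 m hm
  rw [hb0, hb1, hb2, hb3, hb4] at hm5
  have hm5' : m = 5279 := by simpa using hm5
  rw [hm5'] at he
  refine ⟨σ, hσM, e7, ?_⟩
  have e1 : σ⁻¹ • ({a, b, c} : Finset GolayPt) = support₂ (dec 4120) := by
    have e2 : ({a, b, c} : Finset GolayPt) =
        (({x, y, z} : Finset GolayPt) ∪ {a, b, c}) \ {x, y, z} :=
      (Finset.union_sdiff_cancel_left htu).symm
    rw [e2, Finset.smul_finset_sdiff, he, ← e7, inv_smul_smul, support₂_dec_sdiff]
    rfl
  rw [← e1, smul_inv_smul]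

/-- The dodecad stabiliser is transitive on the quartets, and on pairs of their triples. -/
theorem exists_quartet_perm {Q : Finset (Finset GolayPt)}
    (hQ : Q ∈ quartets (support₂ (dec 340831))) {t u : Finset GolayPt} (ht : t ∈ Q) (hu : u ∈ Q)
    (hne : t ≠ u) :
    ∃ σ ∈ M24 ⊓ setStab [340831], σ • support₂ (dec 7) = t ∧ σ • support₂ (dec 4120) = u ∧
      σ • sxSet q0L = Q := by
  have hh := hQ.2.2 t ht u hu hne
  have ht3 := (hQ.2.1 t ht).1
  have hu3 := (hQ.2.1 u hu).1
  have hdisj : Disjoint t u := by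
    rw [← Finset.card_union_eq_card_add_card, hh.1, ht3, hu3]
  obtain ⟨σ, hσ, h1, h2⟩ := exists_pair_perm ht3 hu3 hdisj hh
  refine ⟨σ, hσ, h1, h2, ?_⟩
  have hQ' : σ⁻¹ • Q ∈ quartets (support₂ (dec 340831)) := by
    have := smul_quartet_mem (M24.inv_mem hσ.1) hQ
    rwa [m12_inv_smul_D0 hσ] at this
  have e := quartet_eq_q0 hQ' (Finset.mem_inv_smul_finset_iff.mpr (by rw [h1]; exact ht))
    (Finset.mem_inv_smul_finset_iff.mpr (by rw [h2]; exact hu))
  rw [← e, smul_inv_smul]

/-- Two triples determine a quartet. -/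
theorem quartet_eq_of_two {Q Q' : Finset (Finset GolayPt)}
    (hQ : Q ∈ quartets (support₂ (dec 340831))) (hQ' : Q' ∈ quartets (support₂ (dec 340831)))
    {t u : Finset GolayPt} (ht : t ∈ Q) (hu : u ∈ Q) (ht' : t ∈ Q') (hu' : u ∈ Q')
    (hne : t ≠ u) : Q = Q' := by
  obtain ⟨σ, hσ, h1, h2, h3⟩ := exists_quartet_perm hQ ht hu hne
  have hQ'' : σ⁻¹ • Q' ∈ quartets (support₂ (dec 340831)) := by
    have := smul_quartet_mem (M24.inv_mem hσ.1) hQ'
    rwa [m12_inv_smul_D0 hσ] at this
  have e := quartet_eq_q0 hQ'' (Finset.mem_inv_smul_finset_iff.mpr (by rw [h1]; exact ht'))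
    (Finset.mem_inv_smul_finset_iff.mpr (by rw [h2]; exact hu'))
  rw [← h3, ← e, smul_inv_smul]

/-! ### Listed quartets -/

/-- The 132 hexads of the dodecad of squares. -/
def hexL : List ℕ :=
  [343, 591, 797, 858, 4127, 4430, 4441, 4691, 4700, 4875,
   4886, 4933, 8285, 8478, 8523, 8731, 8790, 8967, 9036, 9041,
   12359, 12378, 12557, 12563, 12628, 12814, 12821, 12873, 13080, 13122,
   65627, 65807, 65884, 66078, 66133, 66323, 66374, 66377, 69709, 69718,
   69909, 69914, 69955, 70151, 70169, 70218, 70412, 70480, 73751, 73806,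
   74009, 74053, 74066, 74253, 74307, 74328, 74506, 74516, 77835, 77852,
   77905, 78086, 78152, 78354, 78404, 78593, 262238, 262427, 262477, 262679,
   262745, 262926, 262979, 262996, 266315, 266325, 266503, 266524, 266578, 266765,
   266778, 266822, 267025, 267080, 270351, 270419, 270613, 270662, 270680, 270876,
   270917, 270922, 271113, 271122, 274454, 274457, 274508, 274698, 274753, 274947,
   275024, 275204, 327709, 327751, 327958, 328010, 328017, 328203, 328268, 328274,
   328453, 328472, 331790, 331795, 331864, 332041, 332100, 332308, 332353, 332546,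
   335898, 335945, 335956, 336131, 336140, 336390, 336401, 336704, 339973, 340034,
   340240, 340488]

theorem hexL_ok : hexL.all (fun h => popcF h == 6 && octL.any (fun o => o &&& 340831 == h)) =
    true := by decide +kernel

/-- The union of the two masks is a hexad. -/
def hexPair (a b : ℕ) : Bool := hexL.contains (a ||| b)

/-- Validity of a list of four masks as a quartet of the dodecad of squares. -/
def qOK (L : List ℕ) : Bool :=
  L.length == 4 && L.all (fun m => decide (m < 2 ^ 24) && popcF m == 3 && m &&& 340831 == m) &&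
    pairsAll hexPair L && incr L

theorem qOK_length {L : List ℕ} (h : qOK L = true) : L.length = 4 := by
  simp only [qOK, Bool.and_eq_true, beq_iff_eq] at h
  exact h.1.1.1

theorem qOK_mem {L : List ℕ} (h : qOK L = true) {m : ℕ} (hm : m ∈ L) :
    m < 2 ^ 24 ∧ popcF m = 3 ∧ m &&& 340831 = m := by
  simp only [qOK, Bool.and_eq_true, List.all_eq_true, decide_eq_true_eq, beq_iff_eq] at h
  exact ⟨(h.1.1.2 m hm).1.1, (h.1.1.2 m hm).1.2, (h.1.1.2 m hm).2⟩

theorem qOK_pair {L : List ℕ} (h : qOK L = true) :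
    L.Pairwise (fun a b => hexPair a b = true) := by
  simp only [qOK, Bool.and_eq_true] at h
  exact pairsAll_pairwise _ _ h.1.2

theorem qOK_incr {L : List ℕ} (h : qOK L = true) : L.Pairwise (· < ·) := by
  simp only [qOK, Bool.and_eq_true] at h
  exact incr_pairwise _ h.2

theorem hexPair_comm (a b : ℕ) : hexPair a b = hexPair b a := by
  rw [hexPair, hexPair, Nat.or_comm]

theorem hexPair_hexad {a b : ℕ} (h : hexPair a b = true) :
    support₂ (dec a) ∪ support₂ (dec b) ∈ hexadsOn (support₂ (dec 340831)) := by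
  rw [hexPair, List.contains_iff_mem] at h
  have h2 := List.all_eq_true.mp hexL_ok _ h
  rw [Bool.and_eq_true, beq_iff_eq, List.any_eq_true] at h2
  obtain ⟨h6, o, ho, hoe⟩ := h2
  rw [beq_iff_eq] at hoe
  rw [support₂_dec_or]
  have hlt : a ||| b < 2 ^ 24 := by
    rw [← hoe]
    exact lt_of_le_of_lt Nat.and_le_right (by norm_num)
  refine ⟨?_, support₂ (dec o), support_mem_octads ho, ?_⟩
  · rw [← popcF_eq_card hlt]
    exact h6
  · rw [support₂_dec_inter, hoe]

theorem qSet_nodup {L : List ℕ} (h : qOK L = true) :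
    (L.map (fun m => support₂ (dec m))).Nodup := by
  rw [List.Nodup, List.pairwise_map]
  refine (qOK_incr h).imp_of_mem ?_
  intro a b ha hb hab heq
  exact absurd (support₂_dec_injective (qOK_mem h ha).1 (qOK_mem h hb).1 heq) (Nat.ne_of_lt hab)

theorem qSet_card {L : List ℕ} (h : qOK L = true) : (sxSet L).card = 4 := by
  rw [sxSet, List.toFinset_card_of_nodup (qSet_nodup h), List.length_map, qOK_length h]

theorem qSet_mem_quartets {L : List ℕ} (h : qOK L = true) :
    sxSet L ∈ quartets (support₂ (dec 340831)) := by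
  refine ⟨qSet_card h, ?_, ?_⟩
  · intro t ht
    obtain ⟨m, hm, rfl⟩ := mem_sxSet.mp ht
    obtain ⟨h1, h2, h3⟩ := qOK_mem h hm
    exact ⟨by rw [← popcF_eq_card h1]; exact h2, (support₂_dec_subset h1).mpr h3⟩
  · intro t ht u hu hne
    obtain ⟨a, ha, rfl⟩ := mem_sxSet.mp ht
    obtain ⟨b, hb, rfl⟩ := mem_sxSet.mp hu
    have hab : a ≠ b := fun h => hne (by rw [h])
    have : Std.Symm (fun a b : ℕ => hexPair a b = true) :=
      ⟨fun a b h => by rw [hexPair_comm]; exact h⟩
    exact hexPair_hexad ((qOK_pair h).forall ha hb hab)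

theorem qSet_inj {L L' : List ℕ} (hL : qOK L = true) (hL' : qOK L' = true)
    (h : sxSet L = sxSet L') : L = L' := by
  have key : ∀ {A B : List ℕ}, qOK A = true → qOK B = true → sxSet A = sxSet B →
      ∀ m ∈ A, m ∈ B := by
    intro A B hA hB hAB m hm
    have h1 : support₂ (dec m) ∈ sxSet B := hAB ▸ mem_sxSet.mpr ⟨m, hm, rfl⟩
    obtain ⟨m', hm', he⟩ := mem_sxSet.mp h1
    rw [← support₂_dec_injective (qOK_mem hB hm').1 (qOK_mem hA hm).1 he]
    exact hm'
  exact (qOK_incr hL).eq_of_mem_iff (qOK_incr hL') (fun m => ⟨key hL hL' h m, key hL' hL h.symm m⟩)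

theorem q0L_ok : qOK q0L = true := by decide +kernel

theorem q0_mem_quartets : sxSet q0L ∈ quartets (support₂ (dec 340831)) :=
  qSet_mem_quartets q0L_ok

/-- The 220 quartets of the dodecad of squares. -/
def qL : List (List ℕ) :=
  [[7, 336, 70144, 270344], [7, 584, 73744, 266496], [7, 4120, 8960, 327744], [7, 12352, 65800, 262672],
   [11, 580, 77824, 262416], [11, 4116, 8512, 328192], [11, 4864, 65616, 270340], [11, 8720, 65796, 266304],
   [13, 578, 12544, 327696], [13, 784, 69696, 270338], [13, 4114, 74240, 262464], [13, 8272, 65794, 266752],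
   [14, 577, 8464, 331776], [14, 4113, 73792, 262912], [14, 4416, 66064, 270337], [14, 12800, 65793, 262224],
   [19, 324, 8712, 331776], [19, 4108, 66304, 270400], [19, 4672, 73732, 262408], [19, 12544, 65608, 262660],
   [21, 322, 12800, 327688], [21, 776, 73730, 266304], [21, 4106, 66112, 270592], [21, 8264, 69888, 262658],
   [22, 321, 66056, 274432], [22, 4105, 8768, 327936], [22, 4864, 73729, 262216], [22, 8456, 69696, 262657],
   [25, 772, 65602, 274432], [25, 4102, 73984, 262720], [25, 4416, 8706, 327684], [25, 8260, 70144, 262402],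
   [26, 832, 4101, 335872], [26, 8452, 65601, 266752], [26, 8705, 69888, 262212], [26, 12352, 66052, 262401],
   [28, 769, 77824, 262210], [28, 4099, 65856, 270848], [28, 4672, 8450, 327681], [28, 8257, 66050, 266496],
   [67, 276, 74240, 266248], [67, 524, 69888, 270352], [67, 4624, 8456, 327684], [67, 12292, 65560, 262912],
   [69, 274, 69640, 270848], [69, 522, 73984, 266256], [69, 4864, 8216, 327682], [69, 12290, 66064, 262408],
   [70, 273, 73736, 266752], [70, 521, 69648, 270592], [70, 4360, 8720, 327681], [70, 12289, 66304, 262168],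
   [73, 518, 4368, 335872], [73, 8212, 66304, 266242], [73, 8450, 69636, 262672], [73, 12800, 65554, 262404],
   [74, 517, 12304, 327936], [74, 784, 73732, 266241], [74, 4356, 65553, 270848], [74, 8449, 70144, 262164],
   [76, 515, 65808, 274432], [76, 4354, 8209, 328192], [76, 4624, 73730, 262401], [76, 8960, 69633, 262162],
   [81, 262, 77824, 262664], [81, 4360, 66052, 270338], [81, 4610, 8204, 327936], [81, 8960, 65546, 266244],
   [82, 261, 12296, 328192], [82, 776, 69636, 270337], [82, 4609, 73984, 262156], [82, 8708, 65545, 266496],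
   [84, 259, 4616, 335872], [84, 8201, 69634, 262912], [84, 8706, 65800, 266241], [84, 12544, 66049, 262154],
   [88, 770, 8197, 331776], [88, 4353, 74240, 262150], [88, 4612, 65539, 270592], [88, 12290, 65796, 262657],
   [259, 8264, 66064, 266244], [259, 8708, 69696, 262168], [259, 12304, 65548, 262720], [261, 536, 73792, 266242],
   [261, 4672, 65546, 270352], [261, 8706, 69648, 262216], [262, 4168, 8705, 327696], [262, 4624, 65545, 270400],
   [262, 8216, 66112, 266241], [265, 532, 8258, 331776], [265, 4176, 65542, 270848], [265, 4610, 73744, 262212],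
   [265, 12292, 66112, 262162], [266, 592, 65541, 274432], [266, 4164, 74240, 262161], [266, 4609, 8212, 327744],
   [266, 8257, 69648, 262660], [268, 529, 4162, 335872], [268, 8210, 70144, 262209], [268, 8768, 65539, 266256],
   [268, 12289, 65616, 262658], [273, 524, 12290, 327744], [273, 4168, 66050, 270340], [273, 8768, 69636, 262154],
   [274, 584, 12289, 327684], [274, 4612, 73792, 262153], [274, 8204, 66049, 266304], [276, 521, 12352, 327682],
   [276, 4610, 65608, 270337], [276, 8202, 69633, 262720], [280, 517, 69634, 270400], [280, 578, 73729, 266244],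
   [280, 4161, 8198, 328192], [280, 12800, 65604, 262147], [321, 4120, 73732, 262658], [321, 4612, 8202, 327696],
   [321, 8720, 69634, 262156], [322, 536, 69633, 270340], [322, 4108, 73744, 262657], [322, 8201, 66052, 266256],
   [324, 4106, 73729, 262672], [324, 4609, 65560, 270338], [324, 12304, 66050, 262153], [328, 530, 77824, 262149],
   [328, 4102, 66049, 270352], [328, 4113, 8708, 327682], [328, 8195, 65556, 266752], [336, 522, 12292, 327681],
   [336, 4105, 73730, 262660], [336, 8705, 65548, 266242], [515, 4176, 8452, 327688], [515, 4360, 73792, 262164],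
   [515, 8216, 69636, 262464], [517, 4416, 73736, 262162], [517, 8450, 65616, 266248], [518, 8272, 69633, 262408],
   [518, 8449, 65560, 266304], [518, 12296, 65856, 262161], [521, 4354, 73732, 262224], [521, 8210, 65856, 266244],
   [522, 4353, 65556, 270400], [522, 8209, 69696, 262404], [524, 4176, 73729, 262402], [524, 8512, 65554, 266241],
   [529, 8202, 65604, 266496], [529, 8512, 69640, 262150], [529, 12292, 65794, 262216], [530, 4161, 65548, 270592],
   [530, 4356, 8201, 327744], [530, 8260, 65793, 266248], [532, 4168, 73984, 262147], [532, 4354, 65601, 270344],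
   [532, 12289, 65546, 262464], [536, 4164, 8195, 327936], [536, 12544, 65542, 262209], [577, 4114, 65800, 270340],
   [577, 4356, 73730, 262168], [577, 12296, 65556, 262402], [578, 4113, 65796, 270344], [578, 8212, 69640, 262401],
   [580, 4120, 65794, 270337], [580, 4353, 8210, 327688], [580, 8456, 65553, 266242], [584, 4116, 65793, 270338],
   [584, 8452, 69634, 262161], [592, 4099, 73736, 262404], [592, 4108, 8449, 327682], [592, 8198, 69888, 262153],
   [769, 4106, 8272, 327684], [769, 4164, 65554, 270344], [769, 8198, 65608, 266256], [770, 4105, 65604, 270352],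
   [770, 4116, 73736, 262209], [770, 12352, 65553, 262156], [772, 4114, 8264, 327681], [772, 4161, 73744, 262154],
   [772, 8195, 69640, 262224], [776, 4099, 8260, 327696], [776, 12304, 65601, 262150], [784, 4102, 8257, 327688],
   [784, 12296, 65539, 262212], [832, 8204, 69648, 262147], [832, 8209, 65542, 266248], [832, 12290, 65545, 262164],
   [4099, 8464, 66052, 262216], [4101, 8258, 65808, 262664], [4101, 8456, 66050, 262224], [4101, 8720, 65608, 262402],
   [4102, 8712, 65616, 262401], [4105, 8452, 66064, 262210], [4106, 8708, 65808, 262209], [4108, 8706, 65601, 262416],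
   [4113, 8450, 66056, 262212], [4114, 8449, 65604, 262664], [4116, 8705, 65602, 262408], [4120, 8258, 66049, 262404],
   [4161, 8712, 65794, 262164], [4162, 8197, 66056, 262416], [4162, 8216, 65793, 262660], [4162, 8960, 65556, 262153],
   [4164, 8464, 65545, 262658], [4168, 8210, 65541, 262912], [4176, 8202, 66304, 262149], [4353, 8204, 65602, 262672],
   [4354, 8768, 65560, 262149], [4356, 8272, 66056, 262147], [4360, 8197, 65554, 262720], [4368, 8195, 66112, 262156],
   [4368, 8260, 65546, 262657], [4368, 8712, 65541, 262210], [4416, 8212, 65539, 262664], [4609, 8264, 65542, 262416],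
   [4610, 8512, 65541, 262168], [4612, 8209, 65800, 262210], [4616, 8198, 65553, 262464], [4616, 8257, 65796, 262162],
   [4616, 8464, 65602, 262149], [4624, 8197, 65856, 262154], [4672, 8201, 65808, 262150], [4864, 8258, 65548, 262161]]

theorem qL_ok : qL.all qOK = true := by decide +kernel

theorem qL_mem_ok {L : List ℕ} (hL : L ∈ qL) : qOK L = true :=
  List.all_eq_true.mp qL_ok L hL

theorem qL_length : qL.length = 220 := by decide +kernel

theorem qL_nodup : qL.Nodup := by decide +kernel

/-- The triples of the dodecad of squares through the point `0`. -/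
def qHeads : List ℕ :=
  [7, 11, 13, 19, 21, 25, 67, 69, 73, 81,
   259, 261, 265, 273, 321, 515, 517, 521, 529, 577,
   769, 4099, 4101, 4105, 4113, 4161, 4353, 4609, 8195, 8197,
   8201, 8209, 8257, 8449, 8705, 12289, 65539, 65541, 65545, 65553,
   65601, 65793, 66049, 69633, 73729, 262147, 262149, 262153, 262161, 262209,
   262401, 262657, 266241, 270337, 327681]

theorem qHeads_ok : qHeads.all (fun m => m.testBit 0 && popcF m == 3 && m &&& 340831 == m &&
    decide (m < 2 ^ 24)) = true := by decide +kernel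

theorem qHeads_incr : incr qHeads = true := by decide +kernel

theorem qHeads_length : qHeads.length = 55 := by decide +kernel

theorem qHeads_mem {m : ℕ} (hm : m ∈ qHeads) :
    m.testBit 0 = true ∧ popcF m = 3 ∧ m &&& 340831 = m ∧ m < 2 ^ 24 := by
  have h := List.all_eq_true.mp qHeads_ok m hm
  simp only [Bool.and_eq_true, beq_iff_eq, decide_eq_true_eq] at h
  exact ⟨h.1.1.1, h.1.1.2, h.1.2, h.2⟩

theorem card_D0 : (support₂ (dec 340831)).card = 12 := by
  rw [← popcF_eq_card (by norm_num)]
  decide +kernel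

theorem pt0_mem_D0 : pt 0 ∈ support₂ (dec 340831) := by
  rw [mem_support₂_dec, idx_pt (by norm_num)]
  decide

theorem exists_qHead {t : Finset GolayPt} (h3 : t.card = 3) (hsub : t ⊆ support₂ (dec 340831))
    (h0 : pt 0 ∈ t) : ∃ m ∈ qHeads, support₂ (dec m) = t := by
  classical
  have hsubF : (qHeads.map (fun m => support₂ (dec m))).toFinset ⊆
      ((support₂ (dec 340831)).powersetCard 3).filter (fun t => {pt 0} ⊆ t) := by
    intro s hs
    obtain ⟨m, hm, rfl⟩ := List.mem_map.mp (List.mem_toFinset.mp hs)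
    obtain ⟨hb, hp, hs, hlt⟩ := qHeads_mem hm
    rw [Finset.mem_filter, Finset.mem_powersetCard, Finset.singleton_subset_iff,
      mem_support₂_dec, idx_pt (by norm_num), ← popcF_eq_card hlt]
    exact ⟨⟨(support₂_dec_subset hlt).mpr hs, hp⟩, hb⟩
  have hcard : (qHeads.map (fun m => support₂ (dec m))).toFinset.card = 55 := by
    rw [List.toFinset_card_of_nodup, List.length_map, qHeads_length]
    apply List.Nodup.map_on _ (incr_pairwise _ qHeads_incr).nodup
    intro a ha b hb hab
    exact support₂_dec_injective (qHeads_mem ha).2.2.2 (qHeads_mem hb).2.2.2 hab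
  have hF : (((support₂ (dec 340831)).powersetCard 3).filter (fun t => {pt 0} ⊆ t)).card = 55 := by
    rw [card_powersetCard_superset _ {pt 0} (Finset.singleton_subset_iff.mpr pt0_mem_D0) 3
      (by simp), card_D0]
    rfl
  have heq := Finset.eq_of_subset_of_card_le hsubF (by rw [hF, hcard])
  have ht : t ∈ ((support₂ (dec 340831)).powersetCard 3).filter (fun t => {pt 0} ⊆ t) := by
    rw [Finset.mem_filter, Finset.mem_powersetCard]
    exact ⟨⟨hsub, h3⟩, Finset.singleton_subset_iff.mpr h0⟩
  rw [← heq] at ht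
  obtain ⟨m, hm, rfl⟩ := List.mem_map.mp (List.mem_toFinset.mp ht)
  exact ⟨m, hm, rfl⟩

theorem complete_dec : qHeads.all (fun mt => octL.all (fun mo =>
    !(mt &&& (mo &&& 340831) == mt && popcF (mo &&& 340831) == 6) ||
      qL.any (fun L => L.contains mt &&
        L.contains ((mo &&& 340831) &&& (16777215 ^^^ mt))))) = true := by decide +kernel

theorem D0_eq_union : support₂ (dec 340831) =
    support₂ (dec 7) ∪ support₂ (dec 4120) ∪ support₂ (dec 8960) ∪ support₂ (dec 327744) := by
  rw [support₂_dec_or, support₂_dec_or, support₂_dec_or]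
  rfl

/-- Every quartet of the dodecad of squares is in the list. -/
theorem exists_qL {Q : Finset (Finset GolayPt)} (hQ : Q ∈ quartets (support₂ (dec 340831))) :
    ∃ L ∈ qL, Q = sxSet L := by
  have hcard : 1 < Q.card := by rw [hQ.1]; norm_num
  obtain ⟨t, ht, u, hu, hne⟩ := Finset.one_lt_card.mp hcard
  obtain ⟨σ, hσ, -, -, h3⟩ := exists_quartet_perm hQ ht hu hne
  -- a triple of `Q` through the point `0`
  have hp : σ⁻¹ (pt 0) ∈ support₂ (dec 340831) := by
    have h1 : σ⁻¹ • pt 0 ∈ σ⁻¹ • support₂ (dec 340831) := Finset.smul_mem_smul_finset pt0_mem_D0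
    rwa [m12_inv_smul_D0 hσ] at h1
  have hex : ∃ m ∈ q0L, σ⁻¹ (pt 0) ∈ support₂ (dec m) := by
    rw [D0_eq_union, Finset.mem_union, Finset.mem_union, Finset.mem_union] at hp
    rcases hp with ((hp | hp) | hp) | hp
    · exact ⟨7, by decide, hp⟩
    · exact ⟨4120, by decide, hp⟩
    · exact ⟨8960, by decide, hp⟩
    · exact ⟨327744, by decide, hp⟩
  obtain ⟨m0, hm0, hpm⟩ := hex
  have ht1 : σ • support₂ (dec m0) ∈ Q := by
    rw [← h3]
    exact Finset.smul_mem_smul_finset (mem_sxSet.mpr ⟨m0, hm0, rfl⟩)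
  have h01 : pt 0 ∈ σ • support₂ (dec m0) := by
    have h1 : σ • σ⁻¹ (pt 0) ∈ σ • support₂ (dec m0) := Finset.smul_mem_smul_finset hpm
    rwa [Equiv.Perm.smul_def, ← Equiv.Perm.mul_apply, mul_inv_cancel, Equiv.Perm.one_apply] at h1
  obtain ⟨mt, hmt, hmte⟩ := exists_qHead (hQ.2.1 _ ht1).1 (hQ.2.1 _ ht1).2 h01
  obtain ⟨u', hu', hne'⟩ := Finset.exists_mem_ne hcard (σ • support₂ (dec m0))
  obtain ⟨hb, hp3, hs, hlt⟩ := qHeads_mem hmt
  have hh := hQ.2.2 _ ht1 u' hu' (Ne.symm hne')
  rw [← hmte] at hh
  obtain ⟨mo, hmo, h6, hsm, hue⟩ := partner_mask (D := 340831) (by norm_num) hlt hp3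
    (hQ.2.1 u' hu').1 hh
  have hd := List.all_eq_true.mp (List.all_eq_true.mp complete_dec mt hmt) mo hmo
  rw [Bool.or_eq_true, Bool.not_eq_true', Bool.and_eq_false_iff, beq_eq_false_iff_ne,
    beq_eq_false_iff_ne, List.any_eq_true] at hd
  rcases hd with (hd | hd) | ⟨L, hL, hLc⟩
  · exact absurd hsm hd
  · exact absurd h6 hd
  · rw [Bool.and_eq_true, List.contains_iff_mem, List.contains_iff_mem] at hLc
    refine ⟨L, hL, quartet_eq_of_two hQ (qSet_mem_quartets (qL_mem_ok hL)) ht1 hu' ?_ ?_
      (Ne.symm hne')⟩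
    · rw [← hmte]
      exact mem_sxSet.mpr ⟨mt, hLc.1, rfl⟩
    · rw [hue]
      exact mem_sxSet.mpr ⟨_, hLc.2, rfl⟩

/-- Counting quartets of the dodecad of squares with a property. -/
theorem ncard_quartets_filter (P : Finset (Finset GolayPt) → Prop) (p : List ℕ → Bool)
    (h : ∀ L ∈ qL, P (sxSet L) ↔ p L = true) :
    {Q | Q ∈ quartets (support₂ (dec 340831)) ∧ P Q}.ncard = (qL.filter p).length := by
  classical
  have heq : {Q | Q ∈ quartets (support₂ (dec 340831)) ∧ P Q} =
      sxSet '' (((qL.filter p).toFinset : Finset (List ℕ)) : Set (List ℕ)) := by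
    ext S
    simp only [Set.mem_ofPred_eq, Set.mem_image, Finset.mem_coe, List.mem_toFinset,
      List.mem_filter]
    constructor
    · rintro ⟨hS, hP⟩
      obtain ⟨L, hL, rfl⟩ := exists_qL hS
      exact ⟨L, ⟨hL, (h L hL).mp hP⟩, rfl⟩
    · rintro ⟨L, ⟨hL, hp⟩, rfl⟩
      exact ⟨qSet_mem_quartets (qL_mem_ok hL), (h L hL).mpr hp⟩
  rw [heq, Set.InjOn.ncard_image, Set.ncard_coe_finset,
    List.toFinset_card_of_nodup (qL_nodup.filter _)]
  intro L hL L' hL' hLL'
  simp only [Finset.mem_coe, List.mem_toFinset, List.mem_filter] at hL hL'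
  exact qSet_inj (qL_mem_ok hL.1) (qL_mem_ok hL'.1) hLL'

theorem ncard_quartets_D0 : (quartets (support₂ (dec 340831))).ncard = 220 := by
  have h := ncard_quartets_filter (fun _ => True) (fun _ => true) (fun _ _ => by simp)
  have e : {Q | Q ∈ quartets (support₂ (dec 340831)) ∧ True} =
      quartets (support₂ (dec 340831)) := by
    ext Q
    simp
  rw [e, List.filter_true, qL_length] at h
  exact h

/-! ### General dodecads -/

/-- Every dodecad with a quartet is an image of the dodecad of squares with the base quartet. -/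
theorem exists_quartet_config {d : Finset GolayPt} (hd : d ∈ dodecads)
    {Q : Finset (Finset GolayPt)} (hQ : Q ∈ quartets d) :
    ∃ x ∈ M24, x • support₂ (dec 340831) = d ∧ x • sxSet q0L = Q := by
  obtain ⟨y, hy, hyd⟩ := exists_smul_dodecad hd
  have hQ' : y⁻¹ • Q ∈ quartets (support₂ (dec 340831)) := by
    have := smul_quartet_mem (M24.inv_mem hy) hQ
    rwa [← hyd, inv_smul_smul] at this
  have hcard : 1 < (y⁻¹ • Q).card := by rw [hQ'.1]; norm_num
  obtain ⟨t, ht, u, hu, hne⟩ := Finset.one_lt_card.mp hcard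
  obtain ⟨σ, hσ, -, -, h3⟩ := exists_quartet_perm hQ' ht hu hne
  refine ⟨y * σ, M24.mul_mem hy hσ.1, ?_, ?_⟩
  · rw [mul_smul, m12_smul_D0 σ hσ, hyd]
  · rw [mul_smul, h3, smul_inv_smul]

end Cfsg.Agent.Lib.Helper95
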