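import Cfsg.Agent.Lib.Helper95.Quartet
import Cfsg.Agent.Lib.Helper95.SextetAux

/-!
# The stabiliser of a quartet

Membership test for the stabiliser of the base quartet of the dodecad of squares, orbit
certificates on quartets, and an invariant of pairs of quartets.
-/

set_option autoImplicit false
open scoped Pointwise
open Cfsg

namespace Cfsg.Agent.Lib.Helper95

open Cfsg.Agent.Lib.Helper9

/-- The stabiliser of the dodecad of squares and of its base quartet. -/
abbrev qStab0 : Subgroup (Equiv.Perm GolayPt) :=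
  (M24 ⊓ setStab [340831]) ⊓ MulAction.stabilizer (Equiv.Perm GolayPt) (sxSet q0L)

/-- Membership test for `qStab0`. -/
def kOK (T : List ℕ) : Bool := memOK [340831] T && q0L.all (fun m => q0L.contains (push T m))

theorem mem_qStab0_of_kOK {T : List ℕ} (h : kOK T = true) :
    permOK T = true ∧ tperm T ∈ qStab0 := by
  rw [kOK, Bool.and_eq_true] at h
  obtain ⟨h1, h2⟩ := h
  obtain ⟨hp, hm⟩ := tperm_mem_of_memOK h1
  refine ⟨hp, hm, ?_⟩
  show tperm T • sxSet q0L = sxSet q0L
  refine Finset.eq_of_subset_of_card_le ?_ ?_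
  · intro t ht
    obtain ⟨t0, ht0, rfl⟩ := Finset.mem_smul_finset.mp ht
    obtain ⟨m, hm0, rfl⟩ := mem_sxSet.mp ht0
    rw [smul_support₂_dec (hasTable_tperm hp)]
    have h3 := List.all_eq_true.mp h2 m hm0
    rw [List.contains_iff_mem] at h3
    exact mem_sxSet.mpr ⟨_, h3, rfl⟩
  · rw [Finset.card_smul_finset]

/-- Orbit certificate: every listed quartet is the image of the base quartet of its type under
a word in the generators (checked on two triples). -/
theorem quartet_orbit_cert {H : Subgroup (Equiv.Perm GolayPt)} (hH : H ≤ M24 ⊓ setStab [340831])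
    {env : List (Equiv.Perm GolayPt)} {tenv : List (List ℕ)} (hg : Good H env tenv)
    (ty : List ℕ → ℕ) (tys : List ℕ) (baseL : ℕ → List ℕ) (baseP baseP' : ℕ → List ℕ)
    (cert : List (List ℕ))
    (h1 : tys.all (fun k => qL.contains (baseL k) && (baseL k).contains (maskOf (baseP k)) &&
      (baseL k).contains (maskOf (baseP' k)) && (maskOf (baseP k) != maskOf (baseP' k)) &&
      (baseP k).all (fun p => decide (p < 24)) &&
      (baseP' k).all (fun p => decide (p < 24))) = true)
    (h2 : cert.length = qL.length)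
    (h3 : (qL.zip cert).all (fun Lw => tys.contains (ty Lw.1) &&
      Lw.1.contains (maskOf (applyW tenv Lw.2 (baseP (ty Lw.1)))) &&
      Lw.1.contains (maskOf (applyW tenv Lw.2 (baseP' (ty Lw.1))))) = true) :
    ∀ L ∈ qL, baseL (ty L) ∈ qL ∧ ∃ σ ∈ H, σ • sxSet (baseL (ty L)) = sxSet L := by
  intro L hL
  obtain ⟨i, hi, rfl⟩ := List.mem_iff_getElem.mp hL
  have hi' : i < cert.length := by rw [h2]; exact hi
  have hz : (qL[i], cert[i]) ∈ qL.zip cert := by
    have hlen : i < (qL.zip cert).length := by
      rw [List.length_zip]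
      omega
    have := List.getElem_mem hlen
    rwa [List.getElem_zip] at this
  have hc := List.all_eq_true.mp h3 _ hz
  simp only [Bool.and_eq_true, List.contains_iff_mem] at hc
  obtain ⟨⟨hty, hmem⟩, hmem'⟩ := hc
  have hb := List.all_eq_true.mp h1 _ hty
  simp only [Bool.and_eq_true, List.contains_iff_mem, List.all_eq_true, decide_eq_true_eq,
    bne_iff_ne] at hb
  obtain ⟨⟨⟨⟨⟨hB, hBm⟩, hBm'⟩, hne⟩, hpts⟩, hpts'⟩ := hb
  refine ⟨hB, ?_⟩
  obtain ⟨hlt, hsm⟩ := prodW_smul_pts hg (baseP (ty qL[i])) hpts cert[i]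
  obtain ⟨hlt', hsm'⟩ := prodW_smul_pts hg (baseP' (ty qL[i])) hpts' cert[i]
  have hσ := (hg.prod cert[i]).1
  have hBok := qL_mem_ok hB
  refine ⟨prodW env cert[i], hσ, ?_⟩
  have hQ1 : prodW env cert[i] • sxSet (baseL (ty qL[i])) ∈ quartets (support₂ (dec 340831)) := by
    have := smul_quartet_mem (hH hσ).1 (qSet_mem_quartets hBok)
    rwa [m12_smul_D0 _ (hH hσ)] at this
  apply quartet_eq_of_two hQ1 (qSet_mem_quartets (qL_mem_ok hL))
    (t := support₂ (dec (maskOf (applyW tenv cert[i] (baseP (ty qL[i]))))))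
    (u := support₂ (dec (maskOf (applyW tenv cert[i] (baseP' (ty qL[i]))))))
  · rw [support₂_maskOf _ hlt, ← hsm, ← support₂_maskOf _ hpts]
    exact Finset.smul_mem_smul_finset (mem_sxSet.mpr ⟨_, hBm, rfl⟩)
  · rw [support₂_maskOf _ hlt', ← hsm', ← support₂_maskOf _ hpts']
    exact Finset.smul_mem_smul_finset (mem_sxSet.mpr ⟨_, hBm', rfl⟩)
  · exact mem_sxSet.mpr ⟨_, hmem, rfl⟩
  · exact mem_sxSet.mpr ⟨_, hmem', rfl⟩
  · rw [support₂_maskOf _ hlt, ← hsm, ← support₂_maskOf _ hpts, support₂_maskOf _ hlt', ← hsm',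
      ← support₂_maskOf _ hpts']
    intro heq
    exact hne (support₂_dec_injective (qOK_mem hBok hBm).1 (qOK_mem hBok hBm').1
      (MulAction.injective _ heq))

/-! ### An invariant of a pair of families -/

/-- The number of pairs of members of the two families meeting in exactly one point. -/
def ty1 (Q X : Finset (Finset GolayPt)) : ℕ :=
  ∑ q ∈ Q, (X.filter fun x => (q ∩ x).card = 1).card

theorem ty1_smul (x : Equiv.Perm GolayPt) (Q X : Finset (Finset GolayPt)) :
    ty1 (x • Q) (x • X) = ty1 Q X := by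
  classical
  unfold ty1
  have eQ : x • Q = Q.image (fun t => x • t) := rfl
  rw [eQ, Finset.sum_image (fun a _ b _ h => MulAction.injective x h)]
  apply Finset.sum_congr rfl
  intro q _
  have eX : x • X = X.image (fun t => x • t) := rfl
  rw [eX, Finset.filter_image, Finset.card_image_of_injective _ (MulAction.injective x)]
  congr 1
  apply Finset.filter_congr
  intro t _
  rw [← Finset.smul_finset_inter, Finset.card_smul_finset]

/-- The invariant of a listed quartet against the base quartet. -/
def tyL (L : List ℕ) : ℕ := (q0L.map (fun q => L.countP (fun m => popcF (q &&& m) == 1))).sum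

theorem ty1_qSet {L : List ℕ} (hL : qOK L = true) : ty1 (sxSet q0L) (sxSet L) = tyL L := by
  classical
  unfold ty1 tyL
  rw [sxSet, List.sum_toFinset _ (qSet_nodup q0L_ok), List.map_map]
  congr 1
  apply List.map_congr_left
  intro q _
  show ((sxSet L).filter (fun x => (support₂ (dec q) ∩ x).card = 1)).card = _
  rw [sxSet]
  apply card_filter_map_toFinset _ _ _ L (qSet_nodup hL)
  intro m hm
  rw [support₂_dec_inter, ← popcF_eq_card (lt_of_le_of_lt Nat.and_le_right (qOK_mem hL hm).1)]
  simp

end Cfsg.Agent.Lib.Helper95
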