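import Cfsg.Agent.Lib.Helper95.TrioData

/-!
# Groups of tables generated by a polycyclic sequence

A variant of `spanSubgroup` without the assumption that the elements are involutions.
-/

set_option autoImplicit false
open scoped Pointwise
open Cfsg

namespace Cfsg.Agent.Lib.Helper95

open Cfsg.Agent.Lib.Helper9

/-- The check that the list consists of the products of the sublists of the generators and is
closed under multiplication by the generators. -/
def spanOK2 (gens L : List (List ℕ)) : Bool :=
  gens.all permOK && L == spanT gens &&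
    L.all (fun S => gens.all (fun g => L.contains (compT S g)))

theorem spanOK2_spec {gens L : List (List ℕ)} (h : spanOK2 gens L = true) :
    (∀ g ∈ gens, permOK g = true) ∧ L = spanT gens ∧
      (∀ S ∈ L, ∀ g ∈ gens, compT S g ∈ L) := by
  simp only [spanOK2, Bool.and_eq_true, List.all_eq_true, beq_iff_eq, List.contains_iff_mem] at h
  exact ⟨h.1.1, h.1.2, h.2⟩

theorem spanOK2_perm {gens L : List (List ℕ)} (h : spanOK2 gens L = true) {S : List ℕ}
    (hS : S ∈ L) : permOK S = true := by
  obtain ⟨hg, hL, -⟩ := spanOK2_spec h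
  rw [hL] at hS
  exact (spanT_induction (P := fun _ => True) trivial (fun _ _ _ _ => trivial) gens
    (fun g hg' => ⟨hg g hg', trivial⟩) S hS).1

/-- Induction over the members of the list. -/
theorem spanOK2_induction {gens L : List (List ℕ)} (h : spanOK2 gens L = true)
    {P : Equiv.Perm GolayPt → Prop} (h1 : P 1) (hmul : ∀ x y, P x → P y → P (x * y))
    (hgen : ∀ g ∈ gens, P (tperm g)) {S : List ℕ} (hS : S ∈ L) : P (tperm S) := by
  obtain ⟨hg, hL, -⟩ := spanOK2_spec h
  rw [hL] at hS
  exact (spanT_induction h1 hmul gens (fun g hg' => ⟨hg g hg', hgen g hg'⟩) S hS).2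

/-- The submonoid of the permutations tabulated in the list. -/
def spanSubmonoid2 (gens L : List (List ℕ)) (h : spanOK2 gens L = true) :
    Submonoid (Equiv.Perm GolayPt) where
  carrier := {σ | ∃ T ∈ L, σ = tperm T}
  mul_mem' := by
    rintro _ _ ⟨S, hS, rfl⟩ ⟨T, hT, rfl⟩
    obtain ⟨hg, hL, hc⟩ := spanOK2_spec h
    have key := spanOK2_induction h (P := fun x => ∀ S ∈ L, ∃ U ∈ L, tperm S * x = tperm U)
      (fun S hS => ⟨S, hS, mul_one _⟩)
      (fun x y hx hy S hS => by
        obtain ⟨U, hU, hxU⟩ := hx S hS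
        obtain ⟨U', hU', hyU⟩ := hy U hU
        exact ⟨U', hU', by rw [← mul_assoc, hxU, hyU]⟩)
      (fun g hg' S hS => ⟨compT S g, hc S hS g hg', tperm_mul (spanOK2_perm h hS) (hg g hg')⟩) hT
    exact key S hS
  one_mem' := by
    obtain ⟨-, hL, -⟩ := spanOK2_spec h
    exact ⟨idT, by rw [hL]; exact idT_mem_spanT gens, tperm_idT.symm⟩

/-- The subgroup of the permutations tabulated in the list. -/
def spanSubgroup2 (gens L : List (List ℕ)) (h : spanOK2 gens L = true) :
    Subgroup (Equiv.Perm GolayPt) :=
  { spanSubmonoid2 gens L h with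
    inv_mem' := by
      intro x hx
      have h1 : x⁻¹ ∈ Submonoid.powers x :=
        mem_powers_iff_mem_zpowers.mpr (Subgroup.inv_mem _ (Subgroup.mem_zpowers x))
      obtain ⟨n, hn⟩ := (Submonoid.mem_powers_iff _ _).mp h1
      have h2 : x ^ n ∈ spanSubmonoid2 gens L h := Submonoid.pow_mem _ hx n
      rw [← hn]
      exact h2 }

theorem mem_spanSubgroup2 {gens L : List (List ℕ)} {h : spanOK2 gens L = true}
    {σ : Equiv.Perm GolayPt} : σ ∈ spanSubgroup2 gens L h ↔ ∃ T ∈ L, σ = tperm T := Iff.rfl

theorem card_spanSubgroup2 (gens L : List (List ℕ)) (h : spanOK2 gens L = true)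
    (hnd : L.Nodup) : Nat.card ↥(spanSubgroup2 gens L h) = L.length := by
  classical
  apply le_antisymm
  · have e : ((spanSubgroup2 gens L h : Subgroup (Equiv.Perm GolayPt)) :
        Set (Equiv.Perm GolayPt)) = tperm '' ((L.toFinset : Finset (List ℕ)) : Set (List ℕ)) := by
      ext σ
      simp only [SetLike.mem_coe, mem_spanSubgroup2, Set.mem_image, List.mem_toFinset]
      constructor
      · rintro ⟨T, hT, rfl⟩
        exact ⟨T, hT, rfl⟩
      · rintro ⟨T, hT, rfl⟩
        exact ⟨T, hT, rfl⟩
    have h1 : Nat.card ↥(spanSubgroup2 gens L h) =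
        ((spanSubgroup2 gens L h : Subgroup (Equiv.Perm GolayPt)) :
          Set (Equiv.Perm GolayPt)).ncard := rfl
    rw [h1, e]
    refine (Set.ncard_image_le (Finset.finite_toSet _)).trans ?_
    rw [Set.ncard_coe_finset]
    exact List.toFinset_card_le _
  · exact card_ge_of_tables L hnd (fun T hT => ⟨spanOK2_perm h hT, T, hT, rfl⟩)

/-- A table conjugates the tabulated subgroup into itself if it does so for the generators. -/
theorem conj_mem_of_gens2 {gens L : List (List ℕ)} {h : spanOK2 gens L = true} {T : List ℕ}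
    (hT : permOK T = true)
    (hc : gens.all (fun g => L.contains (compT (compT T g) (invT T))) = true) :
    tperm T ∈ conjSubmonoid (spanSubgroup2 gens L h) := by
  rintro _ ⟨S, hS, rfl⟩
  obtain ⟨hg, -, -⟩ := spanOK2_spec h
  refine spanOK2_induction h (P := fun x => tperm T * x * (tperm T)⁻¹ ∈ spanSubgroup2 gens L h)
    ?_ ?_ ?_ hS
  · simp
  · intro x y hx hy
    have e : tperm T * (x * y) * (tperm T)⁻¹ =
        (tperm T * x * (tperm T)⁻¹) * (tperm T * y * (tperm T)⁻¹) := by group
    rw [e]
    exact (spanSubgroup2 gens L h).mul_mem hx hy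
  · intro g hg'
    have h1 := List.all_eq_true.mp hc g hg'
    rw [List.contains_iff_mem] at h1
    refine ⟨_, h1, ?_⟩
    rw [tperm_inv hT, tperm_mul hT (hg g hg'), tperm_mul (permOK_compT hT (hg g hg'))
      (permOK_invT hT)]

end Cfsg.Agent.Lib.Helper95
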