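import Mathlib
import Cfsg.Prelude.Def_GeometricClasses

set_option autoImplicit false

namespace Cfsg.Agent.Lib.Helper95

open Matrix

/-- A transvection in `SL_n` fixing a subspace `P` pointwise and moving `x ∉ P` to `x + v`, `v ∈ P`. -/
theorem exists_transvection {F : Type*} [Field F] {n : ℕ} (P : Submodule F (Fin n → F))
    (v x : Fin n → F) (hv : v ∈ P) (hx : x ∉ P) :
    ∃ g : Matrix.GeneralLinearGroup (Fin n) F, g ∈ Cfsg.Geo.specialLinear (Fin n) F ∧
      (∀ y ∈ P, (g : Matrix (Fin n) (Fin n) F) *ᵥ y = y) ∧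
      (g : Matrix (Fin n) (Fin n) F) *ᵥ x = x + v := by
  obtain ⟨f, hfx, hfP⟩ := Submodule.exists_le_ker_of_notMem hx
  set φ : Fin n → F := fun j => (f x)⁻¹ * f (fun k => if j = k then 1 else 0) with hφ
  have hdot : ∀ y : Fin n → F, φ ⬝ᵥ y = (f x)⁻¹ * f y := by
    intro y
    rw [LinearMap.pi_apply_eq_sum_univ f y, Finset.mul_sum]
    unfold dotProduct
    apply Finset.sum_congr rfl
    intro j _
    rw [hφ, smul_eq_mul]
    ring
  have hfv : f v = 0 := LinearMap.mem_ker.mp (hfP hv)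
  set M : Matrix (Fin n) (Fin n) F := 1 + vecMulVec v φ with hM
  have hdet : M.det = 1 := by
    rw [hM, Matrix.vecMulVec_eq Unit, Matrix.det_one_add_replicateCol_mul_replicateRow, hdot, hfv,
      mul_zero, add_zero]
  have hmul : ∀ y : Fin n → F, M *ᵥ y = y + ((f x)⁻¹ * f y) • v := by
    intro y
    rw [hM, Matrix.add_mulVec, Matrix.one_mulVec, Matrix.vecMulVec_mulVec, hdot, op_smul_eq_smul]
  refine ⟨Matrix.GeneralLinearGroup.mkOfDetNeZero M (by rw [hdet]; exact one_ne_zero), ?_, ?_, ?_⟩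
  · unfold Cfsg.Geo.specialLinear
    rw [MonoidHom.mem_ker]
    apply Units.ext
    rw [Matrix.GeneralLinearGroup.val_det_apply]
    exact hdet
  · intro y hy
    show M *ᵥ y = y
    rw [hmul, LinearMap.mem_ker.mp (hfP hy), mul_zero, zero_smul, add_zero]
  · show M *ᵥ x = x + v
    rw [hmul, inv_mul_cancel₀ hfx, one_smul]

/-- An invertible matrix fixing `W` pointwise lies in the stabiliser of `W`. -/
theorem mem_subspaceStabilizer_of_fix {F : Type*} [Field F] {n : ℕ} (W : Submodule F (Fin n → F))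
    (g : Matrix.GeneralLinearGroup (Fin n) F)
    (hg : ∀ y ∈ W, (g : Matrix (Fin n) (Fin n) F) *ᵥ y = y) :
    g ∈ Cfsg.Geo.subspaceStabilizer W := by
  intro y
  show y ∈ W ↔ (g : Matrix (Fin n) (Fin n) F) *ᵥ y ∈ W
  constructor
  · intro hy
    rw [hg y hy]; exact hy
  · intro hy
    have h1 : ((g⁻¹ : Matrix.GeneralLinearGroup (Fin n) F) : Matrix (Fin n) (Fin n) F) *ᵥ
        ((g : Matrix (Fin n) (Fin n) F) *ᵥ y) = y := by
      rw [Matrix.mulVec_mulVec, ← Units.val_mul, inv_mul_cancel, Units.val_one, Matrix.one_mulVec]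
    have h2 : ((g⁻¹ : Matrix.GeneralLinearGroup (Fin n) F) : Matrix (Fin n) (Fin n) F) *ᵥ
        ((g : Matrix (Fin n) (Fin n) F) *ᵥ y) = (g : Matrix (Fin n) (Fin n) F) *ᵥ y := by
      conv_lhs => rw [← hg _ hy]
      rw [Matrix.mulVec_mulVec, ← Units.val_mul, inv_mul_cancel, Units.val_one, Matrix.one_mulVec]
    rw [← h1, h2]
    exact hy

theorem not_mem_subspaceStabilizer {F : Type*} [Field F] {n : ℕ} (W : Submodule F (Fin n → F))
    (g : Matrix.GeneralLinearGroup (Fin n) F) (x : Fin n → F) (hx : x ∈ W)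
    (hgx : (g : Matrix (Fin n) (Fin n) F) *ᵥ x ∉ W) :
    g ∉ Cfsg.Geo.subspaceStabilizer W := by
  intro h
  exact hgx ((h x).mp hx)

end Cfsg.Agent.Lib.Helper95
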