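import Cfsg.Agent.Lib.Helper95.TransvMat

/-!
# The centraliser of a transvection in the special linear group over the field with two elements
-/

set_option autoImplicit false

namespace Cfsg.Agent.Lib.Helper95

open Matrix

section

variable {n : ℕ}

/-- The transvection as a matrix of the family. -/
theorem gm_transvection : gm (0 : Fin n → ZMod 2) 0 1 1 = Matrix.transvection 0 1 1 := by
  ext i j
  revert i j
  refine fin_cases3 ?_ ?_ (fun k => ?_) <;> refine fin_cases3 ?_ ?_ (fun l => ?_) <;>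
    simp [Matrix.transvection, Matrix.one_apply, Matrix.single_apply, one_ne_zero3,
      succ_succ_ne_zero3, succ_succ_ne_one3, succ_succ_inj3,
      Ne.symm one_ne_zero3, Ne.symm (succ_succ_ne_zero3 _), Ne.symm (succ_succ_ne_one3 _)]

theorem gm_single (k : Fin n) :
    gm (Pi.single k 1) 0 0 1 = 1 + Matrix.single 0 k.succ.succ (1 : ZMod 2) := by
  ext i j
  revert i j
  refine fin_cases3 ?_ ?_ (fun k' => ?_) <;> refine fin_cases3 ?_ ?_ (fun l => ?_) <;>
    simp [Matrix.one_apply, Matrix.single_apply, Pi.single_apply, one_ne_zero3,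
      succ_succ_ne_zero3, succ_succ_ne_one3, succ_succ_inj3,
      Ne.symm one_ne_zero3, Ne.symm (succ_succ_ne_zero3 _), Ne.symm (succ_succ_ne_one3 _)]
  · by_cases h : k = l
    · simp [h]
    · simp [h, Ne.symm h]

/-- The entries of a matrix commuting with the transvection. -/
theorem comm_entries (M : Matrix (Fin (n + 2)) (Fin (n + 2)) (ZMod 2))
    (h : M * gm 0 0 1 1 = gm 0 0 1 1 * M) :
    M 1 0 = 0 ∧ (∀ k : Fin n, M k.succ.succ 0 = 0) ∧ (∀ l : Fin n, M 1 l.succ.succ = 0) ∧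
      M 0 0 = M 1 1 := by
  have key : ∀ i j, ∑ m, M i m * gm (0 : Fin n → ZMod 2) 0 1 1 m j =
      ∑ m, gm (0 : Fin n → ZMod 2) 0 1 1 i m * M m j := by
    intro i j
    have := congrFun (congrFun h i) j
    rwa [Matrix.mul_apply, Matrix.mul_apply] at this
  refine ⟨?_, ?_, ?_, ?_⟩
  · have h1 := key 0 0
    simp [sum3] at h1
    exact h1
  · intro k
    have h1 := key k.succ.succ 1
    simp [sum3, Matrix.one_apply] at h1
    exact h1
  · intro l
    have h1 := key 0 l.succ.succ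
    simp [sum3, Matrix.one_apply] at h1
    exact h1
  · have h1 := key 0 1
    simp [sum3] at h1
    exact zmod2_add_cancel _ _ _ h1

/-- Every element commuting with the transvection is a matrix of the family. -/
theorem exists_gs_of_commute (g : Matrix.SpecialLinearGroup (Fin (n + 2)) (ZMod 2))
    (h : g * gs 0 0 1 1 = gs 0 0 1 1 * g) : ∃ u v c A, g = gs u v c A := by
  have hM : g.1 * gm 0 0 1 1 = gm 0 0 1 1 * g.1 := congrArg Subtype.val h
  have hM' : (g⁻¹).1 * gm 0 0 1 1 = gm 0 0 1 1 * (g⁻¹).1 := by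
    have h2 : g⁻¹ * gs 0 0 1 1 = gs 0 0 1 1 * g⁻¹ :=
      (Commute.inv_left (show Commute g (gs 0 0 1 1) from h)).eq
    exact congrArg Subtype.val h2
  obtain ⟨e10, es0, e1s, e00⟩ := comm_entries g.1 hM
  obtain ⟨e10', es0', e1s', e00'⟩ := comm_entries (g⁻¹).1 hM'
  have h00 : g.1 0 0 = 1 := by
    apply zmod2_eq_one_of_ne_zero
    intro h0
    have hdet : g.1.det = 0 := by
      apply Matrix.det_eq_zero_of_column_eq_zero 0
      refine fin_cases3 h0 e10 es0
    rw [g.2] at hdet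
    exact one_ne_zero hdet
  have hinv : (Matrix.of fun k l : Fin n => g.1 k.succ.succ l.succ.succ) *
      (Matrix.of fun k l : Fin n => (g⁻¹).1 k.succ.succ l.succ.succ) = 1 := by
    ext k l
    have h1 : (g.1 * (g⁻¹).1) k.succ.succ l.succ.succ =
        (1 : Matrix (Fin (n + 2)) (Fin (n + 2)) (ZMod 2)) k.succ.succ l.succ.succ := by
      rw [← Matrix.SpecialLinearGroup.coe_mul, mul_inv_cancel, Matrix.SpecialLinearGroup.coe_one]
    rw [Matrix.mul_apply, sum3, es0 k, e1s' l, zero_mul, mul_zero, zero_add, zero_add] at h1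
    rw [Matrix.mul_apply]
    refine h1.trans ?_
    simp only [Matrix.one_apply, succ_succ_inj3]
  have hdet : (Matrix.of fun k l : Fin n => g.1 k.succ.succ l.succ.succ).det = 1 := by
    have h2 := congrArg Matrix.det hinv
    rw [Matrix.det_mul, Matrix.det_one] at h2
    exact zmod2_mul_eq_one _ _ h2
  refine ⟨fun l => g.1 0 l.succ.succ, fun k => g.1 k.succ.succ 1, g.1 0 1,
    ⟨Matrix.of fun k l : Fin n => g.1 k.succ.succ l.succ.succ, hdet⟩, ?_⟩
  apply Subtype.ext
  show g.1 = gm (fun l => g.1 0 l.succ.succ) (fun k => g.1 k.succ.succ 1) (g.1 0 1)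
    (Matrix.of fun k l : Fin n => g.1 k.succ.succ l.succ.succ)
  ext i j
  revert i j
  refine fin_cases3 ?_ ?_ (fun k => ?_) <;> refine fin_cases3 ?_ ?_ (fun l => ?_)
  · rw [gm_00]; exact h00
  · rw [gm_01]
  · rw [gm_0s]
  · rw [gm_10]; exact e10
  · rw [gm_11, ← e00]; exact h00
  · rw [gm_1s]; exact e1s l
  · rw [gm_s0]; exact es0 k
  · rw [gm_s1]
  · rw [gm_ss]; rfl

/-- The swap of the second index with a later one, in the special linear group. -/
noncomputable def swapS (k : Fin n) : Matrix.SpecialLinearGroup (Fin (n + 2)) (ZMod 2) :=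
  ⟨Equiv.Perm.permMatrix (ZMod 2) (Equiv.swap (1 : Fin (n + 2)) k.succ.succ), by
    rw [Matrix.det_permutation, Equiv.Perm.sign_swap (Ne.symm (succ_succ_ne_one3 k))]
    decide⟩

theorem swap_fix_zero (k : Fin n) : Equiv.swap (1 : Fin (n + 2)) k.succ.succ 0 = 0 :=
  Equiv.swap_apply_of_ne_of_ne (Ne.symm one_ne_zero3) (Ne.symm (succ_succ_ne_zero3 k))

theorem swap_mul_transvection (k : Fin n) :
    swapS k * gs 0 0 1 1 = gs (Pi.single k 1) 0 0 1 * swapS k := by
  apply Subtype.ext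
  show Equiv.Perm.permMatrix (ZMod 2) (Equiv.swap (1 : Fin (n + 2)) k.succ.succ) * gm 0 0 1 1 =
    gm (Pi.single k 1) 0 0 1 * Equiv.Perm.permMatrix (ZMod 2) (Equiv.swap (1 : Fin (n + 2)) k.succ.succ)
  rw [gm_transvection, gm_single, Equiv.Perm.permMatrix, PEquiv.toMatrix_toPEquiv_mul,
    PEquiv.mul_toMatrix_toPEquiv, Equiv.symm_swap]
  have h1 : ∀ i j : Fin (n + 2), Equiv.swap (1 : Fin (n + 2)) k.succ.succ i = j ↔
      i = Equiv.swap (1 : Fin (n + 2)) k.succ.succ j := fun i j => Equiv.swap_apply_eq_iff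
  have h2 : ∀ i : Fin (n + 2), 0 = Equiv.swap (1 : Fin (n + 2)) k.succ.succ i ↔ 0 = i := by
    intro i
    rw [eq_comm, h1, swap_fix_zero, eq_comm]
  have h3 : ∀ j : Fin (n + 2), k.succ.succ = Equiv.swap (1 : Fin (n + 2)) k.succ.succ j ↔
      1 = j := by
    intro j
    rw [eq_comm, h1, Equiv.swap_apply_right, eq_comm]
  ext i j
  simp only [Matrix.submatrix_apply, id, Matrix.transvection, Matrix.add_apply, Matrix.one_apply,
    Matrix.single_apply, h1, h2, h3]

theorem swap_mul_single (k : Fin n) :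
    swapS k * gs (Pi.single k 1) 0 0 1 = gs 0 0 1 1 * swapS k := by
  apply Subtype.ext
  show Equiv.Perm.permMatrix (ZMod 2) (Equiv.swap (1 : Fin (n + 2)) k.succ.succ) *
      gm (Pi.single k 1) 0 0 1 =
    gm 0 0 1 1 * Equiv.Perm.permMatrix (ZMod 2) (Equiv.swap (1 : Fin (n + 2)) k.succ.succ)
  rw [gm_transvection, gm_single, Equiv.Perm.permMatrix, PEquiv.toMatrix_toPEquiv_mul,
    PEquiv.mul_toMatrix_toPEquiv, Equiv.symm_swap]
  have h1 : ∀ i j : Fin (n + 2), Equiv.swap (1 : Fin (n + 2)) k.succ.succ i = j ↔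
      i = Equiv.swap (1 : Fin (n + 2)) k.succ.succ j := fun i j => Equiv.swap_apply_eq_iff
  have h2 : ∀ i : Fin (n + 2), 0 = Equiv.swap (1 : Fin (n + 2)) k.succ.succ i ↔ 0 = i := by
    intro i
    rw [eq_comm, h1, swap_fix_zero, eq_comm]
  have h3 : ∀ j : Fin (n + 2), 1 = Equiv.swap (1 : Fin (n + 2)) k.succ.succ j ↔
      k.succ.succ = j := by
    intro j
    rw [eq_comm, h1, Equiv.swap_apply_left, eq_comm]
  ext i j
  simp only [Matrix.submatrix_apply, id, Matrix.transvection, Matrix.add_apply, Matrix.one_apply,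
    Matrix.single_apply, h1, h2, h3]

/-- The special linear group of degree at least 2 over the field with two elements has no
nontrivial normal 2-subgroup. -/
theorem sl_no_normal_two (hn : 2 ≤ n) (N : Subgroup (Matrix.SpecialLinearGroup (Fin n) (ZMod 2)))
    (hN : N.Normal) (hp : IsPGroup 2 ↥N) : N = ⊥ := by
  have : Fact (Nat.Prime 2) := ⟨Nat.prime_two⟩
  letI act : MulAction ↥N (Fin n → ZMod 2) :=
    { smul := fun g w => g.1.1 *ᵥ w
      one_smul := fun w => Matrix.one_mulVec w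
      mul_smul := fun g h w => by
        show (g.1.1 * h.1.1) *ᵥ w = g.1.1 *ᵥ (h.1.1 *ᵥ w)
        rw [Matrix.mulVec_mulVec] }
  have hsm : ∀ (g : ↥N) (w : Fin n → ZMod 2), g • w = g.1.1 *ᵥ w := fun _ _ => rfl
  have hdvd : 2 ∣ Nat.card (Fin n → ZMod 2) := by
    rw [Nat.card_fun, Nat.card_zmod, Nat.card_fin]
    exact dvd_pow_self 2 (by omega)
  obtain ⟨w, hw, hw0⟩ := hp.exists_fixed_point_of_prime_dvd_card_of_fixed_point
    (Fin n → ZMod 2) hdvd (a := 0) (by
      intro g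
      rw [hsm]
      exact Matrix.mulVec_zero _)
  have hfix : ∀ g ∈ N, g.1 *ᵥ w = w := fun g hg => hw ⟨g, hg⟩
  have hW : ∀ (s : Matrix.SpecialLinearGroup (Fin n) (ZMod 2)) (x : Fin n → ZMod 2),
      (∀ g ∈ N, g.1 *ᵥ x = x) → ∀ g ∈ N, g.1 *ᵥ (s.1 *ᵥ x) = s.1 *ᵥ x := by
    intro s x hx g hg
    have h1 := hx (s⁻¹ * g * s) (by
      have := hN.conj_mem g hg s⁻¹
      rwa [inv_inv] at this)
    have h2 : g.1 *ᵥ (s.1 *ᵥ x) = s.1 *ᵥ ((s⁻¹ * g * s).1 *ᵥ x) := by
      have e3 : g * s = s * (s⁻¹ * g * s) := by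
        rw [← mul_assoc, ← mul_assoc, mul_inv_cancel, one_mul]
      rw [Matrix.mulVec_mulVec, Matrix.mulVec_mulVec, ← Matrix.SpecialLinearGroup.coe_mul,
        ← Matrix.SpecialLinearGroup.coe_mul, ← e3]
    rw [h2, h1]
  have hadd : ∀ x y : Fin n → ZMod 2, (∀ g ∈ N, g.1 *ᵥ x = x) → (∀ g ∈ N, g.1 *ᵥ y = y) →
      ∀ g ∈ N, g.1 *ᵥ (x + y) = x + y := by
    intro x y hx hy g hg
    rw [Matrix.mulVec_add, hx g hg, hy g hg]
  have hstep : ∀ (x : Fin n → ZMod 2) (i j : Fin n), i ≠ j → x j = 1 →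
      (∀ g ∈ N, g.1 *ᵥ x = x) → ∀ g ∈ N, g.1 *ᵥ (Pi.single i 1) = Pi.single i 1 := by
    intro x i j hij hxj hx
    have h1 := hW ⟨Matrix.transvection i j 1, Matrix.det_transvection_of_ne i j hij 1⟩ x hx
    have e : (Matrix.transvection i j (1 : ZMod 2)) *ᵥ x = x + Pi.single i 1 := by
      rw [Matrix.transvection, Matrix.add_mulVec, Matrix.one_mulVec, Matrix.single_mulVec, hxj,
        mul_one]
      rfl
    rw [e] at h1
    have h2 := hadd _ _ hx h1
    have e2 : x + (x + Pi.single i 1) = Pi.single i 1 := by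
      rw [← add_assoc, zvec_add_self, zero_add]
    rwa [e2] at h2
  obtain ⟨j, hj⟩ : ∃ j, w j = 1 := by
    by_contra hc
    apply hw0
    funext k
    rcases zmod2_cases (w k) with h | h
    · exact h.symm
    · exact absurd ⟨k, h⟩ hc
  have hnt : Nontrivial (Fin n) := Fin.nontrivial_iff_two_le.mpr hn
  obtain ⟨i, hij⟩ := exists_ne j
  have hei := hstep w i j hij hj hfix
  have hall : ∀ k, ∀ g ∈ N, g.1 *ᵥ (Pi.single k 1) = Pi.single k 1 := by
    intro k
    by_cases hk : k = i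
    · rw [hk]
      exact hei
    · exact hstep (Pi.single i 1) k i hk (Pi.single_eq_same i 1) hei
  rw [Subgroup.eq_bot_iff_forall]
  intro g hg
  apply Subtype.ext
  ext a b
  have h1 := congrFun (hall b g hg) a
  rw [Matrix.mulVec_single_one] at h1
  rw [Matrix.SpecialLinearGroup.coe_one, Matrix.one_apply]
  rw [Pi.single_apply] at h1
  exact h1

end

end Cfsg.Agent.Lib.Helper95
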