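import Cfsg.Agent.Lib.Helper95.OctInvGrp
import Cfsg.Agent.Lib.Helper95.TransvCent

/-!
# Large extraspecial subgroups from elementwise data, and the Heisenberg group of a transvection
-/

set_option autoImplicit false
open Cfsg

namespace Cfsg.Agent.Lib.Helper95

open Cfsg.Agent.Lib.Helper94 Matrix

section General

variable {G : Type*} [Group G]

/-- The structure of the centraliser of an involution from elementwise data: an extraspecial
normal subgroup `Q` with a complement acting faithfully on `Q / Z(Q)` and without normal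
2-subgroups, and a conjugate of the involution in `Q` that is swapped with it. -/
theorem large_of_data [Finite G] {L : Type*} [Group L] (z : G) (Q : Subgroup G)
    (ψ : L →* G) (m : ℕ) (hex : ExtraAt Q z) (hna : ∃ a ∈ Q, ∃ b ∈ Q, a * b ≠ b * a)
    (hcard : Nat.card ↥Q = 2 ^ m) (hψz : ∀ l, ψ l * z = z * ψ l)
    (hsurj : ∀ c : G, c * z = z * c → ∃ q ∈ Q, ∃ l, c = q * ψ l)
    (hker : ∀ l, ψ l ∈ Q → l = 1)
    (hnorm : ∀ l, ∀ q ∈ Q, ψ l * q * (ψ l)⁻¹ ∈ Q)
    (hL : ∀ N : Subgroup L, N.Normal → IsPGroup 2 ↥N → N = ⊥)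
    (hfaith : ∀ l, (∀ v ∈ Q, ψ l * v * (ψ l)⁻¹ = v ∨ ψ l * v * (ψ l)⁻¹ = z * v) → l = 1)
    (b h : G) (hb : b ∈ Q) (hb1 : b ≠ 1) (hbz : b ≠ z) (hbb : b * b = 1)
    (hzb : h * z * h⁻¹ = b) (hbz' : h * b * h⁻¹ = z) :
    tc z = Q ∧ IsExtraspecial 2 ↥Q ∧ IsLargeExtraspecial Q ∧
      ψ.range ≤ Subgroup.centralizer ({z} : Set G) ∧ Q ⊓ ψ.range = ⊥ ∧
      Q ⊔ ψ.range = Subgroup.centralizer ({z} : Set G) ∧ Function.Injective ψ := by
  have : Fact (Nat.Prime 2) := ⟨Nat.prime_two⟩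
  have hmemC : ∀ c : G, c ∈ Subgroup.centralizer ({z} : Set G) ↔ c * z = z * c := by
    intro c
    rw [Subgroup.mem_centralizer_iff]
    constructor
    · intro hc
      exact (hc z rfl).symm
    · intro hc y hy
      rw [Set.mem_singleton_iff.mp hy]
      exact hc.symm
  have hQC : Q ≤ Subgroup.centralizer ({z} : Set G) := fun q hq =>
    (hmemC q).mpr (hex.central q hq)
  have hKC : ψ.range ≤ Subgroup.centralizer ({z} : Set G) := by
    rintro _ ⟨l, rfl⟩
    exact (hmemC _).mpr (hψz l)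
  have hψinj : Function.Injective ψ := by
    rw [injective_iff_map_eq_one]
    intro l hl
    apply hker
    rw [hl]
    exact Q.one_mem
  have hQ2 : IsPGroup 2 ↥Q := IsPGroup.of_card hcard
  have hnormC : ∀ c ∈ Subgroup.centralizer ({z} : Set G), ∀ q ∈ Q, c * q * c⁻¹ ∈ Q := by
    intro c hc q hq
    obtain ⟨q', hq', l, rfl⟩ := hsurj c ((hmemC c).mp hc)
    have e : q' * ψ l * q * (q' * ψ l)⁻¹ = q' * (ψ l * q * (ψ l)⁻¹) * q'⁻¹ := by group
    rw [e]
    exact Q.mul_mem (Q.mul_mem hq' (hnorm l q hq)) (Q.inv_mem hq')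
  have hcore : tc z = Q := by
    refine coreIn_eq_of_split _ Q ψ.range hQC hKC hQ2 hnormC ?_ ?_
    · intro c hc
      obtain ⟨q, hq, l, rfl⟩ := hsurj c ((hmemC c).mp hc)
      exact ⟨q, hq, ψ l, ⟨l, rfl⟩, rfl⟩
    · intro N hNK hNn hNp
      have hn : (N.comap ψ).Normal := ⟨fun n hn g => by
        show ψ (g * n * g⁻¹) ∈ N
        rw [map_mul, map_mul, map_inv]
        exact hNn _ ⟨g, rfl⟩ _ hn⟩
      have h5 := hL _ hn (hNp.comap_of_injective ψ hψinj)
      rw [Subgroup.eq_bot_iff_forall] at h5 ⊢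
      intro x hx
      obtain ⟨l, rfl⟩ := hNK hx
      rw [h5 l hx, map_one]
  have hzZ : z ∈ (Subgroup.center ↥Q).map Q.subtype :=
    mem_map_center_subtype.mpr ⟨hex.mem, fun v hv => hex.central v hv⟩
  have hL2 : Subgroup.centralizer (Q : Set G) = (Subgroup.center ↥Q).map Q.subtype := by
    ext y
    rw [mem_map_center_subtype, Subgroup.mem_centralizer_iff]
    constructor
    · intro hy
      refine ⟨?_, fun v hv => hy v hv⟩
      obtain ⟨q, hq, l, rfl⟩ := hsurj y (hy z hex.mem).symm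
      have hl : l = 1 := by
        apply hfaith
        intro v hv
        have e1 : ψ l * v * (ψ l)⁻¹ = q⁻¹ * ((q * ψ l) * v * (q * ψ l)⁻¹) * q := by group
        have e2 : (q * ψ l) * v * (q * ψ l)⁻¹ = v := by
          rw [← hy v hv]
          group
        rw [e1, e2]
        rcases hex.comm q⁻¹ (Q.inv_mem hq) v hv with e | e
        · left
          have : q⁻¹ * v * q = (q⁻¹ * v * q⁻¹⁻¹ * v⁻¹) * v := by group
          rw [this, e, one_mul]
        · right
          have : q⁻¹ * v * q = (q⁻¹ * v * q⁻¹⁻¹ * v⁻¹) * v := by group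
          rw [this, e]
      rw [hl, map_one, mul_one]
      exact hq
    · rintro ⟨-, hc⟩ v hv
      exact hc v hv
  have hL3 : Subgroup.centralizer (((Subgroup.center ↥Q).map Q.subtype : Subgroup G) : Set G) ≤
      Subgroup.normalizer (Q : Set G) := by
    intro y hy
    rw [Subgroup.mem_centralizer_iff] at hy
    have hyC : y ∈ Subgroup.centralizer ({z} : Set G) := (hmemC y).mpr (hy z hzZ).symm
    rw [Subgroup.mem_normalizer_iff]
    intro x
    constructor
    · exact hnormC y hyC x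
    · intro hx
      have h5 := hnormC y⁻¹ (Subgroup.inv_mem _ hyC) _ hx
      have e : y⁻¹ * (y * x * y⁻¹) * y⁻¹⁻¹ = x := by group
      rwa [e] at h5
  have hbZ : b ∉ (Subgroup.center ↥Q).map Q.subtype := by
    intro hc
    rw [mem_map_center_subtype] at hc
    rcases hex.center b hb (fun v hv => (hc.2 v hv).symm) with e | e
    · exact hb1 e
    · exact hbz e
  have hbo : orderOf b = 2 := orderOf_eq_prime (by rw [pow_two]; exact hbb) hb1
  have hZb : (Subgroup.center ↥Q).map Q.subtype ≤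
      (Cfsg.pCore 2 ↥(Subgroup.centralizer ({b} : Set G))).map
        (Subgroup.centralizer ({b} : Set G)).subtype := by
    intro c hc
    rw [mem_map_center_subtype] at hc
    show c ∈ tc b
    rcases hex.center c hc.1 (fun v hv => (hc.2 v hv).symm) with e | e
    · rw [e]
      exact (tc b).one_mem
    · rw [e, ← hzb, tc_conj, mem_map_conj_iff, hcore]
      have e2 : h⁻¹ * z * h = b := by
        rw [← hbz']
        group
      rw [e2]
      exact hb
  refine ⟨hcore, isExtraspecial_of_extraAt hex hQ2 hna,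
    Cfsg.Agent.S5421.result Q (isExtraspecial_of_extraAt hex hQ2 hna) hL2 hL3 b hb hbZ hbo hZb,
    hKC, ?_, ?_, hψinj⟩
  · rw [Subgroup.eq_bot_iff_forall]
    rintro x ⟨hxQ, l, rfl⟩
    rw [hker l hxQ, map_one]
  · apply le_antisymm (sup_le hQC hKC)
    intro c hc
    obtain ⟨q, hq, l, rfl⟩ := hsurj c ((hmemC c).mp hc)
    exact Subgroup.mul_mem_sup hq ⟨l, rfl⟩

end General

section Heis

variable {n : ℕ}

theorem heis_extraAt (n : ℕ) : ExtraAt (heisQ n) (gs 0 0 1 1) := by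
  refine extraAt_of_sq ⟨0, 0, 1, rfl⟩ ?_ ?_ ?_ ?_ ?_
  · intro h
    have h1 := (gs_inj (h.trans gs_one.symm)).2.2.1
    exact one_ne_zero h1
  · rw [hs_mul, zvec_add_self, zmod2_add_self, zero_dotProduct, add_zero]
    exact gs_one
  · rintro _ ⟨u, v, c, rfl⟩
    rw [hs_mul, hs_mul, dotProduct_zero, zero_dotProduct, add_zero, add_zero, add_zero, zero_add,
      zero_add, add_zero, add_comm c 1]
  · rintro _ ⟨u, v, c, rfl⟩ hcomm
    have hu : u = 0 := by
      funext k
      have h1 := hcomm (gs 0 (Pi.single k 1) 0 1) ⟨_, _, _, rfl⟩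
      rw [hs_mul, hs_mul] at h1
      have h2 := (gs_inj h1).2.2.1
      rw [dotProduct_single, zero_dotProduct, mul_one, add_zero, add_zero, zero_add] at h2
      exact zmod2_add_left_eq _ _ h2.symm
    have hv : v = 0 := by
      funext k
      have h1 := hcomm (gs (Pi.single k 1) 0 0 1) ⟨_, _, _, rfl⟩
      rw [hs_mul, hs_mul] at h1
      have h2 := (gs_inj h1).2.2.1
      rw [single_dotProduct, dotProduct_zero, one_mul, add_zero, add_zero, zero_add] at h2
      exact zmod2_add_left_eq _ _ h2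
    subst hu
    subst hv
    rcases zmod2_cases c with rfl | rfl
    · left
      exact gs_one
    · right
      rfl
  · rintro _ ⟨u, v, c, rfl⟩
    rw [hs_mul, zvec_add_self, zvec_add_self, zmod2_add_self, zero_add]
    rcases zmod2_cases (u ⬝ᵥ v) with h | h
    · left
      rw [h]
      exact gs_one
    · right
      rw [h]

theorem heis_na (k : Fin n) : ∃ a ∈ heisQ n, ∃ b ∈ heisQ n, a * b ≠ b * a := by
  refine ⟨gs (Pi.single k 1) 0 0 1, ⟨_, _, _, rfl⟩, gs 0 (Pi.single k 1) 0 1, ⟨_, _, _, rfl⟩, ?_⟩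
  rw [hs_mul, hs_mul]
  intro h
  have h2 := (gs_inj h).2.2.1
  rw [single_dotProduct, zero_dotProduct, Pi.single_eq_same, one_mul, add_zero, zero_add] at h2
  exact one_ne_zero h2

theorem card_heisQ (n : ℕ) : Nat.card ↥(heisQ n) = 2 ^ (2 * n + 1) := by
  have e : ((Fin n → ZMod 2) × (Fin n → ZMod 2) × ZMod 2) ≃ ↥(heisQ n) :=
    Equiv.ofBijective (fun p => ⟨gs p.1 p.2.1 p.2.2 1, ⟨_, _, _, rfl⟩⟩)
      ⟨fun p q h => by
        obtain ⟨h1, h2, h3, -⟩ := gs_inj (congrArg Subtype.val h)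
        exact Prod.ext h1 (Prod.ext h2 h3),
       fun ⟨g, u, v, c, hg⟩ => ⟨(u, v, c), Subtype.ext hg.symm⟩⟩
  rw [← Nat.card_congr e, Nat.card_prod, Nat.card_prod, Nat.card_fun, Nat.card_zmod, Nat.card_fin]
  ring

theorem card_heisE (n : ℕ) : Nat.card ↥(heisE n) = 2 ^ (n + 1) := by
  have e : ((Fin n → ZMod 2) × ZMod 2) ≃ ↥(heisE n) :=
    Equiv.ofBijective (fun p => ⟨gs p.1 0 p.2 1, ⟨_, _, rfl⟩⟩)
      ⟨fun p q h => by
        obtain ⟨h1, -, h3, -⟩ := gs_inj (congrArg Subtype.val h)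
        exact Prod.ext h1 h3,
       fun ⟨g, u, c, hg⟩ => ⟨(u, c), Subtype.ext hg.symm⟩⟩
  rw [← Nat.card_congr e, Nat.card_prod, Nat.card_fun, Nat.card_zmod, Nat.card_fin]
  ring

theorem heisE_le (n : ℕ) : heisE n ≤ heisQ n := by
  rintro _ ⟨u, c, rfl⟩
  exact ⟨u, 0, c, rfl⟩

theorem heisE_elem (n : ℕ) : IsElementaryAbelian 2 (heisE n) := by
  refine ⟨⟨⟨?_⟩⟩, ?_⟩
  · rintro ⟨_, u, c, rfl⟩ ⟨_, u', c', rfl⟩
    apply Subtype.ext
    show gs u 0 c 1 * gs u' 0 c' 1 = gs u' 0 c' 1 * gs u 0 c 1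
    rw [hs_mul, hs_mul, dotProduct_zero, dotProduct_zero, add_comm u u', add_comm c c']
  · rintro _ ⟨u, c, rfl⟩
    rw [pow_two, hs_mul, zvec_add_self, zvec_add_self, zmod2_add_self, dotProduct_zero, add_zero]
    exact gs_one

end Heis

end Cfsg.Agent.Lib.Helper95
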