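import Mathlib

/-!
# Matrices centralising a transvection over the field with two elements

The matrices of degree `n + 2` with first column `e₀` and second row `e₁ᵀ`, their products, and
the resulting elements of the special linear group.
-/

set_option autoImplicit false

namespace Cfsg.Agent.Lib.Helper95

open Matrix

/-- The matrix with rows `(1, c, u)`, `(0, 1, 0)` and `(0, v k, A k)`. -/
def gm {n : ℕ} (u v : Fin n → ZMod 2) (c : ZMod 2) (A : Matrix (Fin n) (Fin n) (ZMod 2)) :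
    Matrix (Fin (n + 2)) (Fin (n + 2)) (ZMod 2) :=
  Matrix.of (Fin.cons (Fin.cons 1 (Fin.cons c u))
    (Fin.cons (Fin.cons 0 (Fin.cons 1 0))
      (fun k => Fin.cons 0 (Fin.cons (v k) (A k)))))

section

variable {n : ℕ} (u v : Fin n → ZMod 2) (c : ZMod 2) (A : Matrix (Fin n) (Fin n) (ZMod 2))
  (k l : Fin n)

@[simp] theorem gm_00 : gm u v c A 0 0 = 1 := rfl
@[simp] theorem gm_01 : gm u v c A 0 1 = c := rfl
@[simp] theorem gm_0s : gm u v c A 0 k.succ.succ = u k := rfl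
@[simp] theorem gm_10 : gm u v c A 1 0 = 0 := rfl
@[simp] theorem gm_11 : gm u v c A 1 1 = 1 := rfl
@[simp] theorem gm_1s : gm u v c A 1 k.succ.succ = 0 := rfl
@[simp] theorem gm_s0 : gm u v c A k.succ.succ 0 = 0 := rfl
@[simp] theorem gm_s1 : gm u v c A k.succ.succ 1 = v k := rfl
@[simp] theorem gm_ss : gm u v c A k.succ.succ l.succ.succ = A k l := rfl

end

/-- Case analysis on an index: the first, the second, or a later one. -/
theorem fin_cases3 {n : ℕ} {P : Fin (n + 2) → Prop} (h0 : P 0) (h1 : P 1)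
    (h2 : ∀ k : Fin n, P k.succ.succ) : ∀ i, P i := by
  intro i
  refine Fin.cases h0 (fun i => ?_) i
  refine Fin.cases ?_ (fun k => h2 k) i
  rw [Fin.succ_zero_eq_one]
  exact h1

theorem sum3 {n : ℕ} (f : Fin (n + 2) → ZMod 2) :
    ∑ i, f i = f 0 + f 1 + ∑ k : Fin n, f k.succ.succ := by
  rw [Fin.sum_univ_succ, Fin.sum_univ_succ, ← add_assoc]
  rfl

theorem one_ne_zero3 {n : ℕ} : (1 : Fin (n + 2)) ≠ 0 := by
  rw [← Fin.succ_zero_eq_one]
  exact Fin.succ_ne_zero _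

theorem succ_succ_ne_zero3 {n : ℕ} (k : Fin n) : k.succ.succ ≠ (0 : Fin (n + 2)) :=
  Fin.succ_ne_zero _

theorem succ_succ_ne_one3 {n : ℕ} (k : Fin n) : k.succ.succ ≠ (1 : Fin (n + 2)) := by
  rw [← Fin.succ_zero_eq_one]
  intro h
  exact Fin.succ_ne_zero _ (Fin.succ_injective _ h)

theorem succ_succ_inj3 {n : ℕ} (k l : Fin n) : k.succ.succ = l.succ.succ ↔ k = l := by
  rw [Fin.succ_inj, Fin.succ_inj]

/-- Two such matrices are equal only if their parameters are. -/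
theorem gm_inj {n : ℕ} {u v u' v' : Fin n → ZMod 2} {c c' : ZMod 2}
    {A A' : Matrix (Fin n) (Fin n) (ZMod 2)} (h : gm u v c A = gm u' v' c' A') :
    u = u' ∧ v = v' ∧ c = c' ∧ A = A' := by
  refine ⟨?_, ?_, ?_, ?_⟩
  · ext k
    have := congrFun (congrFun h 0) k.succ.succ
    simpa using this
  · ext k
    have := congrFun (congrFun h k.succ.succ) 1
    simpa using this
  · have := congrFun (congrFun h 0) 1
    simpa using this
  · ext k l
    have := congrFun (congrFun h k.succ.succ) l.succ.succ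
    simpa using this

theorem gm_one {n : ℕ} : gm (0 : Fin n → ZMod 2) 0 0 1 = 1 := by
  ext i j
  revert i j
  refine fin_cases3 ?_ ?_ (fun k => ?_) <;> refine fin_cases3 ?_ ?_ (fun l => ?_) <;>
    simp [Matrix.one_apply, one_ne_zero3, succ_succ_ne_zero3, succ_succ_ne_one3, succ_succ_inj3,
      Ne.symm one_ne_zero3, Ne.symm (succ_succ_ne_zero3 _), Ne.symm (succ_succ_ne_one3 _)]

/-- The product of two such matrices. -/
theorem gm_mul {n : ℕ} (u v u' v' : Fin n → ZMod 2) (c c' : ZMod 2)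
    (A A' : Matrix (Fin n) (Fin n) (ZMod 2)) :
    gm u v c A * gm u' v' c' A' =
      gm (u' + u ᵥ* A') (v + A *ᵥ v') (c + c' + u ⬝ᵥ v') (A * A') := by
  ext i j
  revert i j
  refine fin_cases3 ?_ ?_ (fun k => ?_) <;> refine fin_cases3 ?_ ?_ (fun l => ?_) <;>
    simp [Matrix.mul_apply, sum3, dotProduct, Matrix.vecMul, Matrix.mulVec]
  · ring

theorem zmod2_mul_eq_one : ∀ a b : ZMod 2, a * b = 1 → a = 1 := by decide

theorem zmod2_eq_one_of_ne_zero : ∀ a : ZMod 2, a ≠ 0 → a = 1 := by decide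

theorem zmod2_cases : ∀ a : ZMod 2, a = 0 ∨ a = 1 := by decide

theorem zmod2_add_self (a : ZMod 2) : a + a = 0 := CharTwo.add_self_eq_zero a

theorem zvec_add_self {n : ℕ} (w : Fin n → ZMod 2) : w + w = 0 := by
  funext k
  exact CharTwo.add_self_eq_zero _

theorem zmod2_add_left_eq : ∀ a b : ZMod 2, a = a + b → b = 0 := by decide

theorem zmod2_add_right_eq : ∀ a b : ZMod 2, a + b = b → a = 0 := by decide

theorem zmod2_add_cancel : ∀ a b c : ZMod 2, a + b = b + c → a = c := by decide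

section SL

variable {n : ℕ}

theorem sl_mul_inv (A : Matrix.SpecialLinearGroup (Fin n) (ZMod 2)) :
    (A : Matrix (Fin n) (Fin n) (ZMod 2)) * ((A⁻¹ : Matrix.SpecialLinearGroup (Fin n) (ZMod 2)) :
      Matrix (Fin n) (Fin n) (ZMod 2)) = 1 := by
  rw [← Matrix.SpecialLinearGroup.coe_mul, mul_inv_cancel, Matrix.SpecialLinearGroup.coe_one]

theorem sl_inv_mul (A : Matrix.SpecialLinearGroup (Fin n) (ZMod 2)) :
    ((A⁻¹ : Matrix.SpecialLinearGroup (Fin n) (ZMod 2)) : Matrix (Fin n) (Fin n) (ZMod 2)) *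
      (A : Matrix (Fin n) (Fin n) (ZMod 2)) = 1 := by
  rw [← Matrix.SpecialLinearGroup.coe_mul, inv_mul_cancel, Matrix.SpecialLinearGroup.coe_one]

/-- The element of the special linear group with rows `(1, c, u)`, `(0, 1, 0)`, `(0, v k, A k)`. -/
def gs (u v : Fin n → ZMod 2) (c : ZMod 2) (A : Matrix.SpecialLinearGroup (Fin n) (ZMod 2)) :
    Matrix.SpecialLinearGroup (Fin (n + 2)) (ZMod 2) :=
  ⟨gm u v c A.1, by
    have h : gm u v c A.1 * gm (u ᵥ* (A⁻¹).1) ((A⁻¹).1 *ᵥ v) (c + u ⬝ᵥ ((A⁻¹).1 *ᵥ v)) (A⁻¹).1 =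
        1 := by
      rw [gm_mul, zvec_add_self, Matrix.mulVec_mulVec, sl_mul_inv, Matrix.one_mulVec,
        zvec_add_self]
      have e : c + (c + u ⬝ᵥ (A⁻¹).1 *ᵥ v) + u ⬝ᵥ (A⁻¹).1 *ᵥ v = 0 := by
        rw [add_assoc c, add_assoc, zmod2_add_self, add_zero, zmod2_add_self]
      rw [e]
      exact gm_one
    have h2 := congrArg Matrix.det h
    rw [Matrix.det_mul, Matrix.det_one] at h2
    exact zmod2_mul_eq_one _ _ h2⟩

theorem gs_val (u v : Fin n → ZMod 2) (c : ZMod 2)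
    (A : Matrix.SpecialLinearGroup (Fin n) (ZMod 2)) : (gs u v c A).1 = gm u v c A.1 := rfl

theorem gs_mul (u v u' v' : Fin n → ZMod 2) (c c' : ZMod 2)
    (A A' : Matrix.SpecialLinearGroup (Fin n) (ZMod 2)) :
    gs u v c A * gs u' v' c' A' =
      gs (u' + u ᵥ* A'.1) (v + A.1 *ᵥ v') (c + c' + u ⬝ᵥ v') (A * A') := by
  apply Subtype.ext
  show gm u v c A.1 * gm u' v' c' A'.1 = gm _ _ _ (A * A').1
  rw [gm_mul]
  rfl

theorem gs_one : gs (0 : Fin n → ZMod 2) 0 0 1 = 1 := Subtype.ext gm_one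

theorem gs_inj {u v u' v' : Fin n → ZMod 2} {c c' : ZMod 2}
    {A A' : Matrix.SpecialLinearGroup (Fin n) (ZMod 2)} (h : gs u v c A = gs u' v' c' A') :
    u = u' ∧ v = v' ∧ c = c' ∧ A = A' := by
  obtain ⟨h1, h2, h3, h4⟩ := gm_inj (congrArg Subtype.val h)
  exact ⟨h1, h2, h3, Subtype.ext h4⟩

/-- The products in the Heisenberg group. -/
theorem hs_mul (u v u' v' : Fin n → ZMod 2) (c c' : ZMod 2) :
    gs u v c 1 * gs u' v' c' 1 = gs (u + u') (v + v') (c + c' + u ⬝ᵥ v') 1 := by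
  rw [gs_mul, Matrix.SpecialLinearGroup.coe_one, Matrix.vecMul_one, Matrix.one_mulVec, mul_one,
    add_comm u' u]

theorem hs_inv (u v : Fin n → ZMod 2) (c : ZMod 2) :
    (gs u v c 1)⁻¹ = gs u v (c + u ⬝ᵥ v) 1 := by
  apply inv_eq_of_mul_eq_one_right
  rw [hs_mul, zvec_add_self, zvec_add_self]
  have e : c + (c + u ⬝ᵥ v) + u ⬝ᵥ v = 0 := by
    rw [add_assoc c, add_assoc, zmod2_add_self, add_zero, zmod2_add_self]
  rw [e]
  exact gs_one

/-- The Heisenberg group of order `2 ^ (2 n + 1)`. -/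
def heisQ (n : ℕ) : Subgroup (Matrix.SpecialLinearGroup (Fin (n + 2)) (ZMod 2)) where
  carrier := {g | ∃ u v c, g = gs u v c 1}
  mul_mem' := by
    rintro _ _ ⟨u, v, c, rfl⟩ ⟨u', v', c', rfl⟩
    exact ⟨_, _, _, hs_mul u v u' v' c c'⟩
  one_mem' := ⟨0, 0, 0, gs_one.symm⟩
  inv_mem' := by
    rintro _ ⟨u, v, c, rfl⟩
    exact ⟨_, _, _, hs_inv u v c⟩

theorem mem_heisQ {g : Matrix.SpecialLinearGroup (Fin (n + 2)) (ZMod 2)} :
    g ∈ heisQ n ↔ ∃ u v c, g = gs u v c 1 := Iff.rfl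

/-- The elementary abelian subgroup of order `2 ^ (n + 1)`. -/
def heisE (n : ℕ) : Subgroup (Matrix.SpecialLinearGroup (Fin (n + 2)) (ZMod 2)) where
  carrier := {g | ∃ u c, g = gs u 0 c 1}
  mul_mem' := by
    rintro _ _ ⟨u, c, rfl⟩ ⟨u', c', rfl⟩
    refine ⟨u + u', c + c', ?_⟩
    rw [hs_mul, add_zero, dotProduct_zero, add_zero]
  one_mem' := ⟨0, 0, gs_one.symm⟩
  inv_mem' := by
    rintro _ ⟨u, c, rfl⟩
    refine ⟨u, c, ?_⟩
    rw [hs_inv, dotProduct_zero, add_zero]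

/-- The block embedding of the special linear group of degree `n`. -/
def dsHom (n : ℕ) : Matrix.SpecialLinearGroup (Fin n) (ZMod 2) →*
    Matrix.SpecialLinearGroup (Fin (n + 2)) (ZMod 2) where
  toFun A := gs 0 0 0 A
  map_one' := gs_one
  map_mul' A B := by
    rw [gs_mul, Matrix.zero_vecMul, Matrix.mulVec_zero, zero_dotProduct]
    simp

theorem dsHom_apply (A : Matrix.SpecialLinearGroup (Fin n) (ZMod 2)) :
    dsHom n A = gs 0 0 0 A := rfl

/-- The conjugation action of the block matrices on the Heisenberg group. -/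
theorem ds_mul_hs (A : Matrix.SpecialLinearGroup (Fin n) (ZMod 2)) (u v : Fin n → ZMod 2)
    (c : ZMod 2) : gs 0 0 0 A * gs u v c 1 = gs u (A.1 *ᵥ v) c A := by
  rw [gs_mul, Matrix.SpecialLinearGroup.coe_one, Matrix.zero_vecMul, zero_dotProduct]
  simp

theorem hs_mul_ds (A : Matrix.SpecialLinearGroup (Fin n) (ZMod 2)) (u v : Fin n → ZMod 2)
    (c : ZMod 2) : gs u v c 1 * gs 0 0 0 A = gs (u ᵥ* A.1) v c A := by
  rw [gs_mul, Matrix.SpecialLinearGroup.coe_one, Matrix.mulVec_zero, dotProduct_zero]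
  simp

theorem ds_conj_hs (A : Matrix.SpecialLinearGroup (Fin n) (ZMod 2)) (u v : Fin n → ZMod 2)
    (c : ZMod 2) : gs 0 0 0 A * gs u v c 1 * (gs 0 0 0 A)⁻¹ = gs (u ᵥ* (A⁻¹).1) (A.1 *ᵥ v) c 1 := by
  rw [mul_inv_eq_iff_eq_mul, ds_mul_hs, hs_mul_ds, Matrix.vecMul_vecMul, sl_inv_mul,
    Matrix.vecMul_one]

theorem gs_eq_hs_mul_ds (A : Matrix.SpecialLinearGroup (Fin n) (ZMod 2)) (u v : Fin n → ZMod 2)
    (c : ZMod 2) : gs u v c A = gs (u ᵥ* (A⁻¹).1) v c 1 * gs 0 0 0 A := by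
  rw [hs_mul_ds, Matrix.vecMul_vecMul, sl_inv_mul, Matrix.vecMul_one]

end SL

end Cfsg.Agent.Lib.Helper95
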