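import Cfsg.Agent.Lib.Helper95.TrioData

/-!
# Checks for the stabiliser of the base trio

The computations with the tables of the normal subgroup of order 64 and of the complement.
-/

set_option autoImplicit false
open scoped Pointwise
open Cfsg

namespace Cfsg.Agent.Lib.Helper95

open Cfsg.Agent.Lib.Helper9

theorem n64_span : spanOK gens64 n64 = true := by decide +kernel

theorem n64_nodup : n64.Nodup := by decide +kernel

theorem gens64_ok : gens64.all trStabOK = true := by decide +kernel

theorem p3_ok : (List.range 9).all (fun k => trStabOK (p3.getD k idT)) = true := by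
  decide +kernel

theorem gl_perm : glKeys.all (fun k => permOK (gl3Tab gl2 k)) = true := by decide +kernel

theorem gl_one : gl3Tab gl2 273 = idT := by decide +kernel

theorem gl_mulgen : glKeys.all (fun k =>
    compT (gl3Tab gl2 k) (gl3Tab gl2 glGen1) == gl3Tab gl2 (mulKey k glGen1) &&
      compT (gl3Tab gl2 k) (gl3Tab gl2 glGen2) == gl3Tab gl2 (mulKey k glGen2)) = true := by
  decide +kernel

theorem gl_gen_ok : trStabOK (gl3Tab gl2 glGen1) = true ∧ trStabOK (gl3Tab gl2 glGen2) = true := by
  decide +kernel

theorem p3_table : P3Table p3 :=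
  ⟨fun k hk => (mem_trStab0_of_trStabOK
    (List.all_eq_true.mp p3_ok k (List.mem_range.mpr hk))).1, by decide +kernel⟩

theorem comm_gen : ∀ m ∈ ([1, 2, 3, 5, 6, 7] : List ℕ),
    compT (gl3Tab gl2 glGen1) (p3.getD m idT) = compT (p3.getD m idT) (gl3Tab gl2 glGen1) ∧
      compT (gl3Tab gl2 glGen2) (p3.getD m idT) = compT (p3.getD m idT) (gl3Tab gl2 glGen2) := by
  decide +kernel

theorem inj_dec : glKeys.all (fun k => ([1, 2, 3, 5, 6, 7] : List ℕ).all (fun m =>
    !(n64.contains (compT (gl3Tab gl2 k) (p3.getD m idT))) || (k == 273 && m == 1))) = true := by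
  decide +kernel

theorem conj1_gen :
    gens64.all (fun g => n64.contains (compT (compT (gl3Tab gl2 glGen1) g)
      (invT (gl3Tab gl2 glGen1)))) = true ∧
    gens64.all (fun g => n64.contains (compT (compT (gl3Tab gl2 glGen2) g)
      (invT (gl3Tab gl2 glGen2)))) = true := by decide +kernel

theorem conj2_dec : ∀ m ∈ ([1, 2, 3, 5, 6, 7] : List ℕ),
    gens64.all (fun g => n64.contains (compT (compT (p3.getD m idT) g)
      (invT (p3.getD m idT)))) = true := by decide +kernel

theorem swap_dec : tr0L.all (fun a => tr0L.all (fun b => a == b || p3.any (fun T =>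
    push T a == b && push T b == a &&
      tr0L.all (fun m => m == a || m == b || push T m == m)))) = true := by decide +kernel

end Cfsg.Agent.Lib.Helper95
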